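import Mathlib
import Cfsg.Agent.Class.Spec.PCount

/-!
Eigenvalue multisets of semisimple elements of prime order of `PSL` and their stability under
twisted power maps.
-/

set_option autoImplicit false

namespace Cfsg.Agent.Class.Spec

variable {M : Type*} [CommGroup M] {p n r : ℕ} {Q R : ℤ} {m : Multiset M}

/-- The eigenvalues of an element of `SL_n` which has order `r` modulo scalars. -/
structure Adm (Q : ℤ) (n r : ℕ) (m : Multiset M) : Prop where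
  card : m.card = n
  inv : m.map (· ^ Q) = m
  prod : m.prod = 1
  pow : ∃ c, ∀ α ∈ m, α ^ r = c
  ne : ¬ ∃ c, ∀ α ∈ m, α = c

/-- Stability under the `R`-th power map up to a multiplier. -/
def TwL (Q R : ℤ) (m : Multiset M) : Prop := ∃ l, l ^ Q = l ∧ m.map (fun α => l * α ^ R) = m

/-- Stability under the `R`-th power map after scaling. -/
def TwS (Q R : ℤ) (m : Multiset M) : Prop :=
  ∃ c, c ^ Q = c ∧ (m.map (c * ·)).map (· ^ R) = m.map (c * ·)

theorem TwS.twL (h : TwS Q R m) : TwL Q R m := by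
  obtain ⟨c, h1, h2⟩ := h
  refine ⟨c⁻¹ * c ^ R, by rw [mul_zpow, inv_zpow, ← zpow_mul, mul_comm R, zpow_mul, h1], ?_⟩
  simpa [mul_zpow, mul_assoc] using congrArg (Multiset.map (c⁻¹ * ·)) h2

theorem eq_one_of_prime {α : M} (hr : r.Prime) (h1 : α ^ r = 1) {k : ℤ} (h2 : α ^ k = 1)
    (h : ¬ (r : ℤ) ∣ k) : α = 1 := by
  have := Fact.mk hr
  by_contra e
  exact h (orderOf_eq_prime h1 e ▸ orderOf_dvd_iff_zpow_eq_one.2 h2)

theorem zpow_eq_self_of_pow {α : M} (h : α ^ r = 1) (hQ : (r : ℤ) ∣ Q - 1) : α ^ Q = α :=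
  zpow_eq_self_iff.2 (zpow_eq_one_of_dvd (by exact_mod_cast h) hQ)

theorem zpow_congr_of_pow {α : M} (h : α ^ r = 1) (hQ : (r : ℤ) ∣ Q - R) : α ^ Q = α ^ R := by
  rw [← div_eq_one, div_eq_mul_inv, ← zpow_neg, ← zpow_add, ← sub_eq_add_neg]
  exact zpow_eq_one_of_dvd (by exact_mod_cast h) hQ

theorem IsQ.exists_mu (hQ : IsQ M p Q) (hr : r.Prime) (hrp : r ≠ p) :
    ∃ ζ : M, orderOf ζ = r ∧ ∀ β, β ∈ Subgroup.zpowers ζ ↔ β ^ r = 1 := by
  obtain ⟨ζ, hζ⟩ := hQ.ex r fun e => hrp ((Nat.prime_dvd_prime_iff_eq hQ.prime hr).1 e).symm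
  refine ⟨ζ, hζ, fun β => ⟨fun h => hζ ▸ orderOf_dvd_iff_pow_eq_one.1
    (orderOf_dvd_of_mem_zpowers h), fun h => ?_⟩⟩
  obtain ⟨k, rfl⟩ := hQ.cyc ζ β (hζ ▸ hr.pos) (hζ ▸ h)
  exact Subgroup.npow_mem_zpowers _ _

theorem Adm.pos (h : Adm Q n r m) : 0 < n := Nat.pos_of_ne_zero fun e =>
  h.ne ⟨1, by simp [Multiset.card_eq_zero.1 (h.card.trans e)]⟩

theorem Adm.fixed (h : Adm Q n r m) {α : M} (hα : α ∈ m) : (α ^ r) ^ Q = α ^ r := by
  obtain ⟨c, hc⟩ := h.pow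
  rw [← zpow_natCast, ← zpow_mul, mul_comm, zpow_mul, zpow_natCast,
    hc _ (h.inv ▸ Multiset.mem_map_of_mem _ hα), zpow_natCast, hc α hα]

/-- Either a scalar multiple has order `r`, or the eigenvalues are full cosets of `μ_r`. -/
theorem Adm.cases (h : Adm Q n r m) (hQ : IsQ M p Q) (hr : r.Prime) (hrp : r ≠ p) :
    (∃ c, c ^ Q = c ∧ ∀ α ∈ m, (c * α) ^ r = 1) ∨ (r : ℤ) ∣ Q - 1 ∧ r ∣ n ∧
      ∃ α z : M, α ∈ m ∧ α ^ Q ≠ α ∧ z ^ r = 1 ∧ z ^ 2 = 1 ∧ (α ^ r * z) ^ (n / r) = 1 ∧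
        (r = 2 → z ≠ 1 ∧ m = (n / 2) • {α, z * α}) := by
  obtain ⟨c, hc⟩ := h.pow
  obtain ⟨α, hα⟩ := Multiset.card_pos_iff_exists_mem.1 (h.card ▸ h.pos)
  have h1 := h.fixed hα
  by_cases h2 : (r : ℤ) ∣ Q - 1
  swap
  · obtain ⟨u, v, e⟩ := (Nat.prime_iff_prime_int.1 hr).irreducible.coprime_iff_not_dvd.2 h2
    refine Or.inl ⟨(α ^ r) ^ (-u), by rw [← zpow_mul, mul_comm, zpow_mul, h1], fun β hβ => ?_⟩
    rw [mul_pow, hc β hβ, ← hc α hα, ← zpow_natCast (_ ^ _), ← zpow_mul, ← zpow_add_one,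
      show -u * r + 1 = (Q - 1) * v by linarith, zpow_mul, zpow_eq_self_iff.1 h1, one_zpow]
  by_cases h3 : α ^ Q = α
  · exact Or.inl ⟨α⁻¹, by rw [inv_zpow, h3], fun β hβ => by
      rw [mul_pow, inv_pow, hc α hα, hc β hβ, inv_mul_cancel]⟩
  obtain ⟨ζ, hζ, mem⟩ := hQ.exists_mu hr hrp
  set μ := Subgroup.zpowers ζ
  have hμ : Nat.card μ = r := by rw [Nat.card_zpowers, hζ]
  have : Finite μ := Nat.finite_of_card_ne_zero (hμ ▸ hr.ne_zero)
  let _ := Fintype.ofFinite μ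
  have h4 : ∀ β ∈ m, α⁻¹ * β ∈ μ := fun β hβ =>
    (mem _).2 (by rw [mul_pow, inv_pow, hc α hα, hc β hβ, inv_mul_cancel])
  obtain ⟨k, hk⟩ := eq_nsmul_cos (hμ ▸ hr) h4 (u := α ^ (Q - 1)) ((mem _).2 (by
    rw [← zpow_natCast, ← zpow_mul, mul_comm, zpow_mul, zpow_natCast, zpow_eq_self_iff.1 h1]))
    (mt zpow_eq_self_iff.2 h3) ((Multiset.map_congr rfl fun β hβ => by
      have := zpow_eq_self_of_pow ((mem _).1 (h4 β hβ)) h2
      rw [mul_zpow, inv_zpow, inv_mul_eq_iff_eq_mul] at this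
      rw [this, zpow_sub_one, mul_assoc]).trans h.inv)
  have h5 := h.card
  rw [hk, Multiset.card_nsmul, card_cos, hμ] at h5
  obtain rfl : k = n / r := by rw [← h5, Nat.mul_div_cancel _ hr.pos]
  have h6 : (cos μ α).prod = α ^ r * (∏ u : μ, u : μ) := by
    simp [cos, ← hμ, Finset.prod_mul_distrib]
  have h7 : ((∏ u : μ, u : μ) : M) ^ 2 = 1 := by
    rw [← Subgroup.coe_pow, OneMemClass.coe_eq_one, sq]
    nth_rw 1 [← Equiv.prod_comp (Equiv.inv μ) fun u => u]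
    rw [← Finset.prod_mul_distrib]
    simp
  refine Or.inr ⟨h2, Dvd.intro_left _ h5, α, _, hα, h3, (mem _).1 (∏ u : μ, u : μ).2, h7,
    by rw [← h6, ← Multiset.prod_nsmul, ← hk, h.prod], ?_⟩
  rintro rfl
  have h8 : ζ ≠ 1 := fun e => by simp [e] at hζ
  have h9 : cos μ α = {α, ζ * α} := by
    refine (Multiset.eq_of_le_of_card_le ((Multiset.le_iff_subset (by simpa)).2 fun β hβ => ?_)
      (by rw [card_cos, hμ]; simp)).symm
    simp only [Multiset.insert_eq_cons, Multiset.mem_cons, Multiset.mem_singleton] at hβ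
    rcases hβ with rfl | rfl <;> simp [mem_cos, μ, mul_comm ζ]
  have h10 : ((∏ u : μ, u : μ) : M) = ζ := by
    rw [h9] at h6
    simpa [sq, mul_comm ζ, mul_assoc, eq_comm] using h6
  exact ⟨h10 ▸ h8, by rw [h10, ← h9, ← hk]⟩

theorem zpow_eq_self_of_padic {α : M} (hr : r.Prime) (hn : n ≠ 0) (hQ : Q - 1 ≠ 0) (h1 : α ^ n = 1)
    (h2 : (α ^ r) ^ Q = α ^ r) (h : padicValNat r n ≤ padicValNat r (Q - 1).natAbs) : α ^ Q = α := by
  have := Fact.mk hr
  rw [zpow_eq_self_iff, ← orderOf_dvd_iff_zpow_eq_one, Int.natCast_dvd]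
  rw [zpow_eq_self_iff, ← zpow_natCast, ← zpow_mul, ← orderOf_dvd_iff_zpow_eq_one, Int.natCast_dvd,
    Int.natAbs_mul, Int.natAbs_natCast] at h2
  rw [← orderOf_dvd_iff_pow_eq_one] at h1
  have h0 := Int.natAbs_ne_zero.2 hQ
  refine (Nat.dvd_iff_prime_pow_dvd_dvd _ _).2 fun s k hs hk => ?_
  by_cases e : s = r
  · subst e
    exact (padicValNat_dvd_iff_le h0).2 (((padicValNat_dvd_iff_le hn).1 (hk.trans h1)).trans h)
  · exact (((Nat.coprime_primes hs hr).2 e).pow_left k).dvd_of_dvd_mul_left (hk.trans h2)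

theorem Adm.exists_sc (h : Adm Q n r m) (hQ : IsQ M p Q) (hr : r.Prime) (hrp : r ≠ p)
    (hv : (r : ℤ) ∣ Q - 1 → padicValNat r n ≤ padicValNat r (Q - 1).natAbs)
    (h4 : r = 2 → 4 ∣ Q - 1) : ∃ c, c ^ Q = c ∧ ∀ α ∈ m, (c * α) ^ r = 1 := by
  refine (h.cases hQ hr hrp).resolve_right fun ⟨h1, h2, α, z, h3, h5, h6, h7, h8, h9⟩ => h5 ?_
  have h0 := Int.natAbs_ne_zero.1 hQ.sub_one_pos.ne'
  rcases hr.eq_two_or_odd' with rfl | ho
  · obtain ⟨i, hi⟩ := hQ.ex 4 fun e => hrp ((Nat.prime_dvd_prime_iff_eq hQ.prime hr).1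
      (hQ.prime.dvd_of_dvd_pow (n := 2) e)).symm
    have e1 : i ^ Q = i := zpow_eq_self_of_pow (r := 4) (by rw [← hi]; exact pow_orderOf_eq_one i) (h4 rfl)
    have e2 : z = i ^ 2 := (hQ.eq_or_eq_of_sq (by rw [orderOf_pow' _ two_ne_zero, hi]; rfl)
      (sq z ▸ h7)).resolve_left (h9 rfl).1
    have := zpow_eq_self_of_padic (α := α * i) hr h.pos.ne' h0
      (by rwa [e2, ← mul_pow, ← pow_mul, Nat.mul_div_cancel' h2] at h8)
      (by rw [mul_pow, mul_zpow, h.fixed h3, ← zpow_natCast i, ← zpow_mul, mul_comm _ Q, zpow_mul, e1])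
      (hv h1)
    rwa [mul_zpow, e1, mul_left_inj] at this
  · obtain rfl : z = 1 := eq_one_of_prime hr h6 (k := 2) (by exact_mod_cast h7)
      (not_dvd_two hr (by rintro rfl; exact absurd ho (by decide)))
    exact zpow_eq_self_of_padic hr h.pos.ne' h0
      (by rwa [mul_one, ← pow_mul, Nat.mul_div_cancel' h2] at h8) (h.fixed h3) (hv h1)

/-! ### Elements which are not stable -/

omit [CommGroup M] in
theorem apply_eq_of_count [DecidableEq M] {φ : M → M} (hφ : Function.Injective φ) (h : m.map φ = m)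
    {a : M} (ha : ∀ b, m.count b = m.count a → b = a) : φ a = a :=
  ha _ (by conv_lhs => rw [← h]
           exact Multiset.count_map_eq_count' _ _ hφ _)

theorem TwL.dvd_of_count [DecidableEq M] (h : TwL Q R m) (hR : Function.Injective fun α : M => α ^ R)
    {a ζ : M} (hζ : orderOf ζ = r) (ha : ∀ b, m.count b = m.count a → b = a)
    (hb : ∀ b, m.count b = m.count (a * ζ) → b = a * ζ) : (r : ℤ) ∣ R - 1 := by
  obtain ⟨l, -, hl⟩ := h
  have hφ : Function.Injective fun α : M => l * α ^ R := fun _ _ e => hR (mul_left_cancel e)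
  have h1 := apply_eq_of_count hφ hl ha
  have h2 := apply_eq_of_count hφ hl hb
  rw [mul_zpow, ← mul_assoc, h1, mul_right_inj, zpow_eq_self_iff] at h2
  exact hζ ▸ orderOf_dvd_iff_zpow_eq_one.2 h2

theorem IsQ.exists_not_twL_orbit (hQ : IsQ M p Q) (hr : r.Prime) (hrp : r ≠ p)
    (h1 : ¬ (r : ℤ) ∣ Q - 1) {j : ℕ} (hj : 0 < j) (hjn : j ≤ n) (h2 : (r : ℤ) ∣ Q ^ j - 1)
    (h3 : ¬ (r : ℤ) ∣ R ^ j - 1) (h4 : ¬ (r : ℤ) ∣ R) :
    ∃ m : Multiset M, Adm Q n r m ∧ ¬ TwL Q R m := by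
  obtain ⟨ζ, hζ, -⟩ := hQ.exists_mu hr hrp
  have e0 : ζ ^ r = 1 := hζ ▸ pow_orderOf_eq_one ζ
  have e1 : ∀ k : ℤ, ζ ^ k = 1 ↔ (r : ℤ) ∣ k := fun k => by rw [← orderOf_dvd_iff_zpow_eq_one, hζ]
  have e2 := zpow_eq_self_of_pow e0 h2
  have hv := (valid_blk e2 one_pos).add (valid_idb (Q := Q) (M := M) (n - j))
  have hs : blk Q j ζ 1 + idb M (n - j) =
      ss (((Multiset.range j).map fun i => ζ ^ Q ^ i) + Multiset.replicate (n - j) 1) := by
    simp [ss, blk, idb]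
  have hd : jdet (blk Q j ζ 1 + idb M (n - j)) = 1 := by
    rw [jdet_add, jdet_blk, jdet_idb, (e1 _).2 (prime_dvd_gs hr h1 h2)]
    simp
  rw [hs] at hv hd
  set m := ((Multiset.range j).map fun i => ζ ^ Q ^ i) + Multiset.replicate (n - j) 1
  have hm : ∀ α ∈ m, α = 1 ∨ ∃ i : ℕ, ζ ^ Q ^ i = α := fun α hα => by
    rcases Multiset.mem_add.1 hα with h | h
    · obtain ⟨i, -, h⟩ := Multiset.mem_map.1 h
      exact Or.inr ⟨i, h⟩
    · exact Or.inl (Multiset.eq_of_mem_replicate h)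
  have hp : ∀ α ∈ m, α ^ r = 1 := fun α hα => by
    rcases hm α hα with rfl | ⟨i, rfl⟩
    · simp
    · rw [← zpow_natCast, ← zpow_mul, e1]; exact dvd_mul_left _ _
  have h0 : ζ ∈ m := Multiset.mem_add.2 (Or.inl (Multiset.mem_map.2 ⟨0, by simpa, by simp⟩))
  have hi := (valid_ss.1 hv).2
  refine ⟨m, ⟨by rw [(valid_ss.1 hv).1]; omega, hi, jdet_ss m ▸ hd, ⟨1, hp⟩, fun ⟨c, hc⟩ => h1 ?_⟩,
    fun ⟨l, l1, l2⟩ => ?_⟩
  · rw [← e1, ← zpow_eq_self_iff, hc (ζ ^ Q) (hi ▸ Multiset.mem_map_of_mem _ h0),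
      ← hc _ h0]
  have h5 : l * ζ ^ R ∈ m := l2 ▸ Multiset.mem_map_of_mem _ h0
  obtain rfl : l = 1 := eq_one_of_prime hr (by
    have := hp _ h5
    rwa [mul_pow, ← zpow_natCast (ζ ^ R), ← zpow_mul, (e1 _).2 (dvd_mul_left _ _), mul_one] at this)
    (zpow_eq_self_iff.1 l1) h1
  rw [one_mul] at h5
  rcases hm _ h5 with h | ⟨i, h⟩
  · exact h4 ((e1 _).1 h)
  · rw [← div_eq_one, div_eq_mul_inv, ← zpow_neg, ← zpow_add, e1, ← sub_eq_add_neg] at h
    have h6 := h.trans (sub_dvd_pow_sub_pow _ _ j)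
    have h7 := h2.trans (sub_dvd_pow_sub_pow _ _ i)
    rw [← pow_mul, mul_comm, pow_mul, one_pow] at h7
    exact h3 (by simpa using dvd_sub h7 h6)

theorem adm_two {a b : ℕ} {c ζ : M} (ha : 0 < a) (hb : 0 < b) (hc : c ^ Q = c) (hζ : ζ ^ Q = ζ)
    (h1 : ζ ^ r = 1) (h2 : ζ ≠ 1) (h3 : c ^ (a + b) * ζ ^ b = 1) :
    Adm Q (a + b) r (Multiset.replicate a c + Multiset.replicate b (c * ζ)) := by
  refine ⟨by simp, by simp [hc, hζ, mul_zpow], by simpa [mul_pow, ← mul_assoc, ← pow_add] using h3,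
    ⟨c ^ r, fun α hα => ?_⟩, fun ⟨d, hd⟩ => h2 ?_⟩
  · rcases Multiset.mem_add.1 hα with h | h <;> simp [Multiset.eq_of_mem_replicate h, mul_pow, h1]
  · have e1 := hd c (by simp [Multiset.mem_replicate, ha.ne'])
    simpa [e1] using hd (c * ζ) (by simp [Multiset.mem_replicate, hb.ne'])

theorem TwL.dvd_of_two {a b : ℕ} {c ζ : M} (ha : 0 < a) (hb : 0 < b) (hab : a ≠ b)
    (hζ : orderOf ζ = r) (h2 : ζ ≠ 1) (hR : Function.Injective fun α : M => α ^ R)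
    (h : TwL Q R (Multiset.replicate a c + Multiset.replicate b (c * ζ))) : (r : ℤ) ∣ R - 1 := by
  classical
  have h3 : c * ζ ≠ c := by simpa
  refine h.dvd_of_count hR (a := c) hζ (fun x hx => ?_) fun x hx => ?_ <;>
  simp only [Multiset.count_add, Multiset.count_replicate, h3, h3.symm, if_true, if_false] at hx <;>
  split_ifs at hx <;> first | omega | simp_all

theorem IsQ.exists_pow_order (hQ : IsQ M p Q) (hr : r.Prime) (hn : n ≠ 0)
    (h : (r : ℤ) ^ (padicValNat r n + 1) ∣ Q - 1) : ∃ c : M, c ^ Q = c ∧ orderOf (c ^ n) = r := by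
  have := Fact.mk hr
  obtain ⟨c, hc⟩ := hQ.ex (r ^ (padicValNat r n + 1)) fun e => hQ.not_dvd one_pos (by
    rw [pow_one]; exact (Int.natCast_dvd_natCast.2 e).trans (by exact_mod_cast h))
  refine ⟨c, zpow_eq_self_of_pow (pow_orderOf_eq_one c) (by rw [hc]; exact_mod_cast h),
    orderOf_eq_prime ?_ fun e => pow_succ_padicValNat_not_dvd hn (hc ▸ orderOf_dvd_of_pow_eq_one e)⟩
  rw [← pow_mul, ← orderOf_dvd_iff_pow_eq_one, hc, pow_succ]
  exact mul_dvd_mul_right pow_padicValNat_dvd _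

theorem IsQ.exists_not_twL_split (hQ : IsQ M p Q) (hr : r.Prime) (hr2 : r ≠ 2)
    (h1 : (r : ℤ) ∣ Q - 1) (h2 : ¬ (r : ℤ) ∣ R - 1) (hR : Function.Injective fun α : M => α ^ R)
    (hn : 2 ≤ n) (h3 : n = 2 → ¬ (r : ℤ) ∣ R + 1) (h4 : ¬ (n = 6 ∧ r = 3))
    (h5 : r = n → n = 3 ∨ n = 5 → (r : ℤ) ^ 2 ∣ Q - 1) :
    ∃ m : Multiset M, Adm Q n r m ∧ ¬ TwL Q R m := by
  classical
  have := Fact.mk hr
  have hrp : r ≠ p := by rintro rfl; exact hQ.not_dvd one_pos (by simpa using h1)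
  have key : ∀ ζ : M, orderOf ζ = r → ζ ^ r = 1 ∧ ζ ^ Q = ζ ∧ ζ ≠ 1 := fun ζ h =>
    have e := h ▸ pow_orderOf_eq_one ζ
    ⟨e, zpow_eq_self_of_pow e h1, fun e => hr.one_lt.ne' (by rw [← h, e, orderOf_one])⟩
  by_cases h6 : (r : ℤ) ^ (padicValNat r n + 1) ∣ Q - 1
  · obtain ⟨c, c1, c2⟩ := hQ.exists_pow_order hr (by omega) h6
    rw [← orderOf_inv] at c2
    obtain ⟨e1, e2, e3⟩ := key _ c2
    obtain ⟨n, rfl⟩ := Nat.exists_eq_add_one_of_ne_zero (show n ≠ 0 by omega)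
    refine ⟨_, adm_two (by omega) one_pos c1 e2 e1 e3 (by simp), fun h => ?_⟩
    rcases hn.eq_or_lt with e | e
    · obtain rfl : n = 1 := by omega
      generalize (c ^ (1 + 1))⁻¹ = ζ at *
      obtain ⟨l, -, hl⟩ := h
      simp only [Multiset.replicate_one, Multiset.singleton_add, Multiset.map_cons,
        Multiset.map_singleton, Multiset.cons_eq_cons, Multiset.singleton_inj, mul_zpow,
        ← mul_assoc] at hl
      rcases hl with ⟨k1, k2⟩ | ⟨-, s, k1, k2⟩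
      · rw [k1, mul_right_inj, zpow_eq_self_iff, ← orderOf_dvd_iff_zpow_eq_one, c2] at k2
        exact h2 k2
      · rw [eq_comm, ← Multiset.singleton_add, ← add_zero {_}] at k1 k2
        obtain rfl : s = 0 := by simpa using congrArg Multiset.card k1
        simp only [add_zero, Multiset.singleton_inj] at k1 k2
        rw [k2, mul_assoc, left_eq_mul, ← zpow_one_add, ← orderOf_dvd_iff_zpow_eq_one, c2,
          add_comm] at k1
        exact h3 rfl k1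
    · exact h2 (h.dvd_of_two (by omega) one_pos (by omega) c2 e3 hR)
  have h7 : r ∣ n := by
    by_contra e
    exact h6 (by simpa [padicValNat.eq_zero_of_not_dvd e] using h1)
  have h8 : ¬ (r = n ∧ (n = 3 ∨ n = 5)) := fun ⟨e, e'⟩ => h6 (by
    subst e; simpa using h5 rfl e')
  obtain ⟨ζ, hζ, -⟩ := hQ.exists_mu hr hrp
  obtain ⟨e1, e2, e3⟩ := key _ hζ
  by_cases h9 : r = 3
  · subst h9
    obtain ⟨n, rfl⟩ := Nat.exists_eq_add_of_le' (show 3 ≤ n by omega)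
    exact ⟨_, adm_two (c := 1) (by omega) three_pos (by simp) e2 e1 e3 (by simpa),
      fun h => h2 (h.dvd_of_two (by omega) three_pos (by omega) hζ e3 hR)⟩
  have h10 : 5 ≤ r := hr.five_le_of_ne_two_of_ne_three hr2 h9
  have h11 := Nat.le_of_dvd (by omega) h7
  obtain ⟨n, rfl⟩ := Nat.exists_eq_add_of_le' (show 6 ≤ n by omega)
  have f : ∀ k, 0 < k → k < 5 → ζ ^ k ≠ 1 := fun k k1 k2 => pow_ne_one_of_lt_orderOf k1.ne' (by omega)
  have f1 : (ζ ^ 2)⁻¹ ≠ 1 := by simpa using f 2 (by omega) (by omega)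
  have f2 : (ζ ^ 2)⁻¹ ≠ ζ := by
    rw [Ne, inv_eq_iff_mul_eq_one, ← pow_succ]; exact f 3 (by omega) (by omega)
  refine ⟨Multiset.replicate (n + 3) 1 + Multiset.replicate 2 ζ + Multiset.replicate 1 (ζ ^ 2)⁻¹,
    ⟨by simp, ?_, by simp [sq], ⟨1, fun α hα => ?_⟩, fun ⟨d, hd⟩ => e3 ?_⟩, fun h => h2 ?_⟩
  · simp [e2, sq, mul_zpow]
  · simp only [Multiset.mem_add, Multiset.mem_replicate] at hα
    rcases hα with (⟨-, rfl⟩ | ⟨-, rfl⟩) | ⟨-, rfl⟩
    exacts [one_pow _, e1, by rw [inv_pow, pow_right_comm, e1, one_pow, inv_one]]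
  · rw [hd ζ (by simp), hd 1 (by simp [Multiset.mem_replicate])]
  · refine h.dvd_of_count hR (a := 1) hζ (fun x hx => ?_) fun x hx => ?_ <;>
    simp only [Multiset.count_add, Multiset.count_replicate, one_mul, e3, e3.symm, f1, f2,
      if_true, if_false] at hx <;>
    split_ifs at hx <;> first | omega | simp_all

theorem exists_refl_three : ∀ a b c : ZMod 3, a + b + c = 0 →
    ∃ t, ({t - a, t - b, t - c} : Multiset (ZMod 3)) = {a, b, c} := by decide +kernel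

theorem exists_refl_five : ∀ a b c d e : ZMod 5, a + b + c + d + e = 0 →
    ∃ t, ({t - a, t - b, t - c, t - d, t - e} : Multiset (ZMod 5)) = {a, b, c, d, e} := by
  decide +kernel

theorem exists_refl (hn : n = 3 ∨ n = 5) (s : Multiset (ZMod n)) (h1 : s.card = n) (h2 : s.sum = 0) :
    ∃ t, s.map (t - ·) = s := by
  rcases hn with rfl | rfl
  · obtain ⟨a, b, c, rfl⟩ := Multiset.card_eq_three.1 h1
    simpa using exists_refl_three a b c (by simpa [add_assoc] using h2)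
  · obtain ⟨a, ha⟩ := Multiset.card_pos_iff_exists_mem.1 (h1 ▸ (by norm_num : 0 < 5))
    obtain ⟨s, rfl⟩ := Multiset.exists_cons_of_mem ha
    obtain ⟨b, c, d, e, rfl⟩ := Multiset.card_eq_four.1 (by simpa using h1)
    simpa using exists_refl_five a b c d e (by simpa [add_assoc] using h2)

theorem Adm.twS_small (h : Adm Q n n m) (hQ : IsQ M p Q) (hn : n = 3 ∨ n = 5)
    (h1 : (n : ℤ) ∣ Q - 1) (h2 : ¬ (n : ℤ) ^ 2 ∣ Q - 1) (h3 : (n : ℤ) ∣ R + 1) : TwS Q R m := by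
  have hr : n.Prime := by rcases hn with rfl | rfl <;> norm_num
  have := Fact.mk hr
  have hrp : n ≠ p := by rintro rfl; exact hQ.not_dvd one_pos (by simpa using h1)
  obtain ⟨c, c1, c2⟩ := h.exists_sc hQ hr hrp (fun _ => (padicValNat_dvd_iff_le hQ.sub_one_pos.ne').1
    (by simpa using Int.natCast_dvd.1 h1)) (by omega)
  have h4 : (c ^ n) ^ n = 1 := by
    have := Multiset.prod_eq_one (s := (m.map (c * ·)).map (· ^ n)) (by simpa using c2)
    rwa [Multiset.prod_map_pow, Multiset.map_id', Multiset.prod_map_mul, Multiset.map_id', h.prod,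
      mul_one, Multiset.map_const', Multiset.prod_replicate, h.card] at this
  have h5 : c ^ n = 1 := by
    obtain ⟨u, hu⟩ := h1
    refine eq_one_of_prime hr h4 (k := u) ?_ fun e => h2 ?_
    · rw [← zpow_natCast, ← zpow_mul, ← hu, zpow_eq_self_iff.1 c1]
    · rw [hu, sq]; exact mul_dvd_mul_left _ e
  simp only [mul_pow, h5, one_mul] at c2
  obtain ⟨ζ, hζ, mem⟩ := hQ.exists_mu hr hrp
  let e : Multiplicative (ZMod n) ≃* Subgroup.zpowers ζ :=
    mulEquivOfCyclicCardEq (by rw [Nat.card_zpowers, hζ]; simp)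
  let φ : Multiplicative (ZMod n) →* M := (Subgroup.subtype _).comp e.toMonoidHom
  have hφ : Function.Injective φ := Subtype.val_injective.comp e.injective
  obtain ⟨s, rfl⟩ : ∃ s : Multiset (ZMod n), s.map (fun i => φ (Multiplicative.ofAdd i)) = m :=
    ⟨m.pmap (fun α h => (e.symm ⟨α, h⟩).toAdd) fun α h => (mem α).2 (c2 α h), by
      simp [Multiset.map_pmap, φ, Multiset.pmap_eq_map]⟩
  obtain ⟨t, ht⟩ := exists_refl hn s (by simpa using h.card) (by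
    have := h.prod
    rw [← Function.comp_def φ, ← Multiset.map_map, ← map_multiset_prod, ← map_one φ] at this
    simpa [← ofAdd_multiset_prod] using hφ this)
  have h6 : ∀ i, φ i ^ n = 1 := fun i => (mem _).1 (e i).2
  obtain ⟨k, hk⟩ : Odd n := by rcases hn with rfl | rfl <;> decide
  refine ⟨φ (Multiplicative.ofAdd t) ^ k, zpow_eq_self_of_pow (by
    rw [← pow_mul, mul_comm, pow_mul, h6, one_pow]) h1, ?_⟩
  conv_rhs => rw [← ht]
  simp only [Multiset.map_map, Function.comp_def]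
  refine Multiset.map_congr rfl fun i _ => ?_
  rw [← map_pow, ← map_mul, zpow_congr_of_pow (h6 _) (R := -1) (by simpa using h3), ofAdd_sub,
    map_mul, map_pow, map_div, zpow_neg_one, mul_inv, div_eq_mul_inv, ← mul_assoc, mul_left_inj,
    inv_eq_iff_mul_eq_one, ← pow_succ, ← pow_add, ← h6 (Multiplicative.ofAdd t)]
  congr 1
  omega

/-! ### Subfield and unitary twists -/

theorem Adm.twS_of_sc (h : Adm Q n r m) {c : M} (c1 : c ^ Q = c) (c2 : ∀ α ∈ m, (c * α) ^ r = 1)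
    (hR : (r : ℤ) ∣ Q - R) : TwS Q R m := by
  refine ⟨c, c1, ?_⟩
  conv_rhs => rw [← h.inv]
  simp only [Multiset.map_map, Function.comp_def]
  exact Multiset.map_congr rfl fun α hα => by rw [← zpow_congr_of_pow (c2 α hα) hR, mul_zpow, c1]

theorem IsQ.forall_twS_iff_odd {k j : ℕ} (hR : IsQ M p R) (hQ : IsQ M p (R ^ k)) (hk : k.Prime)
    (hr : r.Prime) (hr2 : r ≠ 2) (hrp : r ≠ p) (hj : 2 ≤ j) (hjn : j ≤ n)
    (h1 : (r : ℤ) ∣ gs (R ^ j) k) (h2 : ¬ (n = 6 ∧ r = 3))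
    (h3 : r = k → (r : ℤ) ∣ R - 1 → padicValNat r n ≤ padicValNat r (R ^ k - 1).natAbs) :
    (∀ m : Multiset M, Adm (R ^ k) n r m → TwS (R ^ k) R m) ↔
      r = k ∨ k = 2 ∧ r = n ∧ (n = 3 ∨ n = 5) ∧ padicValNat r (R + 1).natAbs = 1 := by
  have := Fact.mk hr
  have hr' := Nat.prime_iff_prime_int.1 hr
  have f1 : (r : ℤ) ∣ R ^ r - R := Int.prime_dvd_pow_self_sub hr R
  have f2 : R + 1 ≠ 0 := fun e => by have := hR.two_le; omega
  refine ⟨fun h => by_contra fun h4 => ?_, ?_⟩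
  swap
  · rintro (rfl | ⟨rfl, rfl, h4, h5⟩) m hm
    · obtain ⟨c, c1, c2⟩ := hm.exists_sc hQ hr hrp (fun e => h3 rfl (by simpa using dvd_sub e f1))
        (absurd · hr2)
      exact hm.twS_of_sc c1 c2 f1
    have h6 : (r : ℤ) ∣ R + 1 := Int.natCast_dvd.2 (dvd_of_one_le_padicValNat h5.ge)
    rw [show R ^ 2 = (R + 1) * (R - 1) + 1 by ring] at hQ hm ⊢
    refine hm.twS_small hQ h4 (by simpa using h6.mul_right _) (fun e => ?_) h6
    rw [add_sub_cancel_right] at e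
    have h7 := (((hr'.irreducible.coprime_iff_not_dvd.2 fun e => not_dvd_two hr hr2
      (by simpa using dvd_sub h6 e)).pow_left (m := 2))).dvd_of_dvd_mul_right e
    have := (padicValNat_dvd_iff_le (Int.natAbs_ne_zero.2 f2)).1 (Int.natCast_dvd.1
      (show ((r ^ 2 : ℕ) : ℤ) ∣ _ by exact_mod_cast h7))
    omega
  rw [not_or] at h4
  have h5 : (r : ℤ) ∣ (R ^ k) ^ j - 1 := by
    rw [pow_right_comm, ← gs_mul]; exact h1.mul_right _
  have h6 : ¬ (r : ℤ) ∣ R ^ j - 1 := fun e => h4.1 ((Nat.prime_dvd_prime_iff_eq hr hk).1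
    (Int.natCast_dvd_natCast.1 (by simpa using dvd_sub h1 (e.trans (sub_one_dvd_gs_sub _ k)))))
  have h7 : ¬ (r : ℤ) ∣ R - 1 := fun e => h6 (e.trans (by simpa using sub_dvd_pow_sub_pow R 1 j))
  suffices ∃ m : Multiset M, Adm (R ^ k) n r m ∧ ¬ TwL (R ^ k) R m from
    this.elim fun m hm => hm.2 (h m hm.1).twL
  by_cases h8 : (r : ℤ) ∣ R ^ k - 1
  swap
  · exact hQ.exists_not_twL_orbit hr hrp h8 (by omega) hjn h5 h6 fun e => hr'.not_dvd_one (by
      simpa using dvd_sub (dvd_pow (dvd_pow e hk.ne_zero) (show j ≠ 0 by omega)) h5)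
  refine hQ.exists_not_twL_split hr hr2 h8 h7 (fun _ _ e => hR.inj 1 (by simpa using e)) (by omega)
    (fun e e' => h6 ?_) h2 fun e e' => by_contra fun h9 => h4.2 ?_
  · rw [show j = 2 by omega, show R ^ 2 - 1 = (R + 1) * (R - 1) by ring]
    exact e'.mul_right _
  have h10 : orderOf (R : ZMod r) = k := by
    have := Fact.mk hk
    refine orderOf_eq_prime ?_ fun e => h7 ?_
    · simpa [sub_eq_zero] using (ZMod.intCast_zmod_eq_zero_iff_dvd _ r).2 h8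
    · simp [← ZMod.intCast_zmod_eq_zero_iff_dvd, e]
  have h11 : k ∣ r - 1 := h10 ▸ ZMod.orderOf_dvd_card_sub_one fun e =>
    hk.ne_zero (by simpa [e] using h10.symm)
  obtain rfl : k = 2 := (Nat.prime_dvd_prime_iff_eq hk Nat.prime_two).1 (hk.dvd_of_dvd_pow (n := 2)
    (h11.trans (by rcases e' with rfl | rfl <;> simp [e])))
  rw [show R ^ 2 - 1 = (R + 1) * (R - 1) by ring] at h8 h9
  refine ⟨rfl, e, e', le_antisymm (Nat.le_of_lt_succ (Nat.lt_of_not_le fun h => h9 ?_))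
    (one_le_padicValNat_of_dvd (Int.natAbs_ne_zero.2 f2)
      (Int.natCast_dvd.1 ((hr'.dvd_or_dvd h8).resolve_right h7)))⟩
  exact Dvd.dvd.mul_right (by exact_mod_cast Int.natCast_dvd.2 ((pow_dvd_pow r h).trans
    pow_padicValNat_dvd)) _

theorem IsQ.odd (hQ : IsQ M p Q) (hp : p ≠ 2) : Odd Q := by
  obtain ⟨a, -, e⟩ := hQ.abs
  rw [← Int.natAbs_odd, e]
  exact (hQ.prime.odd_of_ne_two hp).pow

theorem IsQ.exists_adm_pair (hQ : IsQ M p Q) (hp : p ≠ 2) (hn : n ≠ 0)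
    (h : padicValNat 2 (Q - 1).natAbs < padicValNat 2 n) : ∃ α z : M, α ^ Q ≠ α ∧ z * z = 1 ∧
      α ∈ ((n / 2) • {α, z * α} : Multiset M) ∧ Adm Q n 2 ((n / 2) • {α, z * α}) := by
  have h0 := hQ.sub_one_pos.ne'
  have h1 := ((hQ.odd hp).sub_odd odd_one).two_dvd
  have h2 := one_le_padicValNat_of_dvd (p := 2) h0 (Int.natAbs_dvd_natAbs.2 h1)
  obtain ⟨α, hα⟩ := hQ.ex (2 ^ (padicValNat 2 (Q - 1).natAbs + 1)) fun e =>
    hp ((Nat.prime_dvd_prime_iff_eq hQ.prime Nat.prime_two).1 (hQ.prime.dvd_of_dvd_pow e))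
  have h3 : α ^ (Q - 1) ≠ 1 := fun e => pow_succ_padicValNat_not_dvd h0
    (hα ▸ Int.natCast_dvd.1 (orderOf_dvd_iff_zpow_eq_one.2 e))
  have h4 : (α ^ (Q - 1)) ^ 2 = 1 := by
    rw [← zpow_natCast, ← zpow_mul, ← orderOf_dvd_iff_zpow_eq_one, hα, Int.natCast_dvd,
      Int.natAbs_mul, pow_succ]
    exact mul_dvd_mul_right pow_padicValNat_dvd _
  have h5 : α ^ Q = α ^ (Q - 1) * α := by simp [zpow_sub_one]
  have h6 := (padicValNat_dvd_iff_le hn).2 h
  obtain ⟨k, rfl⟩ : 4 ∣ n := (pow_dvd_pow 2 (show 2 ≤ _ by omega)).trans h6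
  have h7 : α ^ (4 * k) = 1 := orderOf_dvd_iff_pow_eq_one.1 (hα ▸ h6)
  rw [show 4 * k / 2 = 2 * k by omega]
  have h8 := zpow_eq_self_of_pow h4 h1
  generalize α ^ (Q - 1) = z at *
  have h9 : ∀ β ∈ ({α, z * α} : Multiset M), β ∈ ((2 * k) • {α, z * α} : Multiset M) := fun β =>
    (Multiset.mem_nsmul_of_ne_zero (by omega)).2
  refine ⟨α, z, by simpa [h5], sq z ▸ h4, h9 _ (by simp), by simp; omega, ?_, ?_,
    ⟨α ^ 2, fun β hβ => ?_⟩, fun ⟨d, hd⟩ => h3 ?_⟩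
  · rw [Multiset.map_nsmul, Multiset.pair_comm α]
    simp [mul_zpow, h5, h8, ← mul_assoc, ← sq, h4, Multiset.cons_swap, ← Multiset.cons_zero]
  · rw [Multiset.prod_nsmul, Multiset.prod_pair, mul_left_comm, mul_pow, pow_mul, h4, ← sq,
      ← pow_mul, ← mul_assoc, one_pow, one_mul]
    exact h7
  · rcases Multiset.mem_cons.1 (Multiset.mem_of_mem_nsmul hβ) with rfl | hβ
    · rfl
    · rw [Multiset.mem_singleton.1 hβ, mul_pow, h4, one_mul]
  · simpa [← hd α (h9 _ (by simp))] using hd (z * α) (h9 _ (by simp))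

theorem IsQ.forall_twS_iff_two (hR : IsQ M p R) (hQ : IsQ M p (R ^ 2)) (hp : p ≠ 2) (hn : n ≠ 0) :
    (∀ m : Multiset M, Adm (R ^ 2) n 2 m → TwS (R ^ 2) R m) ↔
      padicValNat 2 n ≤ padicValNat 2 (R ^ 2 - 1).natAbs := by
  obtain ⟨t, ht⟩ := hR.odd hp
  refine ⟨fun h => not_lt.1 fun h2 => ?_, fun h m hm => ?_⟩
  · obtain ⟨α, z, h3, h4, h0, h5⟩ := hQ.exists_adm_pair hp hn h2
    obtain ⟨c, c1, c2⟩ := h _ h5
    have h6 : (c * α) ^ R ∈ ((n / 2) • {α, z * α} : Multiset M).map (c * ·) :=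
      c2 ▸ Multiset.mem_map_of_mem _ (Multiset.mem_map_of_mem _ h0)
    obtain ⟨β, h7, h8⟩ := Multiset.mem_map.1 h6
    have h9 : (c * α) ^ (2 * (R - 1)) = 1 := by
      rw [mul_comm 2, zpow_mul, zpow_sub_one, ← h8]
      rcases Multiset.mem_cons.1 (Multiset.mem_of_mem_nsmul h7) with rfl | h7
      · simp
      · rw [Multiset.mem_singleton.1 h7, mul_left_comm c, mul_inv_cancel_right, zpow_two, h4]
    have := zpow_eq_self_iff.2 (zpow_eq_one_of_dvd (k := R ^ 2 - 1) h9 ⟨t + 1, by rw [ht]; ring⟩)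
    rw [mul_zpow, c1, mul_right_inj] at this
    exact h3 this
  · obtain ⟨c, c1, c2⟩ := hm.exists_sc hQ Nat.prime_two hp.symm (fun _ => h)
      fun _ => ⟨t * (t + 1), by rw [ht]; ring⟩
    exact hm.twS_of_sc c1 c2 ⟨t * R, by rw [ht]; push_cast; ring⟩

end Cfsg.Agent.Class.Spec
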