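import Mathlib
import Cfsg.Prelude.Def_GeometricClasses
import Cfsg.Agent.Class.Elus.Tw
import Cfsg.Agent.Class.Spec.AutL
import Cfsg.Agent.Class.FG.Lev
import Cfsg.Agent.Class.SL2Sylow
import Cfsg.Agent.Class.U.Count
import Cfsg.Agent.Class.Asch.FormSmall

/-!
Elements of prime order of `PSL_n(q)` and subfield and unitary subgroups.
-/

set_option autoImplicit false

namespace Cfsg.Agent.Class.Spec

open Polynomial Cfsg Cfsg.Agent.KSG Matrix

variable {F K : Type*} [Field F] [Field K] [Algebra F K] {ι : Type} [Fintype ι] [DecidableEq ι]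
  {H : Subgroup (GL ι F)} {p r : ℕ}

/-- Every element of order `r` of `PSL` is conjugate into `H`. -/
def Elu (r : ℕ) (H : Subgroup (GL ι F)) : Prop :=
  ∀ x ∈ Geo.specialLinear ι F, (∃ z : F, ((x ^ r : GL ι F) : Matrix ι ι F) = z • 1) →
    (∀ z : F, (x : Matrix ι ι F) ≠ z • 1) → ∃ g ∈ Geo.specialLinear ι F, g⁻¹ * x * g ∈ H

theorem mem_specialLinear {x : GL ι F} : x ∈ Geo.specialLinear ι F ↔ (x : Matrix ι ι F).det = 1 :=
  Units.ext_iff

theorem elu_iff_SL : (∀ x : SpecialLinearGroup ι F,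
    (∃ z : F, ((x ^ r : SpecialLinearGroup ι F) : Matrix ι ι F) = z • 1) →
    (∀ z : F, (x : Matrix ι ι F) ≠ z • 1) → ∃ P : SpecialLinearGroup ι F,
      P⁻¹ * x * P ∈ H.comap (SpecialLinearGroup.toGL : SpecialLinearGroup ι F →* GL ι F)) ↔
    Elu r H := by
  refine ⟨fun h x hx h1 h2 => ?_, fun h x h1 h2 => ?_⟩
  · obtain ⟨x, rfl⟩ : x ∈ _ := (range_toGL_eq_ker_det (ι := ι) (R := F)).ge hx
    obtain ⟨P, hP⟩ := h x (by simpa using h1) h2
    exact ⟨_, (range_toGL_eq_ker_det (ι := ι)).le ⟨P, rfl⟩, by simpa using hP⟩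
  · obtain ⟨P, hP, h3⟩ := h _ ((range_toGL_eq_ker_det (ι := ι)).le ⟨x, rfl⟩) (by simpa using h1) h2
    obtain ⟨P, rfl⟩ : P ∈ _ := (range_toGL_eq_ker_det (ι := ι) (R := F)).ge hP
    exact ⟨P, by simpa using h3⟩

theorem index_comap_toGL (H : Subgroup (GL ι F)) :
    (H.comap (SpecialLinearGroup.toGL : SpecialLinearGroup ι F →* GL ι F)).index =
      H.relIndex (Geo.specialLinear ι F) := by
  rw [Subgroup.index_comap, range_toGL_eq_ker_det, Geo.specialLinear]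

theorem jm_conj (g x : GL ι F) : jm K (g⁻¹ * x * g).1 = jm K x.1 := by
  rw [jm, jm, ← isConj_GL_iff_mdiv.1 (isConj_iff.2 ⟨g⁻¹, by rw [inv_inv]⟩)]

/-! ### Orders -/

/-- The `p'`-part of the order of `SL_n` or `SU_n`. -/
def oS (Q : ℤ) (n : ℕ) : ℤ := ∏ i ∈ Finset.range (n - 1), (Q ^ (i + 2) - 1)

theorem mul_oS (Q : ℤ) {n : ℕ} (hn : n ≠ 0) :
    (Q - 1) * oS Q n = ∏ i ∈ Finset.range n, (Q ^ (i + 1) - 1) := by
  obtain ⟨n, rfl⟩ := Nat.exists_eq_add_one_of_ne_zero hn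
  rw [Finset.prod_range_succ', mul_comm, oS]
  simp

theorem card_SL_eq (F : Type*) [Field F] [Fintype F] {n : ℕ} (hn : n ≠ 0) :
    (Nat.card (SpecialLinearGroup (Fin n) F) : ℤ) =
      Fintype.card F ^ (n * (n - 1) / 2) * oS (Fintype.card F) n := by
  have := NeZero.mk hn
  have h := card_units_mul_card_SL (ι := Fin n) (R := F)
  have h1 := Fintype.one_lt_card (α := F)
  rw [card_GL_field, Nat.card_units, Nat.card_eq_fintype_card, prod_pow_sub_pow_eq,
    Fin.prod_univ_eq_prod_range fun i => Fintype.card F ^ (n - i) - 1,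
    ← Finset.prod_range_reflect] at h
  refine mul_left_cancel₀ (a := (Fintype.card F : ℤ) - 1) (by omega) ?_
  rw [mul_left_comm, mul_oS _ hn]
  zify [h1.le] at h
  rw [h]
  refine congrArg _ (Finset.prod_congr rfl fun i hi => ?_)
  rw [Nat.cast_pred (by positivity), show n - (n - 1 - i) = i + 1 by simp at hi; omega]
  simp

theorem card_SU_eq (F : Type*) [Field F] {n : ℕ} (q : ℕ) [U.UF F q] (hn : n ≠ 0) :
    (Nat.card (SU n F q) : ℤ) = q ^ (n * (n - 1) / 2) * |oS (-q) n| := by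
  have h := U.card_SU_mul (n := n) (F := F) (q := q) (by omega)
  have h1 := U.two_le_q (F := F) (q := q)
  rw [U.card_GU] at h
  refine mul_left_cancel₀ (a := |-(q : ℤ) - 1|) (by rw [abs_ne_zero]; omega) ?_
  rw [mul_left_comm, ← abs_mul, mul_oS _ hn, abs_of_neg (by omega), Finset.abs_prod]
  zify at h
  rw [show -(-(q : ℤ) - 1) = q + 1 by ring, h]
  refine congrArg _ (Finset.prod_congr rfl fun i _ => ?_)
  have h2 : (1 : ℤ) ≤ q ^ (i + 1) := one_le_pow₀ (by omega)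
  split_ifs with e
  · rw [e.add_one.neg_pow, abs_of_neg (by omega)]; ring
  · rw [(Nat.not_even_iff_odd.1 e).add_one.neg_pow, abs_of_nonneg (by omega),
      Nat.cast_pred (by positivity)]
    simp

theorem mul_card_dvd_of_relIndex [Finite F] {S : Type*} [Group S] (φ : S →* GL ι F)
    (hφ : Function.Injective φ) (h1 : ∀ s, φ s ∈ H) (h2 : ∀ s, φ s ∈ Geo.specialLinear ι F)
    (hr : r ∣ H.relIndex (Geo.specialLinear ι F)) :
    r * Nat.card S ∣ Nat.card (SpecialLinearGroup ι F) := by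
  rw [← index_comap_toGL] at hr
  rw [← (H.comap SpecialLinearGroup.toGL).index_mul_card]
  choose ψ hψ using fun s => (range_toGL_eq_ker_det (ι := ι) (R := F)).ge (h2 s)
  refine mul_dvd_mul hr (Subgroup.card_dvd_of_injective (MonoidHom.mk' (fun s => ⟨ψ s, by
    rw [Subgroup.mem_comap, hψ]; exact h1 s⟩) fun s t => Subtype.ext
      (SpecialLinearGroup.toGL_injective (by simp [hψ]))) fun s t e => hφ ?_)
  rw [← hψ, ← hψ]
  exact congrArg (fun x => SpecialLinearGroup.toGL x.1) e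

theorem exists_dvd_gs {M : Type*} [CommGroup M] {R : ℤ} {n k c : ℕ} (hR : IsQ M p R) (hr : r.Prime)
    (hrp : r ≠ p) (h : r * oS R n ∣ (R ^ k) ^ c * oS (R ^ k) n) :
    ∃ j, 2 ≤ j ∧ j ≤ n ∧ (r : ℤ) ∣ gs (R ^ j) k := by
  have hr' := Nat.prime_iff_prime_int.1 hr
  have h1 : oS (R ^ k) n = (∏ i ∈ Finset.range (n - 1), gs (R ^ (i + 2)) k) * oS R n := by
    simp only [oS, ← Finset.prod_mul_distrib, gs_mul, pow_right_comm R k]
  have h2 : oS R n ≠ 0 := Finset.prod_ne_zero_iff.2 fun i _ e =>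
    hR.not_dvd (d := i + 2) (by omega) (e ▸ dvd_zero _)
  rw [h1, ← mul_assoc, mul_dvd_mul_iff_right h2] at h
  rcases hr'.dvd_or_dvd h with h | h
  · obtain ⟨a, -, e⟩ := hR.abs
    exact absurd ((Nat.prime_dvd_prime_iff_eq hr hR.prime).1 (hr.dvd_of_dvd_pow
      (e ▸ Int.natCast_dvd.1 (hr'.dvd_of_dvd_pow (hr'.dvd_of_dvd_pow h))))) hrp
  · obtain ⟨i, hi, h⟩ := (hr'.dvd_finsetProd_iff _).1 h
    exact ⟨i + 2, by omega, by simp at hi; omega, h⟩

variable [Fintype F] [IsAlgClosed K] [Algebra.IsAlgebraic F K]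

omit [IsAlgClosed K] in
theorem exists_commute_of_mem_jm {x : GL ι F} {α : Kˣ} {a : ℕ} (h : (α, a) ∈ jm K x.1) (d : Fˣ) :
    ∃ c : GL ι F, c * x = x * c ∧ GeneralLinearGroup.det c = d ^ a := by
  classical
  have h1 := Multiset.count_pos.2 h
  rw [jm, count_jd (fun _ => isPP_of_mem_mdiv) (coeff_ne_of_mem_mdiv x.isUnit) α (pos_of_mem_jd h),
    Multiset.count_pos] at h1
  have h2 := (Algebra.IsAlgebraic.isAlgebraic (R := F) (α : K)).isIntegral
  obtain ⟨c, c1, c2⟩ := FG.exists_commute_det_pow (minpoly.irreducible h2) (minpoly.monic h2) h1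
    d.ne_zero
  exact ⟨c, Units.ext c1, Units.ext c2⟩

theorem elu_of (hp : p.Prime) [CharP K p] (h : ∀ J : Multiset (Kˣ × ℕ),
    Valid (Fintype.card F) (Fintype.card ι) J → jdet J = 1 → PK p J r → ¬ PK p J 1 →
      (∃ h ∈ H, jm K h.1 = J) ∧ ∃ x ∈ J, ∀ d : Fˣ, ∃ e : Fˣ, ∃ k ∈ H,
        d = e ^ x.2 * GeneralLinearGroup.det k) : Elu r H := fun x hx h1 h2 => by
  obtain ⟨⟨y, hy, e⟩, ⟨α, a⟩, h3, h4⟩ := h _ (valid_jm x.isUnit)
    ((jdet_jm_eq_one_iff x.isUnit).2 (mem_specialLinear.1 hx))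
    ((exists_smul_iff_PK p hp x.isUnit r).1 h1)
    fun e => by simpa [h2] using (exists_smul_iff_PK p hp x.isUnit 1).2 e
  obtain ⟨g, rfl⟩ := isConj_iff.1 (isConj_GL_iff_mdiv.2 ((jm_eq_iff y.isUnit x.isUnit).1 e))
  obtain ⟨d, k, hk, h5⟩ := h4 (GeneralLinearGroup.det g)⁻¹
  obtain ⟨c, c1, c2⟩ := exists_commute_of_mem_jm h3 d
  refine ⟨c * g * k, ?_, ?_⟩
  · rw [Geo.specialLinear, MonoidHom.mem_ker, map_mul, map_mul, c2, mul_right_comm, ← h5,
      inv_mul_cancel]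
  · rw [show (c * g * k)⁻¹ * (g * y * g⁻¹) * (c * g * k) =
      k⁻¹ * g⁻¹ * c⁻¹ * (g * y * g⁻¹ * c) * g * k by group, ← c1]
    simpa [mul_assoc] using H.mul_mem (H.inv_mem hk) (H.mul_mem hy hk)

theorem Elu.exists_jm (h : Elu r H) (hp : p.Prime) [CharP K p] {J : Multiset (Kˣ × ℕ)}
    (h1 : Valid (Fintype.card F) (Fintype.card ι) J) (h2 : jdet J = 1) (h3 : PK p J r)
    (h4 : ¬ PK p J 1) : ∃ h ∈ H, jm K h.1 = J := by
  obtain ⟨x, rfl⟩ := exists_GL_jm (F := F) (ι := ι) h1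
  obtain ⟨g, -, hg⟩ := h x (mem_specialLinear.2 ((jdet_jm_eq_one_iff x.isUnit).1 h2))
    ((exists_smul_iff_PK p hp x.isUnit r).2 h3)
    fun z e => h4 ((exists_smul_iff_PK p hp x.isUnit 1).1 ⟨z, by simpa⟩)
  exact ⟨_, hg, jm_conj g x⟩

theorem elu_iff (hp : p.Prime) [CharP K p] (hr : r.Prime) (hrp : r ≠ p) : Elu r H ↔
    ∀ m : Multiset Kˣ, Adm (Fintype.card F) (Fintype.card ι) r m → ∃ h ∈ H, jm K h.1 = ss m := by
  refine ⟨fun h m hm => h.exists_jm hp (valid_ss.2 ⟨hm.card, hm.inv⟩) (jdet_ss m ▸ hm.prod)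
    (hm.pow.imp fun _ => KB_ss.2) fun e => hm.ne (e.imp fun c hc => by simpa using KB_ss.1 hc),
    fun h => elu_of (K := K) hp fun J h1 h2 h3 h4 => ?_⟩
  obtain ⟨m, rfl⟩ : ∃ m, J = ss m := ⟨_, h3.eq_ss hp.one_lt
    (fun e => hrp ((Nat.prime_dvd_prime_iff_eq hp hr).1 e).symm) h1.pos⟩
  have hm : Adm (Fintype.card F) (Fintype.card ι) r m := ⟨(valid_ss.1 h1).1, (valid_ss.1 h1).2,
    jdet_ss m ▸ h2, h3.imp fun _ => KB_ss.1, fun e => h4 (e.imp fun c hc => KB_ss.2 (by simpa))⟩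
  obtain ⟨α, hα⟩ := Multiset.card_pos_iff_exists_mem.1 (hm.card ▸ hm.pos)
  exact ⟨h m hm, _, Multiset.mem_map_of_mem _ hα, fun d => ⟨d, 1, H.one_mem, by simp⟩⟩

/-! ### Subfield and unitary subgroups -/

theorem sc_sc {M : Type*} [CommGroup M] (c d : M) (J : Multiset (M × ℕ)) :
    sc c (sc d J) = sc (c * d) J := by simp [sc, mul_assoc]

theorem sc_one {M : Type*} [CommGroup M] (J : Multiset (M × ℕ)) : sc 1 J = J := by simp [sc]

omit [IsAlgClosed K] [Algebra.IsAlgebraic F K] in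
theorem fixed_iff {c : Kˣ} : c ^ (Fintype.card F : ℤ) = c ↔
    ∃ z : Fˣ, Units.map (algebraMap F K : F →* K) z = c := by
  refine ⟨fun hc => ?_, ?_⟩
  · obtain ⟨d, hd⟩ := Dickson.mem_range_of_pow_card (F := F) (t := (c : K))
      (by simpa using congrArg Units.val hc)
    exact ⟨Units.mk0 d (by rintro rfl; exact c.ne_zero (by simpa using hd.symm)), Units.ext hd⟩
  · rintro ⟨z, rfl⟩
    exact Units.ext (by simp [← map_pow, FiniteField.pow_card])

variable {n k : ℕ} {R : ℤ}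

variable (K) in
/-- A subgroup whose Jordan data are those stable under the `R`-th power map up to scalars. -/
structure SubH (H : Subgroup (GL (Fin n) F)) (p : ℕ) (R : ℤ) (k : ℕ) : Prop where
  isQ : IsQ Kˣ p R
  pow : (Fintype.card F : ℤ) = R ^ k
  iff : ∀ J : Multiset (Kˣ × ℕ), (∃ h ∈ H, jm K h.1 = J) ↔
    ∃ c, c ^ (Fintype.card F : ℤ) = c ∧ Valid R n (sc c J)
  idx : ∀ r, r ∣ H.relIndex (Geo.specialLinear (Fin n) F) →
    r * oS R n ∣ Nat.card (SpecialLinearGroup (Fin n) F)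

omit [IsAlgClosed K] [Algebra.IsAlgebraic F K] in
theorem subH_of {H : Subgroup (GL (Fin n) F)} {G S : Type*} [Group S] (φ : G → GL (Fin n) F)
    (ψ : S →* GL (Fin n) F) (hQ : IsQ Kˣ p R) (hk : (Fintype.card F : ℤ) = R ^ k)
    (h1 : ∀ h, h ∈ H ↔ ∃ (z : Fˣ) (u : G), h = z • φ u)
    (h2 : ∀ J, (∃ u, jm K (φ u).1 = J) ↔ Valid R n J) (h3 : Function.Injective ψ)
    (h4 : ∀ s, ∃ u, φ u = ψ s) (h5 : ∀ s, (ψ s).1.det = 1) (h6 : oS R n ∣ Nat.card S) :
    SubH K H p R k := by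
  refine ⟨hQ, hk, fun J => ⟨?_, ?_⟩, fun r hr => (mul_dvd_mul_left _ h6).trans ?_⟩
  · rintro ⟨h, hh, rfl⟩
    obtain ⟨z, u, rfl⟩ := (h1 h).1 hh
    refine ⟨_, fixed_iff.2 ⟨z⁻¹, rfl⟩, ?_⟩
    rw [Units.val_smul, Units.smul_def, jm_smul z (φ u).isUnit, sc_sc, ← map_mul, inv_mul_cancel,
      map_one, sc_one]
    exact (h2 _).1 ⟨u, rfl⟩
  · rintro ⟨c, hc, hJ⟩
    obtain ⟨z, rfl⟩ := fixed_iff.1 hc
    obtain ⟨u, hu⟩ := (h2 _).2 hJ
    refine ⟨_, (h1 _).2 ⟨z⁻¹, u, rfl⟩, ?_⟩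
    rw [Units.val_smul, Units.smul_def, jm_smul _ (φ u).isUnit, hu, sc_sc, ← map_mul,
      inv_mul_cancel, map_one, sc_one]
  · exact_mod_cast mul_card_dvd_of_relIndex ψ h3 (fun s => (h4 s).elim fun u hu =>
      (h1 _).2 ⟨1, u, by rw [one_smul, hu]⟩) (fun s => mem_specialLinear.2 (h5 s)) hr

theorem range_eq_of_ker {α β : Type*} [Finite α] {f g : α → β} (h : ∀ a b, f a = f b ↔ g a = g b)
    (hs : Set.range f ⊆ Set.range g) : Set.range f = Set.range g :=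
  Set.eq_of_subset_of_ncard_le hs (Nat.card_congr ((Setoid.quotientKerEquivRange g).symm.trans
    ((Quotient.congrRight fun a b => (h a b).symm).trans (Setoid.quotientKerEquivRange f)))).le

omit [Fintype F] in
theorem mem_subfieldSubgroup_one {F₀ : Subfield F} {h : GL ι F} : h ∈ Geo.subfieldSubgroup F₀ 1 ↔
    ∃ (z : Fˣ) (u : GL ι F₀), h = z • GeneralLinearGroup.map F₀.subtype u := by
  rw [Asch.mem_subfieldSubgroup_iff, inv_one, one_mul, mul_one, Subgroup.mem_sup_of_normal_right]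
  refine ⟨?_, ?_⟩
  · rintro ⟨_, ⟨u, rfl⟩, z, hz, rfl⟩
    obtain ⟨c, hc⟩ := (Geo.mem_scalars_iff z).1 hz
    exact ⟨c, u, Units.ext (by simp [hc, Units.smul_def])⟩
  · rintro ⟨z, u, rfl⟩
    exact ⟨_, ⟨u, rfl⟩, z • 1, (Geo.mem_scalars_iff _).2 ⟨z, rfl⟩, Units.ext (by simp)⟩

theorem subH_subfield (hp : p.Prime) [CharP F p] [CharP K p] (hn : n ≠ 0) (F₀ : Subfield F) {q : ℕ}
    (hq : Nat.card F₀ = q) (hk : Fintype.card F = q ^ k) :
    SubH K (Geo.subfieldSubgroup F₀ (1 : GL (Fin n) F)) p q k := by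
  have := Fintype.ofFinite F₀
  have := Fact.mk hp
  rw [Nat.card_eq_fintype_card] at hq
  subst hq
  have : Algebra.IsAlgebraic F₀ K := Algebra.IsAlgebraic.trans F₀ F K
  refine subH_of (GeneralLinearGroup.map F₀.subtype) ((GeneralLinearGroup.map F₀.subtype).comp
    SpecialLinearGroup.toGL) (isQ_card F₀ K hp) (by exact_mod_cast hk)
    (fun _ => mem_subfieldSubgroup_one) (fun J => ?_) (fun s t e => Subtype.ext ?_)
    (fun s => ⟨_, rfl⟩) (fun s => ?_) (by rw [card_SL_eq F₀ hn]; exact dvd_mul_left _ _)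
  · have e : ∀ J, J ∈ Set.range (fun u : GL (Fin n) F₀ => jm K u.1) ↔ Valid (Fintype.card F₀) n J :=
      fun J => ⟨by rintro ⟨u, rfl⟩; simpa using valid_jm (K := K) u.isUnit,
        fun h => exists_GL_jm (by simpa)⟩
    rw [← e, ← range_eq_of_ker (f := fun u => jm K (GeneralLinearGroup.map F₀.subtype u).1)]
    · rfl
    · intro a b
      rw [jm_eq_iff (Units.isUnit _) (Units.isUnit _), jm_eq_iff a.isUnit b.isUnit,
        ← isConj_iff_mdiv, ← isConj_iff_mdiv]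
      exact ⟨isConj_of_isConj_map F₀.subtype, fun h => (RingHom.mapMatrix F₀.subtype).toMonoidHom.map_isConj h⟩
    · rintro _ ⟨u, rfl⟩
      obtain ⟨a, -, e1⟩ := FiniteField.card F₀ p
      have h1 := valid_jm (K := K) (GeneralLinearGroup.map F₀.subtype u).isUnit
      refine (e _).2 ⟨h1.pos, by simpa using h1.sum, ?_⟩
      rw [e1, ← jm_glAct hp (σ := iterateFrobeniusEquiv F p a) fun _ => rfl]
      refine congrArg _ (Matrix.ext fun i j => ?_)
      exact congrArg Subtype.val (e1 ▸ FiniteField.pow_card (u i j) : u i j ^ p ^ (a : ℕ) = u i j)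
  · exact Matrix.ext fun i j => Subtype.ext (congrArg (fun x : GL (Fin n) F => x i j) e)
  · exact (F₀.subtype.map_det s.1).symm.trans (by simp)

theorem subH_unitary (hp : p.Prime) [CharP F p] [CharP K p] (hn : n ≠ 0) {q : ℕ}
    (hk : Fintype.card F = q ^ 2) {f : (Fin n → F) → (Fin n → F) → F} (hf : Geo.IsUnitaryFormPow q f) :
    SubH K (Geo.similarityGroup f) p (-q) 2 := by
  have := U.UF.of_card hk
  let σ : F ≃+* F := RingEquiv.ofRingHom (U.conj F q) (U.conj F q) (RingHom.ext U.conj_conj)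
    (RingHom.ext U.conj_conj)
  obtain ⟨T, hT⟩ := Asch.exists_iso_std_unitary (σ := σ) ⟨fun e => U.conj_ne_id F q (RingHom.ext fun a =>
    RingEquiv.congr_fun e a), U.conj_conj, hf.add_left, hf.smul_left, hf.herm, hf.nondegenerate⟩
  replace hT : ∀ u v, f (T.1 *ᵥ u) (T.1 *ᵥ v) = hermForm n F q u v := fun u v => (hT u v).trans (by
    simp [Geo.formOfGram, hermForm, Matrix.one_apply, σ, U.conj_apply])
  have hT' : ∀ u v, f u v = hermForm n F q (T⁻¹.1 *ᵥ u) (T⁻¹.1 *ᵥ v) := fun u v => by simp [← hT]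
  obtain ⟨p', a, hp', hc, e1, ha⟩ := U.exists_prime_pow F q
  obtain rfl : p = p' := CharP.eq F ‹CharP F p› hc
  refine subH_of (fun u : GU n F q => T * u * T⁻¹) ((MulAut.conj T).toMonoidHom.comp
    ((GU n F q).subtype.comp U.toGU)) (isQ_units K hp ⟨a, by omega, by simp [e1]⟩) (by simp [hk])
    (fun h => ⟨fun ⟨c, hc⟩ => ?_, ?_⟩) (fun J => ?_) ((MulAut.conj T).injective.comp
      (Subtype.val_injective.comp U.toGU_injective)) (fun s => ⟨_, rfl⟩) (fun s => ?_)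
    (by rw [card_SU_eq F q hn]; exact (self_dvd_abs _).mul_left _)
  · have := NeZero.mk hn
    have h1 : ∀ u v, hermForm n F q ((T⁻¹ * h * T).1 *ᵥ u) ((T⁻¹ * h * T).1 *ᵥ v) =
        c * hermForm n F q u v := fun u v => by
      simp only [Units.val_mul, ← mulVec_mulVec, ← hT', hc]
      rw [hT]
    obtain ⟨z, hz⟩ := U.exists_norm_eq (F := F) (q := q) (μ := c) (by
      have h2 := h1 (Pi.single 0 1) (Pi.single 0 1)
      have h3 := congrArg (U.conj F q) h2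
      rw [U.herm_conj, h2, map_mul, U.herm_conj, U.herm_single_single] at h3
      simpa using h3.symm)
    have h0 : z ≠ 0 := left_ne_zero_of_mul (hz ▸ c.ne_zero)
    refine ⟨Units.mk0 z h0, ⟨(Units.mk0 z h0)⁻¹ • (T⁻¹ * h * T), fun u v => ?_⟩, Units.ext (by
      simp only [Units.val_smul, Units.val_mul, mul_smul_comm, smul_mul_assoc, smul_inv_smul,
        ← mul_assoc, Units.mul_inv, one_mul, Units.mul_inv_cancel_right])⟩
    change hermForm n F q ((z⁻¹ • _) *ᵥ u) ((z⁻¹ • _) *ᵥ v) = _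
    rw [smul_mulVec, smul_mulVec, U.herm_smul_left, U.herm_smul_right, h1, ← hz, map_inv₀]
    have := (U.conj_ne_zero (q := q)).2 h0
    field_simp
  · rintro ⟨z, u, rfl⟩
    refine ⟨Units.mk0 (z * U.conj F q z) (by simp), fun v w => ?_⟩
    simp only [hT', Units.val_smul, Units.smul_def, smul_mulVec, mulVec_smul, Units.val_mul,
      U.herm_smul_left, U.herm_smul_right, ← mulVec_mulVec, Asch.inv_mulVec_mulVec]
    rw [U.mem_GU_iff.1 u.2, Units.val_mk0, mul_assoc, mul_left_comm]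
  · simp only [show ∀ u : GL (Fin n) F, jm K (T * u * T⁻¹).1 = jm K u.1 from jm_conj T⁻¹]
    exact ⟨fun ⟨u, e⟩ => e ▸ valid_jm_GU u, exists_GU_jm⟩
  · exact (det_conj_gl _ _).trans s.1.2

variable {H : Subgroup (GL (Fin n) F)}

theorem SubH.elu_iff (h : SubH K H p R k) [CharP K p] (hr : r.Prime) (hrp : r ≠ p) :
    Elu r H ↔ ∀ m : Multiset Kˣ, Adm (R ^ k) n r m → TwS (R ^ k) R m := by
  rw [Spec.elu_iff (K := K) h.isQ.prime hr hrp, Fintype.card_fin, ← h.pow]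
  refine forall₂_congr fun m hm => (h.iff _).trans (exists_congr fun c => and_congr_right fun _ => ?_)
  rw [sc_ss, valid_ss, Multiset.card_map, and_iff_right hm.card]

omit [IsAlgClosed K] [Algebra.IsAlgebraic F K] in
theorem SubH.exists_dvd (h : SubH K H p R k) (hn : n ≠ 0) (hr : r.Prime) (hrp : r ≠ p)
    (hΩ : r ∣ H.relIndex (Geo.specialLinear (Fin n) F)) :
    ∃ j, 2 ≤ j ∧ j ≤ n ∧ (r : ℤ) ∣ gs (R ^ j) k :=
  exists_dvd_gs h.isQ hr hrp (by rw [← h.pow, ← card_SL_eq F hn]; exact h.idx r hΩ)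

theorem SubH.elu_iff_odd (h : SubH K H p R k) [CharP F p] [CharP K p] (hn : n ≠ 0) (hk : k.Prime)
    (hr : r.Prime) (hr2 : r ≠ 2) (hrp : r ≠ p) (hΩ : r ∣ H.relIndex (Geo.specialLinear (Fin n) F))
    (h2 : ¬ (n = 6 ∧ r = 3)) (h3 : r = k → (r : ℤ) ∣ R - 1 →
      padicValNat r n ≤ padicValNat r (Fintype.card F - 1)) :
    Elu r H ↔ r = k ∨ k = 2 ∧ r = n ∧ (n = 3 ∨ n = 5) ∧ padicValNat r (R + 1).natAbs = 1 := by
  obtain ⟨j, j1, j2, j3⟩ := h.exists_dvd hn hr hrp hΩ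
  have := Fintype.card_pos (α := F)
  refine (h.elu_iff hr hrp).trans (h.isQ.forall_twS_iff_odd (h.pow ▸ isQ_card F K h.isQ.prime) hk hr
    hr2 hrp j1 j2 j3 h2 fun e e' => (h3 e e').trans_eq ?_)
  rw [← h.pow, show ((Fintype.card F : ℤ) - 1).natAbs = Fintype.card F - 1 by omega]

theorem SubH.elu_iff_two (h : SubH K H p R k) [CharP F p] [CharP K p] (hn : n ≠ 0) (hk : k.Prime)
    (hp : p ≠ 2) (hΩ : 2 ∣ H.relIndex (Geo.specialLinear (Fin n) F)) :
    Elu 2 H ↔ k = 2 ∧ padicValNat 2 n ≤ padicValNat 2 (Fintype.card F - 1) := by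
  obtain ⟨j, -, -, h1⟩ := h.exists_dvd hn Nat.prime_two hp.symm hΩ
  have := Fintype.card_pos (α := F)
  obtain rfl := (Nat.prime_dvd_prime_iff_eq Nat.prime_two hk).1 (Int.natCast_dvd_natCast.1 (by
    simpa using dvd_sub h1 ((((h.isQ.odd hp).pow (n := j)).sub_odd odd_one).two_dvd.trans
      (sub_one_dvd_gs_sub _ k))))
  rw [h.elu_iff Nat.prime_two hp.symm, h.isQ.forall_twS_iff_two (h.pow ▸ isQ_card F K h.isQ.prime)
    hp hn, ← h.pow, show ((Fintype.card F : ℤ) - 1).natAbs = Fintype.card F - 1 by omega,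
    and_iff_right rfl]

omit [IsAlgClosed K] [Algebra.IsAlgebraic F K] in
theorem SubH.exists_of_PK (h : SubH K H p R k) {J : Multiset (Kˣ × ℕ)}
    (h1 : Valid (Fintype.card F) n J) (h2 : PK p J p) (h3 : ¬ PK p J 1) :
    (∃ h ∈ H, jm K h.1 = J) ∧ J ≠ 0 ∧ ∀ x ∈ J, 0 < x.2 ∧ x.2 ≤ p := by
  obtain ⟨c, hc⟩ := h2
  obtain ⟨x, hx⟩ := Multiset.exists_mem_of_ne_zero (s := J) (by rintro rfl; exact h3 ⟨1, KB_zero⟩)
  have h4 : ∀ y ∈ J, x.1⁻¹ * y.1 = 1 := fun y hy => h.isQ.tf _ (by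
    rw [mul_pow, inv_pow, (hc x hx).1, (hc y hy).1, inv_mul_cancel])
  refine ⟨(h.iff J).2 ⟨x.1⁻¹, ?_, fun y hy => ?_, by simpa [sc] using h1.sum, ?_⟩,
    by rintro rfl; simp at hx, fun y hy => ⟨h1.pos y hy, ?_⟩⟩
  · exact (_root_.inv_zpow _ _).trans (congrArg _ (inv_mul_eq_one.1 (h4 _ (tw_mem h1.inv hx))).symm)
  · obtain ⟨z, hz, rfl⟩ := Multiset.mem_map.1 hy
    exact h1.pos z hz
  · rw [sc, Multiset.map_map]
    exact Multiset.map_congr rfl fun y hy => by simp [tw, h4 y hy]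
  · exact (Nat.le_pow_clog h.isQ.prime.one_lt _).trans (Nat.le_of_dvd h.isQ.prime.pos (hc y hy).2)

omit [IsAlgClosed K] [Algebra.IsAlgebraic F K] [Algebra F K] in
theorem exists_eq_pow_char (hp : p.Prime) [CharP F p] {a : ℕ} (ha : a = 1 ∨ a = p) (d : Fˣ) :
    ∃ e : Fˣ, ∃ k ∈ H, d = e ^ a * GeneralLinearGroup.det k := by
  have := Fact.mk hp
  rcases ha with rfl | rfl
  · exact ⟨d, 1, H.one_mem, by simp⟩
  · exact ⟨Units.map (frobeniusEquiv F a).symm d, 1, H.one_mem, Units.ext (by simp)⟩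

theorem SubH.elu_two (h : SubH K H 2 R k) [CharP F 2] [CharP K 2] : Elu 2 H :=
  elu_of (K := K) Nat.prime_two fun J h1 _ h2 h3 => by
    obtain ⟨h4, h5, h6⟩ := h.exists_of_PK (by simpa using h1) h2 h3
    obtain ⟨x, hx⟩ := Multiset.exists_mem_of_ne_zero h5
    exact ⟨h4, x, hx, exists_eq_pow_char Nat.prime_two (by have := h6 x hx; omega)⟩

theorem SubH.elu_char (h : SubH K H 3 R k) [CharP F 3] [CharP K 3] (hs : Even n → ∀ d : Fˣ,
    ∃ e : Fˣ, ∃ k ∈ H, d = e ^ 2 * GeneralLinearGroup.det k) : Elu 3 H :=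
  elu_of (K := K) Nat.prime_three fun J h1 _ h2 h3 => by
    obtain ⟨h4, h5, h6⟩ := h.exists_of_PK (by simpa using h1) h2 h3
    refine ⟨h4, by_contra fun h7 => ?_⟩
    have h8 : ∀ x ∈ J, x.2 = 2 := fun x hx => by_contra fun e =>
      h7 ⟨x, hx, exists_eq_pow_char Nat.prime_three (by have := h6 x hx; omega)⟩
    obtain ⟨x, hx⟩ := Multiset.exists_mem_of_ne_zero h5
    refine h7 ⟨x, hx, h8 x hx ▸ hs (even_iff_two_dvd.2 ?_)⟩
    rw [← Fintype.card_fin n, ← h1.sum]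
    exact Multiset.dvd_sum (by simpa using fun a b h => (h8 _ h).ge.antisymm (h8 _ h).le ▸ dvd_rfl)

omit [Fintype F] in
theorem isSquare_det_of_commute {m : Type*} [Fintype m] [DecidableEq m] (e : m ⊕ m ≃ ι)
    {c : Matrix ι ι F} (h : c * reindex e e (fromBlocks 1 1 0 1) = reindex e e (fromBlocks 1 1 0 1) * c) :
    IsSquare c.det := by
  obtain ⟨c, rfl⟩ := (reindex e e).surjective c
  rw [← fromBlocks_toBlocks c] at h ⊢
  simp only [reindex_apply, submatrix_mul_equiv, fromBlocks_multiply, mul_one, mul_zero, add_zero,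
    one_mul, zero_mul, zero_add] at h
  obtain ⟨h1, h2, -⟩ := fromBlocks_inj.1 ((reindex e e).injective h)
  rw [left_eq_add] at h1
  rw [add_comm, add_right_inj] at h2
  rw [det_reindex_self, h1, det_fromBlocks_zero₂₁, h2]
  exact ⟨_, rfl⟩

theorem exists_eq_sq_mul (hn : n ≠ 0) (F₀ : Subfield F) (ho : Odd (Fintype.card F)) (hk : Odd k)
    (hq : Fintype.card F = Nat.card F₀ ^ k) (d : Fˣ) : ∃ e : Fˣ,
      ∃ k ∈ Geo.subfieldSubgroup F₀ (1 : GL (Fin n) F), d = e ^ 2 * GeneralLinearGroup.det k := by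
  have := Fintype.ofFinite F₀
  have := NeZero.mk hn
  rw [Nat.card_eq_fintype_card] at hq
  have h1 := sub_one_dvd_gs_sub (Fintype.card F₀) k
  obtain ⟨a, ha⟩ := (Nat.odd_pow_iff hk.pos.ne').1 (hq ▸ ho)
  obtain ⟨s, hs⟩ : Odd (gs (Fintype.card F₀) k) := by
    obtain ⟨b, rfl⟩ := hk
    obtain ⟨c, hc⟩ := h1
    exact ⟨a * c + b, by rw [sub_eq_iff_eq_add.1 hc, ha]; push_cast; ring⟩
  obtain ⟨z, hz⟩ := (fixed_iff (F := F₀) (K := F) (c := d ^ gs (Fintype.card F₀) k)).1 (by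
    rw [zpow_eq_self_iff, ← _root_.zpow_mul, gs_mul, ← zpow_eq_self_iff, ← Nat.cast_pow, ← hq]
    exact Units.ext (by simp [FiniteField.pow_card]))
  obtain ⟨u, rfl⟩ := GeneralLinearGroup.det_surjective (n := Fin n) z
  refine ⟨d ^ (-s), _, mem_subfieldSubgroup_one.2 ⟨1, u, rfl⟩, ?_⟩
  rw [one_smul, show GeneralLinearGroup.det (GeneralLinearGroup.map F₀.subtype u) = _ from
    (Units.ext (F₀.subtype.map_det u.1).symm).trans hz, hs]
  group

theorem not_elu_three [CharP F 3] (hn : n ≠ 0) (he : Even n) (F₀ : Subfield F)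
    (hk : Fintype.card F = Nat.card F₀ ^ 2) : ¬ Elu 3 (Geo.subfieldSubgroup F₀ (1 : GL (Fin n) F)) := by
  intro h
  have := Fact.mk Nat.prime_three
  have := Fintype.ofFinite F₀
  have h2 : ringChar F ≠ 2 := by rw [ringChar.eq F 3]; norm_num
  obtain ⟨m, rfl⟩ := he
  have := NeZero.mk (show m ≠ 0 by omega)
  let e : Fin m ⊕ Fin m ≃ _ := finSumFinEquiv
  let u : GL (Fin (m + m)) F₀ := GeneralLinearGroup.mkOfDetNeZero (reindex e e (fromBlocks 1 1 0 1))
    (by simp)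
  let φ : GL (Fin (m + m)) F₀ →* _ := GeneralLinearGroup.map F₀.subtype
  have h3 : (φ u).1 = reindex e e (fromBlocks 1 1 0 1) := by
    simp [φ, u, ← submatrix_map, fromBlocks_map]
  have h4 : φ u ^ 3 = 1 := Units.ext (by
    have : (1 + (1 + 1) : Matrix (Fin m) (Fin m) F) = 0 := by
      rw [← (algebraMap F _).map_one, ← map_add, ← map_add, ← (algebraMap F _).map_zero]
      exact congrArg _ ((by norm_num : _ = ((3 : ℕ) : F)).trans (CharP.cast_eq_zero F 3))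
    simp [h3, pow_succ, fromBlocks_multiply, this])
  obtain ⟨t, ht⟩ := FiniteField.exists_nonsquare h2
  obtain ⟨D, hD⟩ := GeneralLinearGroup.det_surjective (n := Fin (m + m))
    (Units.mk0 t (by rintro rfl; simp at ht))
  have h5 : ∀ g : GL (Fin (m + m)) F, (g⁻¹ * φ u * g) ^ 3 = 1 := fun g => by
    simpa [h4] using conj_pow (i := 3) (a := g⁻¹) (b := φ u)
  obtain ⟨g, hg, h6⟩ := h (D⁻¹ * φ u * D) (mem_specialLinear.2 ((det_units_conj' D _).trans
    (by simp [h3]))) ⟨1, by simp [h5]⟩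
    fun z hz => by
      have : (φ u).1 = z • 1 := by
        rw [show φ u = D * (D⁻¹ * φ u * D) * D⁻¹ by group, Units.val_mul, Units.val_mul, hz]; simp
      simpa [h3] using congrFun₂ this (e (.inl 0)) (e (.inr 0))
  obtain ⟨z, v, h7⟩ := mem_subfieldSubgroup_one.1 h6
  rw [show g⁻¹ * (D⁻¹ * φ u * D) * g = (D * g)⁻¹ * φ u * (D * g) by group] at h7
  have h8 : (z : F) ^ 3 * ((v ^ 3).1 0 0 : F₀) = 1 := by
    have := congrArg (fun x : GL _ F => x.1 0 0) (h7 ▸ h5 (D * g))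
    rwa [Units.val_pow_eq_pow_val, Units.val_smul, Units.smul_def, _root_.smul_pow,
      ← Units.val_pow_eq_pow_val (GeneralLinearGroup.map _ v), ← map_pow, Units.val_one,
      one_apply_eq] at this
  obtain ⟨y, hy⟩ := (frobeniusEquiv F₀ 3).surjective ((v ^ 3).1 0 0)⁻¹
  have h9 : (y : F) = z := frobenius_inj F 3 (by
    rw [frobenius_def, frobenius_def, eq_inv_of_mul_eq_one_left h8]
    exact congrArg Subtype.val hy)
  have h10 : y ≠ 0 := fun e => z.ne_zero (by simp [← h9, e])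
  have h11 : φ (Units.mk0 y h10 • v) = (D * g)⁻¹ * φ u * (D * g) :=
    h7 ▸ Units.ext (Matrix.ext fun i j => by simp [φ, ← h9, Units.smul_def])
  obtain ⟨c, hc⟩ := isConj_of_isConj_map F₀.subtype (A := (Units.mk0 y h10 • v).1) (B := u.1)
    ((Units.coeHom _).map_isConj (isConj_iff.2 ⟨D * g, (by rw [h11]; group : _ * φ _ * _ = φ u)⟩))
  have h12 : φ c * (D * g)⁻¹ * φ u = φ u * (φ c * (D * g)⁻¹) := by
    rw [← mul_assoc, ← map_mul, ← show c * (Units.mk0 y h10 • v) = u * c from Units.ext hc, map_mul,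
      h11]
    group
  have h13 := isSquare_det_of_commute e (c := (φ c * (D * g)⁻¹).1)
    (h3 ▸ congrArg Units.val h12)
  have h0 := GeneralLinearGroup.det_ne_zero c
  have h14 : ((c.1.det : F₀) : F) ≠ 0 := by simpa
  have h15 : IsSquare ((c.1.det : F₀) : F) := by
    obtain ⟨a, ha⟩ : Odd (Nat.card F₀) := (Nat.odd_pow_iff two_ne_zero).1
      (hk ▸ Nat.odd_iff.2 (FiniteField.odd_card_of_char_ne_two h2))
    have := congrArg Subtype.val (FiniteField.pow_card_sub_one_eq_one c.1.det h0)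
    rw [← Nat.card_eq_fintype_card, ha] at this
    rw [FiniteField.isSquare_iff h2 h14, hk, ha, show (2 * a + 1) ^ 2 / 2 = (2 * a + 1 - 1) * (a + 1) by
      rw [show (2 * a + 1) ^ 2 = 2 * (2 * a * (a + 1)) + 1 by ring]; simp [Nat.mul_add_div], pow_mul]
    simpa using congrArg (· ^ (a + 1)) this
  have h16 : (φ c).1.det = c.1.det := (F₀.subtype.map_det c.1).symm
  have h17 : D.1.det = t := congrArg Units.val hD
  refine ht ?_
  simpa [h16, h17, mem_specialLinear.1 hg, h0, mul_left_comm _ t] using h15.mul h13.inv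

end Cfsg.Agent.Class.Spec
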