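import Cfsg.Agent.Class.Elus.Form

/-!
# Elements of odd prime order in symplectic and orthogonal groups fixing subspaces
-/

set_option autoImplicit false

namespace Cfsg.Agent.Class.Elus

open Polynomial Module Wall
open Cfsg.Agent.KSG (Sim IsPP elemDiv cycFac)

section Multi

variable {α : Type*}

theorem exists_eq_add_replicate {a : α} {T : α → Prop} {s : Multiset α} (h : ∀ b ∈ s, b = a ∨ T b) :
    ∃ u k, (∀ b ∈ u, T b) ∧ s = u + Multiset.replicate k a := by
  classical
  refine ⟨s.filter (· ≠ a), _, fun b hb => (h b (Multiset.mem_filter.1 hb).1).resolve_left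
    (Multiset.mem_filter.1 hb).2, (Multiset.filter_add_not (· ≠ a) s).symm.trans
    (congrArg _ (Multiset.eq_replicate_of_mem fun c hc => ?_))⟩
  simpa using (Multiset.mem_filter.1 hc).2

theorem add_replicate_inj {a : α} {u u' : Multiset α} {k k' : ℕ} (hu : a ∉ u) (hu' : a ∉ u')
    (h : u + Multiset.replicate k a = u' + Multiset.replicate k' a) : u = u' ∧ k = k' := by
  classical
  have h1 := congrArg (Multiset.count a) h
  simp only [Multiset.count_add, Multiset.count_eq_zero_of_notMem hu,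
    Multiset.count_eq_zero_of_notMem hu', Multiset.count_replicate_self, zero_add] at h1
  subst h1
  exact ⟨add_right_cancel h, rfl⟩

theorem exists_add_of_le_card (u : Multiset α) {a : ℕ} (h : a ≤ Multiset.card u) :
    ∃ v w, u = v + w ∧ Multiset.card v = a := by
  induction u using Quotient.inductionOn with | _ l => ?_
  exact ⟨(l.take a : List α), (l.drop a : List α), by simp, by simpa using h⟩

theorem exists_eq_add_add_nodup (u : Multiset α) : ∃ v o : Multiset α, u = v + v + o ∧ o.Nodup := by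
  classical
  induction u using Multiset.induction_on with
  | empty => exact ⟨0, 0, by simp, by simp⟩
  | cons a u ih =>
    obtain ⟨v, o, rfl, h⟩ := ih
    by_cases ha : a ∈ o
    · obtain ⟨o', rfl⟩ := Multiset.exists_cons_of_mem ha
      exact ⟨a ::ₘ v, o', by simp, (Multiset.nodup_cons.1 h).2⟩
    · exact ⟨v, a ::ₘ o, by simp, Multiset.nodup_cons.2 ⟨ha, h⟩⟩

theorem eq_zero_of_add_add_nodup {v o : Multiset α} (h : (v + v + o).Nodup) : v = 0 := by
  have := (Multiset.nodup_add.1 (Multiset.nodup_add.1 h).1).2.2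
  simpa using this

end Multi

/-- The dimension of the minimal non-degenerate blocks. -/
def cc (i : ℕ) : ℕ := if Even i then i else 2 * i

theorem cc_of_even {i : ℕ} (h : Even i) : cc i = i := if_pos h

theorem cc_of_odd {i : ℕ} (h : Odd i) : cc i = 2 * i := if_neg (Nat.not_even_iff_odd.2 h)

theorem cc_pos {i : ℕ} (h : 0 < i) : 0 < cc i := by unfold cc; split_ifs <;> omega

theorem even_cc (i : ℕ) : Even (cc i) := by
  unfold cc; split_ifs with h
  exacts [h, even_two_mul i]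

theorem cc_dvd_two_mul_iff {i j : ℕ} : cc i ∣ 2 * j ↔ i ∣ 2 * j := by
  rcases i.even_or_odd with h | h
  · rw [cc_of_even h]
  · rw [cc_of_odd h, Nat.mul_dvd_mul_iff_left two_pos]
    exact ⟨fun h => h.mul_left 2, fun h' => (Nat.coprime_two_right.2 h).dvd_of_dvd_mul_left h'⟩

variable {F V V₁ V₂ : Type*} [Field F] [Fintype F] [AddCommGroup V] [Module F V] [AddCommGroup V₁]
  [Module F V₁] [AddCommGroup V₂] [Module F V₂] [FiniteDimensional F V] [FiniteDimensional F V₁]
  [FiniteDimensional F V₂] {ε : F} {π : F →+ F}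
  {B : LinearMap.BilinForm F V} {Q : V → F} {B₁ : LinearMap.BilinForm F V₁} {Q₁ : V₁ → F}
  {B₂ : LinearMap.BilinForm F V₂} {Q₂ : V₂ → F} {g : End F V} {r i : ℕ}

/-- The standing hypotheses on the prime `r`. -/
structure OddP (F : Type*) [Field F] [Fintype F] (r i : ℕ) : Prop where
  prime : r.Prime
  ne_two : r ≠ 2
  ne_zero : (r : F) ≠ 0
  ord : i = orderOf (Fintype.card F : ZMod r)

/-- Self-dual multisets of non-trivial factors. -/
structure SD (r : ℕ) (u : Multiset F[X]) : Prop where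
  mem : ∀ b ∈ u, b ∈ cycFac r F
  dual : u.map (dual (RingHom.id F)) = u

theorem OddP.pos (hr : OddP F r i) : 0 < i := hr.ord ▸ KSG.orderOf_card_pos hr.prime hr.ne_zero

theorem OddP.odd (hr : OddP F r i) : Odd r := hr.prime.odd_of_ne_two hr.ne_two

theorem OddP.notMem (hr : OddP F r i) {u : Multiset F[X]} (hu : ∀ b ∈ u, b ∈ cycFac r F) :
    X - C 1 ∉ u := fun h => KSG.X_sub_one_notMem_cycFac hr.prime hr.ne_zero (hu _ h)

theorem OddP.sum_natDegree (hr : OddP F r i) {u : Multiset F[X]} (hu : ∀ b ∈ u, b ∈ cycFac r F)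
    (k : ℕ) : ((u + Multiset.replicate k (X - C 1)).map natDegree).sum = Multiset.card u * i + k := by
  rw [Multiset.map_add, Multiset.sum_add, sum_natDegree_of_cycFac hr.prime hr.ne_zero hu,
    Multiset.map_replicate, natDegree_X_sub_C, Multiset.sum_replicate, smul_eq_mul, mul_one, hr.ord]

theorem OddP.map_dual_mem (hr : OddP F r i) {u : Multiset F[X]} (hu : ∀ b ∈ u, b ∈ cycFac r F) :
    ∀ b ∈ u.map (dual (RingHom.id F)), b ∈ cycFac r F := fun b hb => by
  obtain ⟨c, hc, rfl⟩ := Multiset.mem_map.1 hb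
  exact dual_mem_cycFac (fun _ => rfl) hr.prime hr.ne_zero (hu c hc)

theorem OddP.sd_add_dual (hr : OddP F r i) {v : Multiset F[X]} (hv : ∀ b ∈ v, b ∈ cycFac r F) :
    SD r (v.map (dual (RingHom.id F)) + v) := by
  refine ⟨fun b hb => (Multiset.mem_add.1 hb).elim (hr.map_dual_mem hv b) (hv b), ?_⟩
  rw [Multiset.map_add, Multiset.map_map, add_comm, Multiset.map_congr rfl (g := id)
    (f := dual _ ∘ dual _)
    fun b hb => dual_dual_of_mem_cycFac (fun _ => rfl) hr.prime.ne_zero (hv b hb), Multiset.map_id]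

theorem OddP.sd_of_even (hr : OddP F r i) (hi : Even i) {u : Multiset F[X]}
    (hu : ∀ b ∈ u, b ∈ cycFac r F) : SD r u :=
  ⟨hu, by rw [Multiset.map_congr rfl (g := id) fun b hb => (dual_id_eq_self_iff hr.prime hr.ne_two
    hr.ne_zero (hu b hb)).2 (hr.ord ▸ hi), Multiset.map_id]⟩

theorem OddP.exists_half (hr : OddP F r i) (hi : Odd i) {u : Multiset F[X]} (hu : SD r u) :
    ∃ v, (∀ b ∈ v, b ∈ cycFac r F) ∧ v.map (dual (RingHom.id F)) + v = u := by
  obtain ⟨T, -, h1, h2, -⟩ := Wall.exists_half (cycFac r F) (dual (RingHom.id F))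
    (fun b => dual_mem_cycFac (fun _ => rfl) hr.prime hr.ne_zero)
    (fun b => dual_dual_of_mem_cycFac (fun _ => rfl) hr.prime.ne_zero) fun b hb e =>
      Nat.not_even_iff_odd.2 hi (hr.ord ▸ (dual_id_eq_self_iff hr.prime hr.ne_two hr.ne_zero hb).1 e)
  obtain ⟨v, a1, a2⟩ := h2 _ hu.mem hu.dual
  exact ⟨v, fun b hb => h1 b (a1 b hb), a2⟩

omit [Fintype F] in
theorem SD.of_add {u v : Multiset F[X]} (h : SD r (u + v)) (hu : SD r u) : SD r v :=
  ⟨fun b hb => h.mem b (by simp [hb]), by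
    have := h.dual
    rwa [Multiset.map_add, hu.dual, add_right_inj] at this⟩

theorem OddP.exists_sd (hr : OddP F r i) (A : ℕ) :
    ∃ u : Multiset F[X], SD r u ∧ Multiset.card u * i = A * cc i := by
  obtain ⟨f, hf⟩ := exists_mem_cycFac hr.prime hr.ne_zero
  have h1 : ∀ b ∈ Multiset.replicate A f, b ∈ cycFac r F := fun b hb =>
    Multiset.eq_of_mem_replicate hb ▸ hf
  rcases i.even_or_odd with h | h
  · exact ⟨_, hr.sd_of_even h h1, by simp [cc_of_even h]⟩
  · exact ⟨_, hr.sd_add_dual h1, by simp [cc_of_odd h]; ring⟩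

theorem OddP.exists_split (hr : OddP F r i) {u : Multiset F[X]} (hu : SD r u) :
    ∃ A, Multiset.card u * i = A * cc i ∧ ∀ A₁ A₂, A = A₁ + A₂ → ∃ u₁ u₂, u = u₁ + u₂ ∧ SD r u₁ ∧
      SD r u₂ ∧ Multiset.card u₁ * i = A₁ * cc i ∧ Multiset.card u₂ * i = A₂ * cc i := by
  rcases i.even_or_odd with h | h
  · refine ⟨Multiset.card u, by rw [cc_of_even h], fun A₁ A₂ e => ?_⟩
    obtain ⟨v, w, rfl, rfl⟩ := exists_add_of_le_card u (a := A₁) (by omega)
    rw [Multiset.card_add, add_right_inj] at e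
    exact ⟨v, w, rfl, hr.sd_of_even h fun b hb => hu.mem b (by simp [hb]),
      hr.sd_of_even h fun b hb => hu.mem b (by simp [hb]), by rw [cc_of_even h],
      by rw [cc_of_even h, e]⟩
  · obtain ⟨v, h1, rfl⟩ := hr.exists_half h hu
    refine ⟨Multiset.card v, by simp [cc_of_odd h]; ring, fun A₁ A₂ e => ?_⟩
    obtain ⟨v, w, rfl, rfl⟩ := exists_add_of_le_card v (a := A₁) (by omega)
    rw [Multiset.card_add, add_right_inj] at e
    exact ⟨_, _, by rw [Multiset.map_add]; abel,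
      hr.sd_add_dual (v := v) fun b hb => h1 b (by simp [hb]),
      hr.sd_add_dual (v := w) fun b hb => h1 b (by simp [hb]), by simp [cc_of_odd h]; ring,
      by simp [cc_of_odd h, e]; ring⟩

/-- `N` bounds the dimension of the moved space of the elements of order `r`. -/
structure Cap (B : LinearMap.BilinForm F V) (Q : V → F) (r i N : ℕ) : Prop where
  le : N ≤ finrank F V
  iff : ∀ u : Multiset F[X], SD r u → Multiset.card u * i ≤ finrank F V →
    (RealIn B Q (u + Multiset.replicate (finrank F V - Multiset.card u * i) (X - C 1)) ↔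
      Multiset.card u * i ≤ N)

omit [Fintype F] in
theorem Cap.of_isometric {N : ℕ} (h : Cap B Q r i N) (e : Isometric B Q B₁ Q₁) :
    Cap B₁ Q₁ r i N :=
  ⟨e.finrank_eq ▸ h.le, fun u hu hn => by
    rw [← h.iff u hu (e.finrank_eq ▸ hn), e.finrank_eq]
    exact ⟨fun h => h.of_isometric e.symm, fun h => h.of_isometric e⟩⟩

theorem Cap.realIn_iff {N : ℕ} (h : Cap B Q r i N) (hr : OddP F r i) (hB : Nd (RingHom.id F) B)
    {s : Multiset F[X]} (hs : ∀ b ∈ s, b = X - C 1 ∨ b ∈ cycFac r F) : RealIn B Q s ↔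
      ∃ u, SD r u ∧ Multiset.card u * i ≤ N ∧
        s = u + Multiset.replicate (finrank F V - Multiset.card u * i) (X - C 1) := by
  constructor
  · intro h1
    obtain ⟨u, k, h2, rfl⟩ := exists_eq_add_replicate hs
    have h3 := h1.sum_natDegree
    rw [hr.sum_natDegree h2] at h3
    have h4 : SD r u := ⟨h2, map_dual_add_replicate_iff.1 (h1.map_dual hB)⟩
    obtain rfl : k = finrank F V - Multiset.card u * i := by omega
    exact ⟨u, h4, (h.iff u h4 (by omega)).1 h1, rfl⟩
  · rintro ⟨u, h1, h2, rfl⟩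
    exact (h.iff u h1 (h2.trans h.le)).2 h2

theorem Cap.forall_iff {N : ℕ} (h : Cap B Q r i N) (hr : OddP F r i) (hB : Nd (RingHom.id F) B)
    {Φ : End F V → Prop} {Ψ : Multiset F[X] → Prop}
    (H : ∀ g u, Pres B Q g → g ^ r = 1 → SD r u → Multiset.card u * i ≤ N →
      elemDiv g = u + Multiset.replicate (finrank F V - Multiset.card u * i) (X - C 1) →
      (Φ g ↔ Ψ u)) :
    (∀ g, Pres B Q g → g ^ r = 1 → g ≠ 1 → Φ g) ↔
      ∀ u, SD r u → u ≠ 0 → Multiset.card u * i ≤ N → Ψ u := by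
  constructor
  · intro h1 u a1 a2 a3
    obtain ⟨g, b1, b2⟩ := (h.iff u a1 (a3.trans h.le)).2 a3
    have b3 : g ^ r = 1 := by
      have := (pow_eq_smul_one_iff_elemDiv g r 1).2 fun b hb => by
        refine (KSG.dvd_X_pow_sub_one_iff hr.prime hr.ne_zero (KSG.isPP_of_mem_elemDiv hb)).2 ?_
        rw [b2] at hb
        exact (Multiset.mem_add.1 hb).symm.imp Multiset.eq_of_mem_replicate (a1.mem b)
      simpa using this
    refine (H g u b1 b3 a1 a3 b2).1 (h1 g b1 b3 ?_)
    rintro rfl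
    rw [elemDiv_one, ← zero_add (Multiset.replicate _ _)] at b2
    exact a2 (add_replicate_inj (by simp) (hr.notMem a1.mem) b2).1.symm
  · intro h1 g a1 a2 a3
    obtain ⟨u, b1, b2, b3⟩ := (h.realIn_iff hr hB fun b hb =>
      mem_elemDiv_of_pow_prime hr.prime hr.ne_zero a2 hb).1 ⟨g, a1, rfl⟩
    refine (H g u a1 a2 b1 b2 b3).2 (h1 u b1 ?_ b2)
    rintro rfl
    refine a3 ((eq_smul_one_of_elemDiv (f := g) (c := 1) fun b hb => ?_).trans (one_smul _ _))
    rw [b3, zero_add] at hb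
    exact Multiset.eq_of_mem_replicate hb

theorem mul_le_iff_le_div {c : ℕ} (hc : 0 < c) {A N : ℕ} : A * c ≤ N ↔ A ≤ N / c :=
  (Nat.le_div_iff_mul_le hc).symm

/-- **Non-degenerate subspaces**, elements of odd prime order. -/
theorem forall_isoS_iff (T : FType (RingHom.id F) ε π) (hr : OddP F r i)
    (h : IsTF (RingHom.id F) B Q ε π) (h₁ : IsTF (RingHom.id F) B₁ Q₁ ε π)
    (h₂ : IsTF (RingHom.id F) B₂ Q₂ ε π) (hV : IsSum B₁ Q₁ B₂ Q₂ B Q) {N N₁ N₂ : ℕ}
    (c : Cap B Q r i N) (c₁ : Cap B₁ Q₁ r i N₁) (c₂ : Cap B₂ Q₂ r i N₂) :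
    (∀ g, Pres B Q g → g ^ r = 1 → g ≠ 1 → ∃ W, IsoS B Q B₁ Q₁ W ∧ Inv g W) ↔
      N / cc i ≤ N₁ / cc i + N₂ / cc i := by
  have hc := cc_pos hr.pos
  have z1 := Nat.zero_le (N₁ / cc i)
  have z2 := Nat.zero_le (N₂ / cc i)
  have hn : finrank F V₁ + finrank F V₂ = finrank F V := by
    rw [← Isometric.finrank_eq hV, finrank_prod]
  rw [c.forall_iff hr h.toNd (Ψ := fun u => ∃ u₁ u₂, u = u₁ + u₂ ∧ SD r u₁ ∧ SD r u₂ ∧
    Multiset.card u₁ * i ≤ N₁ ∧ Multiset.card u₂ * i ≤ N₂)]
  · constructor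
    · intro H
      by_contra hlt
      obtain ⟨u, a1, a2⟩ := hr.exists_sd (N / cc i)
      obtain ⟨u₁, u₂, rfl, b1, b2, b3, b4⟩ := H u a1 (by
        rintro rfl
        have := Nat.mul_pos (show 0 < N / cc i by omega) hc
        rw [Multiset.card_zero, zero_mul] at a2; omega) (a2 ▸ Nat.div_mul_le_self _ _)
      obtain ⟨A₁, d1, -⟩ := hr.exists_split b1
      obtain ⟨A₂, d2, -⟩ := hr.exists_split b2
      rw [d1, mul_le_iff_le_div hc] at b3
      rw [d2, mul_le_iff_le_div hc] at b4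
      rw [Multiset.card_add, add_mul, d1, d2, ← add_mul] at a2
      have := Nat.eq_of_mul_eq_mul_right hc a2
      omega
    · intro H u a1 _ a3
      obtain ⟨A, d1, d2⟩ := hr.exists_split a1
      rw [d1, mul_le_iff_le_div hc] at a3
      obtain ⟨u₁, u₂, e, b1, b2, b3, b4⟩ := d2 (min A (N₁ / cc i)) (A - min A (N₁ / cc i)) (by omega)
      exact ⟨u₁, u₂, e, b1, b2, by rw [b3, mul_le_iff_le_div hc]; omega,
        by rw [b4, mul_le_iff_le_div hc]; omega⟩
  · intro g u a1 a2 a3 a4 a5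
    rw [exists_isoS_iff T h h₁ h₂ hV a1 (simCl_of_pow (h.isFormed T) a1 hr.odd hr.ne_zero a2)]
    constructor
    · rintro ⟨s₁, s₂, b1, b2, b3⟩
      have hs := fun b => mem_elemDiv_of_pow_prime hr.prime hr.ne_zero a2 (b := b)
      obtain ⟨u₁, d1, d2, rfl⟩ := (c₁.realIn_iff hr h₁.toNd fun b hb => hs b (by simp [b3, hb])).1 b1
      obtain ⟨u₂, d3, d4, rfl⟩ := (c₂.realIn_iff hr h₂.toNd fun b hb => hs b (by
        rw [b3]; exact Multiset.mem_add.2 (Or.inr hb))).1 b2
      rw [a5, add_add_add_comm, ← Multiset.replicate_add] at b3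
      exact ⟨u₁, u₂, (add_replicate_inj (hr.notMem a3.mem) (hr.notMem fun b hb =>
        (Multiset.mem_add.1 hb).elim (d1.mem b) (d3.mem b)) b3).1, d1, d3, d2, d4⟩
    · rintro ⟨u₁, u₂, rfl, b1, b2, b3, b4⟩
      refine ⟨_, _, (c₁.iff u₁ b1 (b3.trans c₁.le)).2 b3, (c₂.iff u₂ b2 (b4.trans c₂.le)).2 b4, ?_⟩
      rw [a5, add_add_add_comm, ← Multiset.replicate_add, Multiset.card_add, add_mul]
      have := c₁.le
      have := c₂.le
      congr 2
      omega

section TS

variable {U : Type*} [AddCommGroup U] [Module F U] [FiniteDimensional F U]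
  {B₀ : LinearMap.BilinForm F U}

theorem forall_tss_iff_aux (T : FType (RingHom.id F) ε π) (hr : OddP F r i)
    {h₀ : Nd (RingHom.id F) B₀} (hV : IsHSum ε π h₀ B₂ Q₂ B Q) (h : IsTF (RingHom.id F) B Q ε π)
    (h₂ : IsTF (RingHom.id F) B₂ Q₂ ε π) {N N₂ : ℕ} (c : Cap B Q r i N) (c₂ : Cap B₂ Q₂ r i N₂) :
    (∀ g, Pres B Q g → g ^ r = 1 → g ≠ 1 →
      ∃ W : Submodule F V, (finrank F W = finrank F U ∧ TSS B Q W) ∧ Inv g W) ↔
      ∀ u : Multiset F[X], SD r u → u ≠ 0 → Multiset.card u * i ≤ N →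
        ∃ ν u₂, u = ν.map (dual (RingHom.id F)) + ν + u₂ ∧
          Multiset.card ν * i ≤ finrank F U ∧ Multiset.card u₂ * i ≤ N₂ := by
  have hn := hV.finrank_eq
  refine c.forall_iff hr h.toNd fun g u a1 a2 a3 a4 a5 => ?_
  rw [exists_tss_iff T hV h h₂ a1 (simCl_of_pow (h.isFormed T) a1 hr.odd hr.ne_zero a2)
    (squarefree_X_pow_sub_C hr.ne_zero one_ne_zero)
    ((aeval_X_pow_sub_C_eq_zero_iff _ _ _).2 (by simpa using a2))]
  constructor
  · rintro ⟨ν, s₂, b1, b2, b3⟩
    have hs := fun b => mem_elemDiv_of_pow_prime hr.prime hr.ne_zero a2 (b := b)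
    obtain ⟨u₂, d3, d4, rfl⟩ := (c₂.realIn_iff hr h₂.toNd fun b hb => hs b (by
      rw [b3]; exact Multiset.mem_add.2 (Or.inr hb))).1 b2
    obtain ⟨ν', j, d1, rfl⟩ := exists_eq_add_replicate (s := ν) fun b hb => hs b (by simp [b3, hb])
    rw [hr.sum_natDegree d1] at b1
    rw [a5, Multiset.map_add, Multiset.map_replicate, dual_X_sub_C_of_norm (by simp),
      add_add_add_comm (Multiset.map _ _), add_add_add_comm, ← Multiset.replicate_add,
      ← Multiset.replicate_add] at b3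
    exact ⟨ν', u₂, (add_replicate_inj (hr.notMem a3.mem) (hr.notMem fun b hb =>
      (Multiset.mem_add.1 hb).elim ((hr.sd_add_dual d1).mem b) (d3.mem b)) b3).1, by omega, d4⟩
  · rintro ⟨ν, u₂, rfl, b1, b2⟩
    have d1 : ∀ b ∈ ν, b ∈ cycFac r F := fun b hb => a3.mem b (by simp [hb])
    refine ⟨ν + Multiset.replicate (finrank F U - Multiset.card ν * i) (X - C 1), _,
      by rw [hr.sum_natDegree d1]; omega,
      (c₂.iff u₂ (a3.of_add (hr.sd_add_dual d1)) (b2.trans c₂.le)).2 b2, ?_⟩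
    rw [a5, Multiset.map_add, Multiset.map_replicate, dual_X_sub_C_of_norm (by simp),
      add_add_add_comm (Multiset.map _ _), add_add_add_comm, ← Multiset.replicate_add,
      ← Multiset.replicate_add]
    have := c₂.le
    simp only [Multiset.card_add, Multiset.card_map, add_mul]
    congr 2
    omega

/-- **Totally singular subspaces**, `i` odd. -/
theorem forall_tss_iff_odd (T : FType (RingHom.id F) ε π) (hr : OddP F r i) (hi : Odd i)
    {h₀ : Nd (RingHom.id F) B₀} (hV : IsHSum ε π h₀ B₂ Q₂ B Q) (h : IsTF (RingHom.id F) B Q ε π)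
    (h₂ : IsTF (RingHom.id F) B₂ Q₂ ε π) {N N₂ : ℕ} (c : Cap B Q r i N) (c₂ : Cap B₂ Q₂ r i N₂) :
    (∀ g, Pres B Q g → g ^ r = 1 → g ≠ 1 →
      ∃ W : Submodule F V, (finrank F W = finrank F U ∧ TSS B Q W) ∧ Inv g W) ↔
      N / cc i ≤ finrank F U / i + N₂ / cc i := by
  have hc := cc_pos hr.pos
  have z1 := Nat.zero_le (finrank F U / i)
  have z2 := Nat.zero_le (N₂ / cc i)
  rw [forall_tss_iff_aux T hr hV h h₂ c c₂]
  constructor
  · intro H
    by_contra hlt
    obtain ⟨u, a1, a2⟩ := hr.exists_sd (N / cc i)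
    obtain ⟨ν, u₂, rfl, b1, b2⟩ := H u a1 (by
      rintro rfl
      have := Nat.mul_pos (show 0 < N / cc i by omega) hc
      rw [Multiset.card_zero, zero_mul] at a2; omega) (a2 ▸ Nat.div_mul_le_self _ _)
    obtain ⟨A₂, d2, -⟩ := hr.exists_split
      (a1.of_add (hr.sd_add_dual fun b hb => a1.mem b (by simp [hb])))
    rw [d2, mul_le_iff_le_div hc] at b2
    rw [mul_le_iff_le_div hr.pos] at b1
    rw [Multiset.card_add, add_mul, d2, Multiset.card_add, Multiset.card_map, ← two_mul, mul_comm 2,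
      mul_assoc, ← cc_of_odd hi, ← add_mul] at a2
    have := Nat.eq_of_mul_eq_mul_right hc a2
    omega
  · intro H u a1 _ a3
    obtain ⟨v, h1, rfl⟩ := hr.exists_half hi a1
    obtain ⟨ν, w, rfl, e⟩ := exists_add_of_le_card v (min_le_left _ (finrank F U / i))
    rw [Multiset.card_add, Multiset.card_map, ← two_mul, mul_comm 2, mul_assoc, ← cc_of_odd hi,
      mul_le_iff_le_div hc] at a3
    refine ⟨ν, w.map (dual (RingHom.id F)) + w, by rw [Multiset.map_add]; abel,
      by rw [mul_le_iff_le_div hr.pos]; omega, ?_⟩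
    rw [Multiset.card_add, Multiset.card_map, ← two_mul, mul_comm 2, mul_assoc, ← cc_of_odd hi,
      mul_le_iff_le_div hc]
    rw [Multiset.card_add] at a3 e
    omega

/-- **Totally singular subspaces**, `i` even. -/
theorem forall_tss_iff_even (T : FType (RingHom.id F) ε π) (hr : OddP F r i) (hi : Even i)
    {h₀ : Nd (RingHom.id F) B₀} (hV : IsHSum ε π h₀ B₂ Q₂ B Q) (h : IsTF (RingHom.id F) B Q ε π)
    (h₂ : IsTF (RingHom.id F) B₂ Q₂ ε π) {N N₂ : ℕ} (c : Cap B Q r i N) (c₂ : Cap B₂ Q₂ r i N₂)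
    (hlt : N₂ / i < N / i) :
    (∀ g, Pres B Q g → g ^ r = 1 → g ≠ 1 →
      ∃ W : Submodule F V, (finrank F W = finrank F U ∧ TSS B Q W) ∧ Inv g W) ↔
      (r - 1) / i ≤ N₂ / i ∧ N / i ≤ N₂ / i + 2 * (finrank F U / i) := by
  classical
  have hc := hr.pos
  have z1 := Nat.zero_le (finrank F U / i)
  have z2 := Nat.zero_le (N₂ / i)
  have ht : (cycFac r F).card = (r - 1) / i := by
    rw [← KSG.card_cycFac_mul hr.prime hr.ne_zero, ← hr.ord, Nat.mul_div_cancel _ hc]
  rw [forall_tss_iff_aux T hr hV h h₂ c c₂, ← ht]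
  simp only [mul_le_iff_le_div hc]
  constructor
  · intro H
    constructor
    · by_contra hlt'
      obtain ⟨v, w, e, a2⟩ := exists_add_of_le_card (cycFac r F).val (a := N₂ / i + 1)
        (by rw [Finset.card_val]; omega)
      have a1 := hr.sd_of_even hi (u := v) fun b hb =>
        show b ∈ (cycFac r F).val by simp [e, hb]
      obtain ⟨ν, u₂, rfl, b1, b2⟩ := H v a1 (by rintro rfl; simp at a2) (by omega)
      have d1 := (hr.sd_of_even hi (u := ν) fun b hb => a1.mem b (by simp [hb])).dual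
      rw [d1] at e a2
      obtain rfl := eq_zero_of_add_add_nodup (Multiset.nodup_add.1 (e ▸ (cycFac r F).nodup)).1
      simp at a2
      omega
    · obtain ⟨u, a1, a2⟩ := hr.exists_sd (N / i)
      rw [cc_of_even hi] at a2
      have a3 := Nat.eq_of_mul_eq_mul_right hc a2
      obtain ⟨ν, u₂, rfl, b1, b2⟩ := H u a1 (by rintro rfl; rw [Multiset.card_zero] at a3; omega) a3.le
      simp only [Multiset.card_add, Multiset.card_map] at a3
      omega
  · rintro ⟨H1, H2⟩ u a1 - a3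
    obtain ⟨v, o, rfl, h1⟩ := exists_eq_add_add_nodup u
    obtain ⟨ν, w, rfl, e⟩ := exists_add_of_le_card v (min_le_left _ (finrank F U / i))
    have d1 := (hr.sd_of_even hi (u := ν) fun b hb => a1.mem b (by simp [hb])).dual
    have d2 : Multiset.card o ≤ (cycFac r F).card := Multiset.card_le_card
      ((Multiset.le_iff_subset h1).2 fun b hb => a1.mem b (by simp [hb]))
    refine ⟨ν, w + w + o, by rw [d1]; abel, by omega, ?_⟩
    simp only [Multiset.card_add] at a3 e ⊢
    omega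

end TS

/-! ### The `r`-part of the orders -/

/-- `∏_{j=1}^D (q ^ (2 j) - 1)`. -/
def qf2 (q D : ℕ) : ℕ := ∏ j ∈ Finset.range D, (q ^ (2 * (j + 1)) - 1)

theorem qf2_pos {q : ℕ} (hq : 1 < q) (D : ℕ) : 0 < qf2 q D :=
  Finset.prod_pos fun _ _ => Nat.sub_pos_of_lt (Nat.one_lt_pow (by omega) hq)

theorem qf2_succ (q D : ℕ) : qf2 q (D + 1) = qf2 q D * (q ^ (2 * (D + 1)) - 1) :=
  Finset.prod_range_succ _ _

theorem OddP.dvd_iff (hr : OddP F r i) (j : ℕ) : r ∣ Fintype.card F ^ j - 1 ↔ i ∣ j :=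
  hr.ord ▸ dvd_pow_sub_one_iff Fintype.card_pos j

theorem OddP.factorization_qf2_le (hr : OddP F r i) {D D' : ℕ} (h : 2 * D / cc i ≤ 2 * D' / cc i) :
    (qf2 (Fintype.card F) D).factorization r ≤ (qf2 (Fintype.card F) D').factorization r := by
  have hq := Fintype.one_lt_card (α := F)
  rcases le_total D D' with h1 | h1
  · exact Nat.factorization_le_factorization_of_dvd_right
      (Finset.prod_dvd_prod_of_subset _ _ _ (Finset.range_mono h1)) (qf2_pos hq _).ne'
      (qf2_pos hq _).ne'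
  · induction h1 with
    | refl => exact le_rfl
    | @step E h1 ih =>
      have h2 : ¬ r ∣ Fintype.card F ^ (2 * (E + 1)) - 1 := by
        rw [hr.dvd_iff, ← cc_dvd_two_mul_iff]
        rintro ⟨A, hA⟩
        change 2 * (E + 1) / cc i ≤ _ at h
        rw [hA, Nat.mul_div_cancel_left _ (cc_pos hr.pos), ← mul_le_iff_le_div (cc_pos hr.pos),
          mul_comm, ← hA] at h
        have : D' ≤ E := h1
        omega
      rw [qf2_succ, Nat.factorization_mul (qf2_pos hq _).ne'
        (Nat.sub_pos_of_lt (Nat.one_lt_pow (by omega) hq)).ne', Finsupp.add_apply,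
        Nat.factorization_eq_zero_of_not_dvd h2, add_zero]
      exact ih ((Nat.div_le_div_right (by omega)).trans h)

/-- If `r` divides the index of a subgroup with `r`-part that of `qf2 q D'` in a group with
`r`-part that of `qf2 q D`, there are more blocks. -/
theorem OddP.div_lt_of_dvd (hr : OddP F r i) {D D' N a b : ℕ} (hb : b ≠ 0)
    (h1 : a.factorization r = (qf2 (Fintype.card F) D').factorization r)
    (h2 : b.factorization r = (qf2 (Fintype.card F) D).factorization r) (h : N * a ∣ b)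
    (hN : r ∣ N) : 2 * D' / cc i < 2 * D / cc i := by
  by_contra hle
  have h3 := hr.factorization_qf2_le (not_lt.1 hle)
  have h0 : N * a ≠ 0 := ne_zero_of_dvd_ne_zero hb h
  have h4 := Nat.factorization_le_factorization_of_dvd_right (a := r) h h0 hb
  rw [Nat.factorization_mul (left_ne_zero_of_mul h0) (right_ne_zero_of_mul h0), Finsupp.add_apply]
    at h4
  have h5 := hr.prime.factorization_pos_of_dvd (left_ne_zero_of_mul h0) hN
  omega

end Cfsg.Agent.Class.Elus
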