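import Cfsg.Agent.Class.Elus.Orth4

/-!
# Involutions in characteristic two fixing non-degenerate subspaces
-/

set_option autoImplicit false

namespace Cfsg.Agent.Class.Elus

open Polynomial Module Wall
open Cfsg.Agent.KSG (Sim IsPP elemDiv cycFac)

variable {F V V₁ V₂ : Type*} [Field F] [AddCommGroup V] [Module F V] [AddCommGroup V₁]
  [Module F V₁] [AddCommGroup V₂] [Module F V₂] {ε : F} {π : F →+ F}
  {B : LinearMap.BilinForm F V} {Q : V → F} {B₁ : LinearMap.BilinForm F V₁} {Q₁ : V₁ → F}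
  {B₂ : LinearMap.BilinForm F V₂} {Q₂ : V₂ → F} {g : End F V} {g₁ : End F V₁} {g₂ : End F V₂}

/-- The rank of `1 - g`. -/
noncomputable abbrev rk (g : End F V) : ℕ := finrank F (LinearMap.range (1 - g))

/-- The Wall form of `g` is alternating. -/
def Alt (B : LinearMap.BilinForm F V) (g : End F V) : Prop := ∀ u, B u (u - g u) = 0

/-- There is an isometry of order dividing two with the given invariants. -/
def Rz (B : LinearMap.BilinForm F V) (Q : V → F) (s : ℕ) (a : Prop) : Prop :=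
  ∃ g, Pres B Q g ∧ g * g = 1 ∧ rk g = s ∧ (Alt B g ↔ a)

theorem IsoSim.rk_eq (h : IsoSim B Q g B₁ Q₁ g₁) : rk g = rk g₁ := by
  have := (h.sim.aeval (1 - X)).finrank_range
  rwa [map_sub, map_sub, map_one, map_one, aeval_X, aeval_X] at this

theorem IsoSim.alt_iff (h : IsoSim B Q g B₁ Q₁ g₁) : Alt B g ↔ Alt B₁ g₁ := by
  obtain ⟨e, h1, -, h3⟩ := h
  refine ⟨fun H u => ?_, fun H u => by rw [← h1, map_sub, h3, H]⟩
  obtain ⟨u, rfl⟩ := e.surjective u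
  rw [← h3, ← map_sub, h1, H]

theorem alt_prodMap : Alt (prodB B₁ B₂) (g₁.prodMap g₂) ↔ Alt B₁ g₁ ∧ Alt B₂ g₂ :=
  ⟨fun H => ⟨fun u => by simpa using H (u, 0), fun u => by simpa using H (0, u)⟩,
    fun H u => by simpa using congrArg₂ (· + ·) (H.1 u.1) (H.2 u.2)⟩

theorem rk_one : rk (1 : End F V) = 0 := by
  rw [rk, sub_self, LinearMap.range_zero, finrank_bot]

theorem alt_one : Alt B 1 := fun u => by simp

theorem rz_zero : Rz B Q 0 True := ⟨1, Pres.one, mul_one _, rk_one, iff_true_intro alt_one⟩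

variable [FiniteDimensional F V] [FiniteDimensional F V₁] [FiniteDimensional F V₂]

theorem rk_eq_zero_iff : rk g = 0 ↔ g = 1 := by
  rw [Submodule.finrank_eq_zero, LinearMap.range_eq_bot, sub_eq_zero, eq_comm]

theorem rk_prodMap : rk (g₁.prodMap g₂) = rk g₁ + rk g₂ := by
  rw [← finrank_submodule_prod, ← LinearMap.range_prodMap]
  rw [show (1 - g₁).prodMap (1 - g₂) = 1 - g₁.prodMap g₂ from LinearMap.ext fun _ => rfl]

omit [FiniteDimensional F V] in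
theorem Rz.pos {s : ℕ} (h : Rz B₁ Q₁ s False) : 1 ≤ s := by
  obtain ⟨g, -, -, rfl, h⟩ := h
  exact Nat.pos_of_ne_zero fun e => h.1 (rk_eq_zero_iff.1 e ▸ alt_one)

theorem Rz.two_mul_le (h2 : (2 : F) = 0) (h : IsFormed (RingHom.id F) B Q ε π) {s : ℕ} {a : Prop}
    (H : Rz B Q s a) : 2 * s ≤ finrank F V := by
  obtain ⟨g, a1, a2, rfl, -⟩ := H
  exact WallF.two_mul_finrank_mv_le h h2 (t := (a1.toIsom h.nd).1) a1.map_B
    (LinearEquiv.toLinearMap_injective a2)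

theorem Rz.even (h : IsFormed (RingHom.id F) B Q ε π) {s : ℕ} (H : Rz B Q s True) : Even s := by
  obtain ⟨g, a1, a2, rfl, a3⟩ := H
  exact WallF.even_of_altW h (t := (a1.toIsom h.nd).1) a1.map_B (a3.2 trivial)

theorem rz_of_tss (h2 : (2 : F) = 0) (h : IsFormed (RingHom.id F) B Q ε π) (hε : ε = 1)
    {M : Submodule F V} (hM : TSS B Q M) (he : Even (finrank F M)) : Rz B Q (finrank F M) True := by
  obtain ⟨t, a1, a2, a3⟩ := WallF.exists_invol_alt h h2 hε M hM.1 hM.2 he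
  exact ⟨_, pres_isom t, congrArg (fun x => x.1.toLinearMap) a1, a2 ▸ rfl, iff_true_intro a3⟩

variable [Finite F]

omit [FiniteDimensional F V₁] in
theorem isoSim_of_invol (h2 : (2 : F) = 0) (h : IsFormed (RingHom.id F) B Q ε π)
    (e : Isometric B₁ Q₁ B Q) (hg₁ : Pres B₁ Q₁ g₁) (hg : Pres B Q g) (a₁ : g₁ * g₁ = 1)
    (a : g * g = 1) (hr : rk g₁ = rk g) (ha : Alt B₁ g₁ ↔ Alt B g) : IsoSim B₁ Q₁ g₁ B Q g := by
  obtain ⟨g', b1, b2⟩ := e.exists_isoSim hg₁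
  exact b2.trans (isConj_iff_isoSim.1 ((WallF.isConj_iff_of_invol h h2 (t := b1.toIsom h.nd)
    (s := hg.toIsom h.nd) (Subtype.ext (LinearEquiv.toLinearMap_injective (Sim.mul_eq_one b2.sim a₁)))
    (Subtype.ext (LinearEquiv.toLinearMap_injective a))).2
    ⟨(IsoSim.rk_eq b2).symm.trans hr, (IsoSim.alt_iff b2).symm.trans ha⟩))

theorem exists_isoS_iff_invol (T : FType (RingHom.id F) ε π) (h2 : (2 : F) = 0)
    (h : IsTF (RingHom.id F) B Q ε π) (h₁ : IsTF (RingHom.id F) B₁ Q₁ ε π)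
    (h₂ : IsTF (RingHom.id F) B₂ Q₂ ε π) (hV : IsSum B₁ Q₁ B₂ Q₂ B Q) (hg : Pres B Q g)
    (a : g * g = 1) : (∃ W, IsoS B Q B₁ Q₁ W ∧ Inv g W) ↔
      ∃ s₁ a₁ s₂ a₂, Rz B₁ Q₁ s₁ a₁ ∧ Rz B₂ Q₂ s₂ a₂ ∧ s₁ + s₂ = rk g ∧ (a₁ ∧ a₂ ↔ Alt B g) := by
  rw [exists_isoS_iff_isoSim T h h₁ h₂ hV hg]
  constructor
  · rintro ⟨g₁, g₂, a1, a2, a3⟩
    have := Sim.mul_eq_one a3.symm.sim a
    exact ⟨_, _, _, _, ⟨g₁, a1, LinearMap.ext fun x => congrArg Prod.fst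
      (LinearMap.congr_fun this (x, 0)), rfl, Iff.rfl⟩, ⟨g₂, a2, LinearMap.ext fun x =>
      congrArg Prod.snd (LinearMap.congr_fun this (0, x)), rfl, Iff.rfl⟩,
      rk_prodMap.symm.trans (IsoSim.rk_eq a3), alt_prodMap.symm.trans (IsoSim.alt_iff a3)⟩
  · rintro ⟨_, a₁, _, a₂, ⟨g₁, b1, b2, rfl, b3⟩, ⟨g₂, c1, c2, rfl, c3⟩, d1, d2⟩
    exact ⟨g₁, g₂, b1, c1, isoSim_of_invol h2 (h.isFormed T) hV (b1.prod c1) hg
      (LinearMap.ext fun x => Prod.ext (LinearMap.congr_fun b2 x.1) (LinearMap.congr_fun c2 x.2)) a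
      (rk_prodMap.trans d1) (by rw [alt_prodMap, b3, c3, d2])⟩

/-- **Involutions in characteristic two**; `w`, `w₁`, `w₂` are the Witt indices. -/
theorem forall_invol_isoS_iff (T : FType (RingHom.id F) ε π) (h2 : (2 : F) = 0)
    (h : IsTF (RingHom.id F) B Q ε π) (h₁ : IsTF (RingHom.id F) B₁ Q₁ ε π)
    (h₂ : IsTF (RingHom.id F) B₂ Q₂ ε π) (hV : IsSum B₁ Q₁ B₂ Q₂ B Q) {w w₁ w₂ : ℕ}
    (e₁ : Even (finrank F V₁)) (e₂ : Even (finrank F V₂))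
    (c : ∀ s, Rz B Q s True ↔ Even s ∧ s ≤ w) (c₁ : ∀ s, Rz B₁ Q₁ s True ↔ Even s ∧ s ≤ w₁)
    (c₂ : ∀ s, Rz B₂ Q₂ s True ↔ Even s ∧ s ≤ w₂)
    (d₁ : ∀ s, 1 ≤ s → 2 * s ≤ finrank F V₁ → Rz B₁ Q₁ s False)
    (d₂ : ∀ s, 1 ≤ s → 2 * s ≤ finrank F V₂ → Rz B₂ Q₂ s False) {R : ℕ → Prop}
    (hR : ∀ s, Even s → R s) :
    (∀ g, Pres B Q g → g * g = 1 → g ≠ 1 → R (rk g) → ∃ W, IsoS B Q B₁ Q₁ W ∧ Inv g W) ↔
      w / 2 ≤ w₁ / 2 + w₂ / 2 := by
  constructor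
  · intro H
    by_contra hlt
    obtain ⟨g, a1, a2, a3, a4⟩ := (c (2 * (w / 2))).2 ⟨even_two_mul _, by omega⟩
    obtain ⟨s₁, a₁, s₂, a₂, b1, b2, b3, b4⟩ := (exists_isoS_iff_invol T h2 h h₁ h₂ hV a1 a2).1
      (H g a1 a2 (mt rk_eq_zero_iff.2 (by omega)) (hR _ (a3 ▸ even_two_mul _)))
    obtain ⟨b5, b6⟩ := b4.2 (a4.2 trivial)
    rw [eq_true b5, c₁, Nat.even_iff] at b1
    rw [eq_true b6, c₂, Nat.even_iff] at b2
    omega
  · intro H g a1 a2 a3 _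
    rw [exists_isoS_iff_invol T h2 h h₁ h₂ hV a1 a2]
    by_cases ha : Alt B g
    · obtain ⟨b1, b2⟩ := (c _).1 ⟨g, a1, a2, rfl, iff_true_intro ha⟩
      rw [Nat.even_iff] at b1
      exact ⟨min (rk g) (2 * (w₁ / 2)), True, rk g - min (rk g) (2 * (w₁ / 2)), True,
        (c₁ _).2 ⟨Nat.even_iff.2 (by omega), by omega⟩, (c₂ _).2 ⟨Nat.even_iff.2 (by omega), by omega⟩,
        by omega, by simp [ha]⟩
    · have b1 := Rz.two_mul_le h2 (h.isFormed T) ⟨g, a1, a2, rfl, Iff.rfl⟩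
      have b2 := mt rk_eq_zero_iff.1 a3
      have b3 := hV.finrank_eq
      rw [Nat.even_iff] at e₁ e₂
      by_cases b4 : 2 * rk g ≤ finrank F V₁
      · exact ⟨_, _, _, _, d₁ _ (by omega) b4, rz_zero, rfl, by simp [ha]⟩
      by_cases b5 : finrank F V₁ = 0
      · exact ⟨_, _, _, _, rz_zero, d₂ (rk g) (by omega) (by omega), zero_add _, by simp [ha]⟩
      exact ⟨_, _, _, _, d₁ (finrank F V₁ / 2) (by omega) (by omega),
        d₂ (rk g - finrank F V₁ / 2) (by omega) (by omega), by omega, by simp [ha]⟩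

/-! ### Orthogonal spaces -/

open Classical in
/-- The Witt index of an even-dimensional orthogonal space. -/
noncomputable def wi (n : ℕ) (pl : Prop) : ℕ := if pl then n / 2 else n / 2 - 1

omit [FiniteDimensional F V] [Finite F] in
theorem IsOS.alt_iff (h : IsOS B Q) (hg : Pres B Q g) :
    Alt B g ↔ ∀ x ∈ LinearMap.range (1 - g), Q x = 0 := by
  have : ∀ u, Q (u - g u) = B u (u - g u) := fun u => by
    rw [sub_eq_add_neg, IsOS.add' h, IsTF.map_neg' h, hg.map_Q, map_add, IsOS.self_eq h]; ring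
  exact ⟨by rintro H _ ⟨u, rfl⟩; exact (this u).trans (H u), fun H u => (this u).symm.trans (H _ ⟨u, rfl⟩)⟩

theorem IsOS.exists_tss_iff' (h : IsOS B Q) (he : Even (finrank F V)) (k : ℕ) :
    (∃ W, TSS B Q W ∧ finrank F W = k) ↔ k ≤ wi (finrank F V) (Plus F Q) := by
  have h1 := IsOS.exists_tss_iff h (U := ⊤) (by rw [(h.isFormed fType_orth).perp_top, inf_bot_eq]) k
  have h2 : (Plus F fun w : (⊤ : Submodule F V) => Q w) ↔ Plus F Q := by
    simp [plus_restrict_iff]; rfl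
  simp only [le_top, true_and, finrank_top, h2] at h1
  rw [h1, wi]
  rw [Nat.even_iff] at he
  split_ifs with hp
  · simp only [hp, and_true]; omega
  · have := mt (IsOS.plus_of_finrank_eq_zero h) hp
    simp only [hp, and_false, or_false]; omega

theorem IsOS.rz_true (h2 : (2 : F) = 0) (h : IsOS B Q) (s : ℕ) :
    Rz B Q s True ↔ Even s ∧ s ≤ wi (finrank F V) (Plus F Q) := by
  rw [← IsOS.exists_tss_iff' h (IsOS.even_of_two h h2)]
  refine ⟨fun H => ⟨H.even (h.isFormed fType_orth), ?_⟩, ?_⟩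
  · obtain ⟨g, a1, -, rfl, a3⟩ := H
    exact ⟨_, (IsOS.tss_iff h).2 ((IsOS.alt_iff h a1).1 (a3.2 trivial)), rfl⟩
  · rintro ⟨a1, W, a2, rfl⟩
    exact rz_of_tss h2 (h.isFormed fType_orth) rfl a2 a1

theorem IsOS.rz_false (h2 : (2 : F) = 0) (h : IsOS B Q) (s : ℕ) (h1 : 1 ≤ s)
    (hs : 2 * s ≤ finrank F V) : Rz B Q s False := by
  obtain ⟨E, a1, a2⟩ := (IsOS.exists_tss_iff' h (IsOS.even_of_two h h2) (s - 1)).2 (by
    unfold wi; split_ifs <;> omega)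
  have h' := h
  obtain ⟨Q, rfl, rfl, hQ⟩ := h.exists_quadraticForm
  obtain ⟨t, b1, b2, b3⟩ := ((Orth.nd_iff Q).2 hQ).exists_invol_not_TS h2 (E := E) a1.2 (by omega)
  have ht := IsOS.pres_of_Q h' (g := t.1.toLinearMap) t.2
  exact ⟨_, ht, congrArg (fun x => x.1.toLinearMap) b1, b2.trans (by omega),
    iff_false_intro fun H => b3 ((IsOS.alt_iff h' ht).1 H)⟩

theorem IsOS.elu_two_isoS_char (h2 : (2 : F) = 0) (h : IsOS B Q) (h₁ : IsOS B₁ Q₁) {n m : ℕ}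
    (hn : finrank F V = n) (hm : finrank F V₁ = m) (h5 : 5 ≤ n) (hlt : m < n) {pl pl₁ : Prop}
    (hp : Plus F Q ↔ pl) (hp₁ : Plus F Q₁ ↔ pl₁) : Elu B Q 2 (IsoS B Q B₁ Q₁) ↔
      wi n pl / 2 ≤ wi m pl₁ / 2 + wi (n - m) (pl ↔ pl₁) / 2 := by
  subst hn hm
  obtain rfl := propext hp
  obtain rfl := propext hp₁
  obtain ⟨n', B₂, Q₂, h₂, hV⟩ := IsOS.exists_isSum h₁ h hlt
  have e₁ := IsOS.even_of_two h₁ h2
  have e₂ := IsOS.even_of_two h₂ h2
  rw [IsOS.elu_two_iff_char h h5 h2, forall_invol_isoS_iff fType_orth h2 h h₁ h₂ hV e₁ e₂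
    (IsOS.rz_true h2 h) (IsOS.rz_true h2 h₁) (IsOS.rz_true h2 h₂) (IsOS.rz_false h2 h₁)
    (IsOS.rz_false h2 h₂) fun _ h => h, ← hV.finrank_eq, Nat.add_sub_cancel_left,
    show (Plus F Q ↔ Plus F Q₁) = Plus F Q₂ by
      have := hV.plus_iff h₁ h₂ e₁ e₂
      exact propext (by tauto)]

end Cfsg.Agent.Class.Elus
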