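import Cfsg.Agent.Class.Elus.Lin
import Cfsg.Prelude.Def_GeometricClasses

/-! Decompositions into subspaces of equal dimension permuted by an endomorphism. -/

set_option autoImplicit false

namespace Cfsg.Agent.Class.Elus

open Polynomial Module LinearMap KSG

universe u v w

variable {F : Type u} [Field F] {V : Type v} [AddCommGroup V] [Module F V]
  {W : Type w} [AddCommGroup W] [Module F W]

/-- `f` permutes `t` pairwise `R`-related subspaces of dimension `a` that span the space. -/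
def HasDec (R : V → V → Prop) (f : End F V) (a t : ℕ) : Prop :=
  ∃ (ι : Type) (_ : Fintype ι) (D : ι → Submodule F V) (σ : Equiv.Perm ι), Fintype.card ι = t ∧
    (∀ i, finrank F (D i) = a) ∧ iSup D = ⊤ ∧ (∀ i, ∀ v ∈ D i, f v ∈ D (σ i)) ∧
    ∀ i j, i ≠ j → ∀ u ∈ D i, ∀ v ∈ D j, R u v

theorem HasDec.zero (R : V → V → Prop) (f : End F V) (a : ℕ) [Subsingleton V] : HasDec R f a 0 :=
  ⟨Empty, inferInstance, Empty.elim, 1, by simp, fun i => i.elim, Subsingleton.elim _ _,
    fun i => i.elim, fun i => i.elim⟩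

theorem HasDec.one (R : V → V → Prop) (f : End F V) : HasDec R f (finrank F V) 1 :=
  ⟨Unit, inferInstance, fun _ => ⊤, 1, by simp, fun _ => finrank_top F V, by simp,
    fun _ _ _ => trivial, fun _ _ h => absurd rfl h⟩

theorem HasDec.smul {R : V → V → Prop} {f : End F V} {a t : ℕ} (h : HasDec R f a t) (c : F) :
    HasDec R (c • f) a t := by
  obtain ⟨ι, _, D, σ, h1, h2, h3, h4, h5⟩ := h
  exact ⟨ι, _, D, σ, h1, h2, h3, fun i v hv => (D _).smul_mem c (h4 i v hv), h5⟩

theorem HasDec.add {R : V → V → Prop} {f : End F V} {a t t' : ℕ} {U U' : Submodule F V}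
    (hU : Inv f U) (hU' : Inv f U') (hc : U ⊔ U' = ⊤) (hR : ∀ u ∈ U, ∀ v ∈ U', R u v ∧ R v u)
    (h : HasDec (fun u v : U => R u v) (f.restrict hU) a t)
    (h' : HasDec (fun u v : U' => R u v) (f.restrict hU') a t') : HasDec R f a (t + t') := by
  obtain ⟨ι, _, D, σ, h1, h2, h3, h4, h5⟩ := h
  obtain ⟨ι', _, D', σ', h1', h2', h3', h4', h5'⟩ := h'
  refine ⟨ι ⊕ ι', inferInstance, Sum.elim (fun i => (D i).map U.subtype)
    (fun i => (D' i).map U'.subtype), σ.sumCongr σ', by simp [h1, h1'], ?_, ?_, ?_, ?_⟩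
  · rintro (i | i)
    · exact (Submodule.finrank_map_subtype_eq _ _).trans (h2 i)
    · exact (Submodule.finrank_map_subtype_eq _ _).trans (h2' i)
  · rw [iSup_sum]
    simp only [Sum.elim_inl, Sum.elim_inr]
    rw [← Submodule.map_iSup, ← Submodule.map_iSup, h3, h3', Submodule.map_subtype_top,
      Submodule.map_subtype_top, hc]
  · rintro (i | i) _ ⟨v, hv, rfl⟩
    · exact ⟨_, h4 i v hv, rfl⟩
    · exact ⟨_, h4' i v hv, rfl⟩
  · rintro (i | i) (j | j) hij _ ⟨u, hu, rfl⟩ _ ⟨v, hv, rfl⟩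
    · exact h5 i j (fun e => hij (e ▸ rfl)) u hu v hv
    · exact (hR _ u.2 _ v.2).1
    · exact (hR _ v.2 _ u.2).2
    · exact h5' i j (fun e => hij (e ▸ rfl)) u hu v hv

theorem HasDec.cycle {R : V → V → Prop} {f : End F V} (hf : Function.Injective f) {r : ℕ}
    (hr : r ≠ 0) {z : F} (hz : f ^ r = z • 1) (A : Submodule F V)
    (hA : ⨆ j : Fin r, A.map (f ^ (j : ℕ)) = ⊤)
    (hR : ∀ i j : Fin r, i ≠ j → ∀ u ∈ A, ∀ v ∈ A, R ((f ^ (i : ℕ)) u) ((f ^ (j : ℕ)) v)) :
    HasDec R f (finrank F A) r := by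
  obtain ⟨k, rfl⟩ := Nat.exists_eq_succ_of_ne_zero hr
  refine ⟨Fin (k + 1), inferInstance, fun j => A.map (f ^ (j : ℕ)), finRotate _, by simp,
    fun j => ?_, hA, ?_, ?_⟩
  · refine (Submodule.equivMapOfInjective _ ?_ A).finrank_eq.symm
    rw [End.coe_pow]; exact hf.iterate _
  · rintro j _ ⟨v, hv, rfl⟩
    rw [← End.mul_apply, ← pow_succ']
    by_cases hj : j = Fin.last k
    · subst hj
      rw [finRotate_last]
      exact ⟨z • v, A.smul_mem z hv, by simp [hz]⟩
    · exact ⟨v, hv, by rw [coe_finRotate_of_ne_last hj]⟩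
  · rintro i j hij _ ⟨u, hu, rfl⟩ _ ⟨v, hv, rfl⟩
    exact hR i j hij u hu v hv

theorem iSupIndep_of_finrank [FiniteDimensional F V] {ι : Type*} [Fintype ι]
    {D : ι → Submodule F V} (h : iSup D = ⊤) (h2 : ∑ i, finrank F (D i) = finrank F V) :
    iSupIndep D := by
  classical
  refine DirectSum.IsInternal.submodule_iSupIndep ⟨?_, ?_⟩
  · refine (LinearMap.injective_iff_surjective_of_finrank_eq_finrank
      (f := DirectSum.coeLinearMap D) (by rw [finrank_directSum, h2])).2 ?_
    rw [← range_eq_top, DirectSum.range_coeLinearMap, h]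
  · change Function.Surjective (DirectSum.coeLinearMap D)
    rw [← range_eq_top, DirectSum.range_coeLinearMap, h]

theorem finrank_eq_sum_of_iSupIndep [FiniteDimensional F V] {ι : Type*} [Fintype ι]
    {D : ι → Submodule F V} (h1 : iSupIndep D) (h : iSup D = ⊤) :
    finrank F V = ∑ i, finrank F (D i) := by
  classical
  rw [← finrank_directSum]
  exact (LinearEquiv.ofBijective (DirectSum.coeLinearMap D)
    (DirectSum.isInternal_submodule_of_iSupIndep_of_iSup_eq_top h1 h)).finrank_eq.symm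

theorem HasDec.final [FiniteDimensional F V] {R : V → V → Prop} {f : End F V} {a t : ℕ}
    (h : HasDec R f a t) (hf : Function.Injective f) (hn : finrank F V = a * t) :
    ∃ (D : Fin t → Submodule F V) (σ : Equiv.Perm (Fin t)), (∀ i, finrank F (D i) = a) ∧
      iSupIndep D ∧ iSup D = ⊤ ∧ (∀ i, (D i).map f = D (σ i)) ∧
      ∀ i j, i ≠ j → ∀ u ∈ D i, ∀ v ∈ D j, R u v := by
  obtain ⟨ι, _, D, σ, h1, h2, h3, h4, h5⟩ := h
  let e := Fintype.equivFinOfCardEq h1
  have h6 : iSup (fun i => D (e.symm i)) = ⊤ := by rw [e.symm.iSup_comp (g := D), h3]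
  refine ⟨fun i => D (e.symm i), e.symm.trans (σ.trans e), fun i => h2 _,
    iSupIndep_of_finrank h6 (by simp [h2, hn, mul_comm]), h6, fun i => ?_,
    fun i j hij => h5 _ _ (e.symm.injective.ne hij)⟩
  refine Submodule.eq_of_le_of_finrank_eq ?_ ?_
  · rintro _ ⟨v, hv, rfl⟩
    simpa using h4 _ v hv
  · rw [← (Submodule.equivMapOfInjective _ hf _).finrank_eq, h2, h2]

/-! ### Constructions from elementary divisors (no form) -/

/-- The trivial relation. -/
abbrev Tr (V : Type v) : V → V → Prop := fun _ _ => True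

theorem HasDec.of_elemDiv_add [FiniteDimensional F V] {f : End F V} {s s' : Multiset F[X]}
    (h : elemDiv f = s + s') {a t t' : ℕ}
    (h1 : ∀ (U : Submodule F V) (hU : Inv f U), elemDiv (f.restrict hU) = s →
      HasDec (Tr U) (f.restrict hU) a t)
    (h2 : ∀ (U : Submodule F V) (hU : Inv f U), elemDiv (f.restrict hU) = s' →
      HasDec (Tr U) (f.restrict hU) a t') : HasDec (Tr V) f a (t + t') := by
  obtain ⟨U, U', hU, hU', hc, e1, e2⟩ := exists_isCompl_of_elemDiv_eq_add h
  exact HasDec.add hU hU' hc.sup_eq_top (fun _ _ _ _ => ⟨trivial, trivial⟩) (h1 U hU e1)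
    (h2 U' hU' e2)

theorem hasDec_of_degs {a i : ℕ} (t : ℕ) : ∀ {V : Type v} [AddCommGroup V] [Module F V]
    [FiniteDimensional F V] (f : End F V) (e b : ℕ),
    degs f = Multiset.replicate e 1 + Multiset.replicate b i → e + b * i = a * t →
    b ≤ t * (a / i) → HasDec (Tr V) f a t := by
  induction t with
  | zero =>
    intro V _ _ _ f e b h1 h2 _
    have h3 := sum_degs f
    rw [h1] at h3
    have : Subsingleton V := (finrank_zero_iff (R := F)).1 (by simp at h3; omega)
    exact HasDec.zero _ _ _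
  | succ t ih =>
    intro V _ _ _ f e b h1 h2 h3
    have h4 := Nat.mod_add_div' a i
    have h5 : a % i ≤ e := by
      have : b * i ≤ (t + 1) * (a / i * i) := by rw [← mul_assoc]; exact Nat.mul_le_mul_right i h3
      nlinarith
    obtain ⟨a', c, a1, a2, a3, a4⟩ := exists_add_mul_eq (e := e) (b := b) (i := i) (m := a)
      (by nlinarith) h5
    obtain ⟨e', rfl⟩ := Nat.exists_eq_add_of_le a1
    obtain ⟨b', rfl⟩ := Nat.exists_eq_add_of_le a2
    rw [Multiset.replicate_add, Multiset.replicate_add, add_add_add_comm] at h1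
    obtain ⟨U, U', hU, hU', hc, e1, e2⟩ := exists_isCompl_of_degs_eq_add h1
    have h6 : finrank F U = a := by rw [← sum_degs (f.restrict hU), e1]; simpa using a3
    rw [add_comm]
    refine HasDec.add hU hU' hc.sup_eq_top (fun _ _ _ _ => ⟨trivial, trivial⟩)
      (h6 ▸ HasDec.one _ _) (ih _ e' b' e2 (by nlinarith) ?_)
    rcases a4 with a4 | a4
    · rcases Nat.eq_zero_or_pos i with rfl | hi
      · simp at h3; omega
      · have : c = a / i := Nat.eq_of_mul_eq_mul_right hi (by omega)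
        nlinarith
    · omega

/-- The elementary divisors of the free `F[X]/(P)`-module of rank `a`. -/
noncomputable def freeDiv (a : ℕ) {P : F[X]} (hP : P.Monic) : Multiset F[X] :=
  haveI := finite_cyc (fun _ : Fin a => P) fun _ => hP
  elemDiv (cycEnd fun _ : Fin a => P)

theorem freeDiv_of_isPP (a : ℕ) {P : F[X]} (hP : IsPP P) :
    freeDiv a hP.monic = Multiset.replicate a P := by
  have := finite_cyc (fun _ : Fin a => P) fun _ => hP.monic
  rw [freeDiv, elemDiv_cycEnd _ fun _ => hP]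
  simp

theorem freeDiv_of_squarefree (a : ℕ) {P : F[X]} (hP : P.Monic) (hs : Squarefree P)
    {s : Multiset F[X]} (h1 : ∀ b ∈ s, Irreducible b ∧ b.Monic) (h2 : s.prod = P ^ a) :
    freeDiv a hP = s := by
  have := finite_cyc (fun _ : Fin a => P) fun _ => hP
  refine multiset_eq_of_prod_eq (fun b hb => ⟨(isPP_of_mem_elemDiv hb).irreducible_of_dvd_squarefree
    hs ?_, (isPP_of_mem_elemDiv hb).monic⟩) h1 ?_
  · exact (aeval_eq_zero_iff_elemDiv _ P).1
      ((aeval_cycEnd_eq_zero_iff _ _).2 fun _ => dvd_rfl) b hb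
  · rw [freeDiv, ← charpoly_eq_prod_elemDiv, charpoly_cycEnd _ fun _ => hP, h2]
    simp

theorem exists_free_of_freeDiv [FiniteDimensional F V] {f : End F V} {a : ℕ} {P : F[X]}
    (hP : P.Monic) (h0 : 0 < P.natDegree) (h : elemDiv f = freeDiv a hP) :
    ∃ A : Submodule F V, finrank F A = a ∧ ⨆ j : Fin P.natDegree, A.map (f ^ (j : ℕ)) = ⊤ := by
  classical
  have := finite_cyc (fun _ : Fin a => P) fun _ => hP
  obtain ⟨e, he⟩ := sim_of_elemDiv_eq h.symm
  let φ : (Fin a → F) →ₗ[F] Cyc (fun _ : Fin a => P) :=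
    LinearMap.pi fun k => Algebra.linearMap F (AdjoinRoot P) ∘ₗ LinearMap.proj k
  have : Nontrivial (AdjoinRoot P) := AdjoinRoot.nontrivial _ (natDegree_pos_iff_degree_pos.1 h0).ne'
  have hφ : Function.Injective φ := fun x y hxy => funext fun k =>
    (algebraMap F (AdjoinRoot P)).injective (congrFun hxy k)
  have hpow : ∀ (j : ℕ) x, (f ^ j) (e x) = e ((cycEnd (fun _ : Fin a => P) ^ j) x) := fun j x => by
    simpa using (aeval_comm_of_comm e.toLinearMap he (X ^ j) x).symm
  refine ⟨range (e.toLinearMap ∘ₗ φ), ?_, eq_top_iff.2 fun v _ => ?_⟩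
  · rw [finrank_range_of_inj (f := e.toLinearMap ∘ₗ φ) (e.injective.comp hφ), finrank_fin_fun]
  · obtain ⟨x, rfl⟩ := e.surjective v
    rw [← Finset.univ_sum_single x, map_sum]
    refine Submodule.sum_mem _ fun k _ => ?_
    rw [← (AdjoinRoot.powerBasis' hP).basis.sum_repr (x k), ← LinearMap.coe_single F,
      map_sum, map_sum]
    refine Submodule.sum_mem _ fun j _ => Submodule.mem_iSup_of_mem j ?_
    refine ⟨e (φ (Pi.single k ((AdjoinRoot.powerBasis' hP).basis.repr (x k) j))), ⟨_, rfl⟩, ?_⟩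
    rw [hpow, cycEnd, ← map_pow]
    congr 1
    funext l
    by_cases hl : l = k
    · subst hl
      simp [φ, cycRoot, Algebra.smul_def, mul_comm]
    · simp [φ, hl]

theorem hasDec_of_freeDiv {a r : ℕ} (hr : r ≠ 0) {z : F} (s : ℕ) :
    ∀ {V : Type v} [AddCommGroup V] [Module F V] [FiniteDimensional F V] (f : End F V),
    Function.Injective f → f ^ r = z • 1 →
    elemDiv f = s • freeDiv a (monic_X_pow_sub_C z hr) → HasDec (Tr V) f a (s * r) := by
  induction s with
  | zero =>
    intro V _ _ _ f _ _ h1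
    have h3 := finrank_eq_sum_elemDiv f
    rw [h1] at h3
    have : Subsingleton V := (finrank_zero_iff (R := F)).1 (by simpa using h3)
    rw [zero_mul]
    exact HasDec.zero _ _ _
  | succ s ih =>
    intro V _ _ _ f h1 h2 h3
    have h4 : ∀ (U : Submodule F V) (hU : Inv f U), Function.Injective (f.restrict hU) ∧
        (f.restrict hU) ^ r = z • 1 := fun U hU =>
      ⟨fun x y h => Subtype.ext (h1 (congrArg Subtype.val h)),
        (aeval_X_pow_sub_C_eq_zero_iff _ _ _).1 (aeval_restrict_eq_zero hU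
          ((aeval_X_pow_sub_C_eq_zero_iff _ _ _).2 h2))⟩
    rw [succ_nsmul] at h3
    rw [add_mul, one_mul]
    refine HasDec.of_elemDiv_add h3 (fun U hU h => ih _ (h4 U hU).1 (h4 U hU).2 h) fun U hU h => ?_
    obtain ⟨A, rfl, hA⟩ := exists_free_of_freeDiv _
      (by rw [natDegree_X_pow_sub_C]; omega) h
    rw [natDegree_X_pow_sub_C] at hA
    exact HasDec.cycle (h4 U hU).1 hr (h4 U hU).2 A hA fun _ _ _ _ _ _ _ => trivial

/-! ### Consequences of stabilising a decomposition -/

section conv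

variable {ι : Type*} {D : ι → Submodule F V} {σ : Equiv.Perm ι} {f : End F V} {r : ℕ} {z : F}

theorem pow_mem_dec (h : ∀ i, ∀ v ∈ D i, f v ∈ D (σ i)) (k : ℕ) (i : ι) :
    ∀ v ∈ D i, (f ^ k) v ∈ D ((σ ^ k) i) := by
  induction k with
  | zero => exact fun v hv => hv
  | succ k ih => intro v hv; rw [pow_succ', pow_succ']; exact h _ _ (ih v hv)

theorem perm_pow_eq_one (hD : iSupIndep D) (hne : ∀ i, D i ≠ ⊥)
    (h : ∀ i, ∀ v ∈ D i, f v ∈ D (σ i)) (hz : f ^ r = z • 1) (hz0 : z ≠ 0) : σ ^ r = 1 := by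
  ext i
  by_contra hc
  obtain ⟨v, hv, hv0⟩ := (Submodule.ne_bot_iff _).1 (hne i)
  have h1 := pow_mem_dec h r i v hv
  rw [hz] at h1
  have h2 := Submodule.disjoint_def.1 (hD.pairwiseDisjoint hc) _ h1 ((D i).smul_mem z hv)
  exact smul_ne_zero hz0 hv0 h2

theorem eq_zero_of_sum_pow (hr : r.Prime) (hD : iSupIndep D) (hf : Function.Injective f)
    (h : ∀ i, ∀ v ∈ D i, f v ∈ D (σ i)) (hσ : σ ^ r = 1) {j : ι} (hj : σ j ≠ j) (d : ℕ → V)
    (hd : ∀ k, d k ∈ D j) (h0 : ∑ k ∈ Finset.range r, (f ^ k) (d k) = 0) :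
    ∀ k, k < r → d k = 0 := by
  have := Fact.mk hr
  have h1 : Function.minimalPeriod σ j = r :=
    Function.minimalPeriod_eq_prime (by
      rw [Function.IsPeriodicPt, Function.IsFixedPt, ← Equiv.Perm.coe_pow, hσ]; rfl) hj
  have h2 : Function.Injective fun k : Fin r => (σ ^ (k : ℕ)) j := fun k l e =>
    Fin.ext (Function.iterate_injOn_Iio_minimalPeriod (f := σ) (x := j) (by simp [h1])
      (by simp [h1]) (by simpa [← Equiv.Perm.coe_pow] using e))
  intro k hk
  have h3 := (iSupIndep_iff_finsetSum_eq_zero_imp_eq_zero _).1 (hD.comp h2) Finset.univ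
    (fun k => (f ^ (k : ℕ)) (d k)) (fun k _ => pow_mem_dec h _ _ _ (hd k))
    (by rwa [Fin.sum_univ_eq_sum_range (fun k => (f ^ k) (d k))]) ⟨k, hk⟩ (Finset.mem_univ _)
  have h4 : Function.Injective (f ^ k) := by rw [End.coe_pow]; exact hf.iterate _
  exact (map_eq_zero_iff _ h4).1 h3

theorem eq_zero_of_aeval (hr : r.Prime) (hD : iSupIndep D) (hf : Function.Injective f)
    (h : ∀ i, ∀ v ∈ D i, f v ∈ D (σ i)) (hσ : σ ^ r = 1) {j : ι} (hj : σ j ≠ j) {P : F[X]}
    (hP : P ≠ 0) (hPr : P.natDegree < r) {v : V} (hv : v ∈ D j) (h0 : aeval f P v = 0) : v = 0 := by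
  have := eq_zero_of_sum_pow hr hD hf h hσ hj (fun k => P.coeff k • v)
    (fun k => (D j).smul_mem _ hv) (by
      rw [aeval_eq_sum_range' hPr, LinearMap.sum_apply] at h0
      simpa using h0) _ hPr
  exact (smul_eq_zero.1 this).resolve_left (leadingCoeff_ne_zero.2 hP)

variable [FiniteDimensional F V]

theorem le_finrank_range_aeval (hr : r.Prime) (hD : iSupIndep D) (hf : Function.Injective f)
    (h : ∀ i, ∀ v ∈ D i, f v ∈ D (σ i)) (hσ : σ ^ r = 1) {j : ι} (hj : σ j ≠ j) {P : F[X]}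
    (hP : P ≠ 0) (hPr : P.natDegree < r) : finrank F (D j) ≤ finrank F (range (aeval f P)) := by
  rw [← finrank_range_of_inj (f := aeval f P ∘ₗ (D j).subtype)]
  · exact Submodule.finrank_mono (range_comp_le_range _ _)
  · rw [injective_iff_map_eq_zero]
    exact fun v hv => Subtype.ext (eq_zero_of_aeval hr hD hf h hσ hj hP hPr v.2 hv)

theorem mul_le_finrank_range (hr : r.Prime) (hD : iSupIndep D) (hf : Function.Injective f)
    (h : ∀ i, ∀ v ∈ D i, f v ∈ D (σ i)) (hσ : σ ^ r = 1) {j : ι} (hj : σ j ≠ j) :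
    (r - 1) * finrank F (D j) ≤ finrank F (range (f - 1)) := by
  obtain ⟨k, rfl⟩ := Nat.exists_eq_succ_of_ne_zero hr.ne_zero
  let Φ : (Fin k → D j) →ₗ[F] V :=
    (f - 1) ∘ₗ ∑ l : Fin k, (f ^ (l : ℕ)) ∘ₗ (D j).subtype ∘ₗ LinearMap.proj l
  have h1 : finrank F (Fin k → D j) = k * finrank F (D j) := by simp [finrank_pi_fintype]
  rw [Nat.succ_sub_one, ← h1, ← finrank_range_of_inj (f := Φ)]
  · exact Submodule.finrank_mono (range_comp_le_range _ _)
  rw [injective_iff_map_eq_zero]
  intro d hd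
  let e : ℕ → V := fun l => if hl : l < k then d ⟨l, hl⟩ else 0
  have he : ∀ l, e l ∈ D j := fun l => by
    simp only [e]; split_ifs; exacts [Subtype.property _, Submodule.zero_mem _]
  let e' : ℕ → V := fun l => Nat.casesOn l 0 e
  have h2 : ∑ l : Fin k, (f ^ (l : ℕ)) (d l) = ∑ l ∈ Finset.range k, (f ^ l) (e l) := by
    rw [← Fin.sum_univ_eq_sum_range (fun l => (f ^ l) (e l))]
    exact Finset.sum_congr rfl fun l _ => by simp [e]
  have h3 := eq_zero_of_sum_pow hr hD hf h hσ hj (fun l => e' l - e l)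
    (fun l => (D j).sub_mem (by cases l; exacts [Submodule.zero_mem _, he _]) (he l)) (by
      simp only [map_sub, Finset.sum_sub_distrib]
      rw [Finset.sum_range_succ', Finset.sum_range_succ]
      simp only [Φ, comp_apply, LinearMap.sum_apply, Submodule.subtype_apply, proj_apply, h2,
        LinearMap.sub_apply, End.one_apply, map_sum] at hd
      simpa [e', e, pow_succ'] using hd)
  have h4 : ∀ l, l < k → e l = 0 := by
    intro l
    induction l with
    | zero => intro hl; simpa [e'] using h3 0 (by omega)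
    | succ l ih =>
      intro hl
      have := h3 (l + 1) (by omega)
      simpa [e', ih (by omega)] using this
  funext l
  simpa [e] using h4 l l.2

theorem finrank_iSup_le {κ : Type*} (s : Finset κ) (E : κ → Submodule F V) :
    finrank F (⨆ i ∈ s, E i : Submodule F V) ≤ ∑ i ∈ s, finrank F (E i) := by
  classical
  induction s using Finset.induction_on with
  | empty => simp
  | insert i s hi ih =>
    rw [Finset.iSup_insert, Finset.sum_insert hi]
    exact (Submodule.finrank_add_le_finrank_add_finrank _ _).trans (by omega)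

theorem finrank_range_mul_le [Fintype ι] (hr : r.Prime) (htop : iSup D = ⊤) {a : ℕ}
    (ha : ∀ i, finrank F (D i) = a) (h : ∀ i, ∀ v ∈ D i, f v ∈ D (σ i))
    (hf : Function.Injective f) (hσ : σ ^ r = 1) (hz : f ^ r = 1)
    (hfix : ∀ j, σ j = j → ∀ v ∈ D j, f v = v) :
    finrank F (range (f - 1)) * r ≤ Fintype.card ι * a * (r - 1) := by
  classical
  have := Fact.mk hr
  have h1 : ∀ c : σ.cycleFactorsFinset, ∃ j, j ∈ c.1.support := fun c =>
    (Equiv.Perm.mem_cycleFactorsFinset_iff.1 c.2).1.nonempty_support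
  choose J hJ using h1
  have h2 : σ.cycleFactorsFinset.card * r ≤ Fintype.card ι := by
    have := σ.sum_cycleType_le
    rw [Equiv.Perm.cycleType_of_pow_prime_eq_one hσ, Multiset.sum_replicate, smul_eq_mul,
      Equiv.Perm.cycleType_def, Multiset.card_map] at this
    exact this
  let E : σ.cycleFactorsFinset × Fin (r - 1) → Submodule F V :=
    fun x => (D (J x.1)).map ((f - 1) * f ^ (x.2 : ℕ))
  have h3 : ∀ c, ∀ v ∈ D (J c), ∀ k, k < r - 1 → (f - 1) ((f ^ k) v) ∈ iSup E :=
    fun c v hv k hk => Submodule.mem_iSup_of_mem (c, ⟨k, hk⟩) ⟨v, hv, rfl⟩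
  have h4 : ∀ c, ∀ v ∈ D (J c), ∀ k, k < r → (f - 1) ((f ^ k) v) ∈ iSup E := fun c v hv k hk => by
    by_cases hk2 : k < r - 1
    · exact h3 c v hv k hk2
    · have h5 : (f - 1) ((f ^ k) v) = - ∑ l ∈ Finset.range k, (f - 1) ((f ^ l) v) := by
        rw [eq_neg_iff_add_eq_zero, add_comm, ← Finset.sum_range_succ (fun l => (f - 1) ((f ^ l) v)),
          ← map_sum, ← LinearMap.sum_apply, ← End.mul_apply, mul_geom_sum,
          show k + 1 = r by omega, hz, sub_self, LinearMap.zero_apply]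
      rw [h5]
      exact Submodule.neg_mem _ (Submodule.sum_mem _ fun l hl =>
        h3 c v hv l (by have := Finset.mem_range.1 hl; omega))
  have h5 : range (f - 1) ≤ iSup E := by
    rw [range_eq_map, ← htop, Submodule.map_iSup]
    refine iSup_le fun j => ?_
    rintro _ ⟨v, hv, rfl⟩
    by_cases hj : σ j = j
    · rw [LinearMap.sub_apply, hfix j hj v hv, End.one_apply, sub_self]
      exact Submodule.zero_mem _
    · let c : σ.cycleFactorsFinset := ⟨σ.cycleOf j,
        Equiv.Perm.cycleOf_mem_cycleFactorsFinset_iff.2 (Equiv.Perm.mem_support.2 hj)⟩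
      obtain ⟨k, hk, e⟩ := ((Equiv.Perm.mem_support_cycleOf_iff.1 (hJ c)).1.symm).exists_pow_eq'
      have hk2 : k < r := hk.trans_le (orderOf_le_of_pow_eq_one hr.pos hσ)
      have h6 : (D (J c)).map (f ^ k) = D j := by
        refine Submodule.eq_of_le_of_finrank_eq ?_ ?_
        · rintro _ ⟨w, hw, rfl⟩
          exact e ▸ pow_mem_dec h k _ w hw
        · rw [← (Submodule.equivMapOfInjective _ (by rw [End.coe_pow]; exact hf.iterate _)
            _).finrank_eq, ha, ha]
      rw [← h6] at hv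
      obtain ⟨w, hw, rfl⟩ := hv
      exact h4 c w hw k hk2
  have h6 := finrank_iSup_le Finset.univ E
  rw [show ⨆ i ∈ Finset.univ, E i = iSup E by simp] at h6
  have h7 : ∑ x, finrank F (E x) ≤ σ.cycleFactorsFinset.card * (r - 1) * a := by
    refine (Finset.sum_le_card_nsmul _ _ a fun x _ => ?_).trans (by simp)
    exact (Submodule.finrank_map_le _ _).trans (ha _).le
  calc _ ≤ σ.cycleFactorsFinset.card * (r - 1) * a * r :=
        Nat.mul_le_mul_right _ ((Submodule.finrank_mono h5).trans (h6.trans h7))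
    _ = σ.cycleFactorsFinset.card * r * (a * (r - 1)) := by ring
    _ ≤ _ := by rw [mul_assoc (Fintype.card ι)]; exact Nat.mul_le_mul_right _ h2

end conv

/-! ### Counting decompositions -/

theorem exists_equiv_of_dec {ι : Type*} [Fintype ι] {D : ι → Submodule F V}
    {D' : ι → Submodule F W} (h1 : iSupIndep D) (h2 : iSup D = ⊤) (h1' : iSupIndep D')
    (h2' : iSup D' = ⊤) (e : ∀ i, D i ≃ₗ[F] D' i) :
    ∃ g : V ≃ₗ[F] W, ∀ i (v : D i), g v = e i v := by
  classical
  let φ := LinearEquiv.ofBijective (DirectSum.coeLinearMap D)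
    (DirectSum.isInternal_submodule_of_iSupIndep_of_iSup_eq_top h1 h2)
  let φ' := LinearEquiv.ofBijective (DirectSum.coeLinearMap D')
    (DirectSum.isInternal_submodule_of_iSupIndep_of_iSup_eq_top h1' h2')
  refine ⟨φ.symm.trans ((DirectSum.congrLinearEquiv e).trans φ'), fun i v => ?_⟩
  have : (v : V) = φ (DirectSum.lof F ι (fun i => D i) i v) :=
    (DirectSum.coeLinearMap_of D i v).symm
  rw [this, LinearEquiv.trans_apply, φ.symm_apply_apply, LinearEquiv.trans_apply]
  have h3 : DirectSum.congrLinearEquiv e (DirectSum.lof F ι (fun i => D i) i v) =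
      DirectSum.lof F ι (fun i => D' i) i (e i v) :=
    DirectSum.lmap_lof (fun i => (e i).toLinearMap) i v
  rw [h3]
  exact DirectSum.coeLinearMap_of D' i _

theorem dvd_of_dvd_card_div_factorial {α : Type*} {t r : ℕ} (P : (Fin t → α) → Prop)
    (h1 : ∀ D, P D → Function.Injective D) (h2 : ∀ D (σ : Equiv.Perm (Fin t)), P D → P (D ∘ σ))
    (h : r ∣ Nat.card {D // P D} / t.factorial) : r ∣ Nat.card {D // P D} := by
  let _ : MulAction (Equiv.Perm (Fin t)) {D // P D} :=
    { smul := fun σ D => ⟨D.1 ∘ σ.symm, h2 _ _ D.2⟩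
      one_smul := fun _ => rfl
      mul_smul := fun _ _ _ => rfl }
  have h3 := Nat.card_congr (MulAction.selfEquivOrbitsQuotientProd (G := Equiv.Perm (Fin t))
    (X := {D // P D}) fun D => eq_bot_iff.2 fun σ hσ => by
      have h4 : D.1 ∘ σ.symm = D.1 := congrArg Subtype.val hσ
      refine Subgroup.mem_bot.2 (inv_eq_one.1 (Equiv.ext fun i => h1 _ D.2 (congrFun h4 i))))
  rw [Nat.card_prod, Nat.card_perm, Nat.card_eq_fintype_card (α := Fin t), Fintype.card_fin] at h3
  exact h.trans (Nat.div_dvd_of_dvd ⟨_, h3.trans (mul_comm _ _)⟩)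

theorem card_dvd_of_transitive {G X : Type*} [Group G] (act : G → X → X) (h1 : ∀ x, act 1 x = x)
    (h2 : ∀ g h x, act (g * h) x = act g (act h x)) (P : X → Prop)
    (hP : ∀ g x, P x → P (act g x)) (ht : ∀ x y, P x → P y → ∃ g, act g x = y)
    (hne : ∃ x, P x) : Nat.card {x // P x} ∣ Nat.card G := by
  let _ : MulAction G {x // P x} :=
    { smul := fun g x => ⟨act g x, hP _ _ x.2⟩
      one_smul := fun x => Subtype.ext (h1 x)
      mul_smul := fun g h x => Subtype.ext (h2 g h x) }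
  have : MulAction.IsPretransitive G {x // P x} := ⟨fun x y => by
    obtain ⟨g, hg⟩ := ht _ _ x.2 y.2
    exact ⟨g, Subtype.ext hg⟩⟩
  obtain ⟨x, hx⟩ := hne
  rw [← MulAction.index_stabilizer_of_transitive G (⟨x, hx⟩ : {x // P x})]
  exact Subgroup.index_dvd_card _

theorem injective_of_iSupIndep {ι : Type*} {D : ι → Submodule F V} (h : iSupIndep D)
    (hne : ∀ i, D i ≠ ⊥) : Function.Injective D := h.injective hne

theorem IsMDec.comp {n : Type} [Fintype n] [DecidableEq n] {t a : ℕ}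
    {D : Fin t → Submodule F (n → F)} (h : Geo.IsMDecomposition a D) (σ : Equiv.Perm (Fin t)) :
    Geo.IsMDecomposition a (D ∘ σ) :=
  ⟨h.two_le, h.pos, fun _ => h.finrank_eq _, h.indep.comp σ.injective,
    (σ.iSup_comp (g := D)).trans h.iSup_eq_top⟩

theorem IsMDec.ne_bot {n : Type} [Fintype n] [DecidableEq n] {t a : ℕ}
    {D : Fin t → Submodule F (n → F)} (h : Geo.IsMDecomposition a D) (i : Fin t) : D i ≠ ⊥ :=
  fun e => by
    have h1 := h.finrank_eq i
    have h2 := h.pos
    rw [e, finrank_bot] at h1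
    omega

theorem IsMDec.map {n : Type} [Fintype n] [DecidableEq n] {t a : ℕ}
    {D : Fin t → Submodule F (n → F)} (h : Geo.IsMDecomposition a D) (g : (n → F) ≃ₗ[F] (n → F)) :
    Geo.IsMDecomposition a (fun i => (D i).map g.toLinearMap) :=
  ⟨h.two_le, h.pos, fun i => (LinearEquiv.finrank_map_eq g _).trans (h.finrank_eq i),
    h.indep.map_orderIso (Submodule.orderIsoMapComap g), by
      rw [← Submodule.map_iSup, h.iSup_eq_top, Submodule.map_top, LinearEquiv.range]⟩

end Cfsg.Agent.Class.Elus
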