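import Cfsg.Agent.Class.Elus.Dec

/-! More tools for decompositions: ranks, test elements, involutions. -/

set_option autoImplicit false

namespace Cfsg.Agent.Class.Elus

open Polynomial Module LinearMap KSG

universe u v w

variable {F : Type u} [Field F] {V : Type v} [AddCommGroup V] [Module F V] [FiniteDimensional F V]

theorem finrank_ker_pow_of_unipotent {f : End F V} {k : ℕ} (h : (f - 1) ^ k = 0) (j : ℕ) :
    finrank F (ker ((f - 1) ^ j)) = ((degs f).map (min j)).sum := by
  have h1 : (f - 1) ^ j = aeval f ((X - C 1) ^ j : F[X]) := by simp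
  rw [h1, finrank_ker_aeval, degs, Multiset.map_map]
  refine congrArg _ (Multiset.map_congr rfl fun b hb => ?_)
  have h2 := (aeval_eq_zero_iff_elemDiv f ((X - C 1) ^ k)).1 (by simpa using h) b hb
  obtain ⟨e, -, -, rfl⟩ := (isPP_of_mem_elemDiv hb).eq_pow_of_dvd_pow (irreducible_X_sub_C 1)
    (monic_X_sub_C 1) h2
  rw [gdeg_pow_pow_self]
  simp [-map_one]

theorem sum_min_add_count (μ : Multiset ℕ) {k : ℕ} (h : ∀ a ∈ μ, a ≤ k + 1) :
    (μ.map (min k)).sum + μ.count (k + 1) = μ.sum := by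
  induction μ using Multiset.induction_on with
  | empty => simp
  | cons a μ ih =>
    have h1 := ih fun b hb => h b (Multiset.mem_cons_of_mem hb)
    have h2 := h a (Multiset.mem_cons_self _ _)
    simp only [Multiset.map_cons, Multiset.sum_cons, Multiset.count_cons]
    split_ifs <;> omega

theorem finrank_range_pow_of_unipotent {f : End F V} {k : ℕ} (h : (f - 1) ^ (k + 1) = 0) :
    finrank F (range ((f - 1) ^ k)) = (degs f).count (k + 1) := by
  have h1 := finrank_range_add_finrank_ker ((f - 1) ^ k)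
  have h2 := sum_min_add_count (degs f) fun a ha => le_of_mem_degs_of_unipotent h ha
  rw [finrank_ker_pow_of_unipotent h, ← sum_degs f] at h1
  omega

theorem sum_finrank_le_of_iSupIndep {ι : Type*} [Fintype ι] {E : ι → Submodule F V}
    (h : iSupIndep E) {K : Submodule F V} (hK : ∀ i, E i ≤ K) :
    ∑ i, finrank F (E i) ≤ finrank F K := by
  classical
  rw [← finrank_directSum, ← finrank_range_of_inj (f := DirectSum.coeLinearMap E)
    h.dfinsupp_lsum_injective, DirectSum.range_coeLinearMap]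
  exact Submodule.finrank_mono (iSup_le hK)

omit [FiniteDimensional F V] in
theorem isCompl_of_dec {ι : Type*} {D : ι → Submodule F V} (h1 : iSupIndep D) (h2 : iSup D = ⊤)
    (j : ι) : IsCompl (D j) (⨆ (i) (_ : i ≠ j), D i) :=
  ⟨h1 j, codisjoint_iff.2 (by rw [← h2, iSup_split_single D j])⟩

omit [FiniteDimensional F V] in
theorem inv_iSup_ne {ι : Type*} {D : ι → Submodule F V} {σ : Equiv.Perm ι} {f : End F V}
    (h : ∀ i, ∀ v ∈ D i, f v ∈ D (σ i)) {j : ι} (hj : σ j = j) :
    Inv f (⨆ (i) (_ : i ≠ j), D i) := by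
  rw [inv_iff_map_le, Submodule.map_iSup]
  refine iSup_le fun i => ?_
  rw [Submodule.map_iSup]
  refine iSup_le fun hi => ?_
  rintro _ ⟨v, hv, rfl⟩
  exact Submodule.mem_iSup_of_mem (σ i) (Submodule.mem_iSup_of_mem
    (fun e => hi (σ.injective (e.trans hj.symm))) (h i v hv))

omit [FiniteDimensional F V] in
theorem finrank_ker_restrict {f : End F V} {U : Submodule F V} (hU : Inv f U) :
    finrank F (ker (f.restrict hU - 1)) = finrank F (ker (f - 1) ⊓ U : Submodule F V) := by
  rw [← Submodule.finrank_map_subtype_eq]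
  refine congrArg (fun K : Submodule F V => finrank F K) ?_
  ext v
  simp only [Submodule.mem_map, mem_ker, Submodule.mem_inf, LinearMap.sub_apply, End.one_apply,
    sub_eq_zero, Submodule.subtype_apply]
  exact ⟨fun ⟨w, h1, h2⟩ => h2 ▸ ⟨congrArg Subtype.val h1, w.2⟩,
    fun ⟨h1, h2⟩ => ⟨⟨v, h2⟩, Subtype.ext h1, rfl⟩⟩

omit [FiniteDimensional F V] in
theorem restrict_pow_eq {f : End F V} {U : Submodule F V} (hU : Inv f U) {r : ℕ} {z : F}
    (h : f ^ r = z • 1) : (f.restrict hU) ^ r = z • 1 :=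
  (aeval_X_pow_sub_C_eq_zero_iff _ _ _).1 (aeval_restrict_eq_zero hU
    ((aeval_X_pow_sub_C_eq_zero_iff _ _ _).2 h))

omit [FiniteDimensional F V] in
theorem restrict_pow_eq_one {f : End F V} {U : Submodule F V} (hU : Inv f U) {r : ℕ}
    (h : f ^ r = 1) : (f.restrict hU) ^ r = 1 := by
  simpa using restrict_pow_eq hU (z := 1) (by simpa using h)

omit [FiniteDimensional F V] in
theorem restrict_injective {f : End F V} {U : Submodule F V} (hU : Inv f U)
    (h : Function.Injective f) : Function.Injective (f.restrict hU) :=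
  fun _ _ e => Subtype.ext (h (congrArg Subtype.val e))

omit [FiniteDimensional F V] in
theorem injective_of_pow_eq {f : End F V} {r : ℕ} (hr : r ≠ 0) {z : F} (hz : z ≠ 0)
    (h : f ^ r = z • 1) : Function.Injective f := by
  obtain ⟨k, rfl⟩ := Nat.exists_eq_succ_of_ne_zero hr
  intro x y e
  have := congrArg (f ^ k) e
  rw [← End.mul_apply, ← End.mul_apply, ← pow_succ, h] at this
  exact smul_right_injective _ hz this

theorem gdeg_X_sub_one_of_mem_cycFac {r : ℕ} (hr : r.Prime) (h : (r : F) ≠ 0) {b : F[X]}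
    (hb : b ∈ cycFac r F) : gdeg (X - C 1) b = 0 :=
  gdeg_of_isCoprime (isCoprime_of_monic_irreducible_ne (irreducible_X_sub_C 1) (monic_X_sub_C 1)
    (mem_cycFac.1 hb).1 (mem_cycFac.1 hb).2.1 fun e => X_sub_one_notMem_cycFac hr h (e ▸ hb))

theorem finrank_ker_sub_one (f : End F V) :
    finrank F (ker (f - 1)) = ((elemDiv f).map (gdeg (X - C 1))).sum := by
  rw [← finrank_ker_aeval, show aeval f (X - C 1 : F[X]) = f - 1 by simp]

omit [FiniteDimensional F V] in
theorem range_cyclotomic_le {r : ℕ} [Fact r.Prime] {f : End F V} (h : f ^ r = 1) :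
    range (aeval f (cyclotomic r F)) ≤ ker (f - 1) := by
  rintro _ ⟨v, rfl⟩
  have := congrArg (aeval f) ((mul_comm _ _).trans (cyclotomic_prime_mul_X_sub_one F r))
  rw [map_mul] at this
  simp only [map_sub, aeval_X, map_one, map_pow, h, sub_self] at this
  rw [mem_ker, ← End.mul_apply, this, LinearMap.zero_apply]

/-- An endomorphism with `f ^ 2` a nonzero scalar permutes a decomposition of any shape. -/
theorem hasDec_two {f : End F V} {z : F} (hz : z ≠ 0) (h : f ^ 2 = z • 1) {a t : ℕ} (ha : 0 < a)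
    (hn : finrank F V = a * t) : HasDec (Tr V) f a t := by
  classical
  have hm := monic_X_pow_sub_C z two_ne_zero
  have hinj := injective_of_pow_eq two_ne_zero hz h
  set P : F[X] := X ^ 2 - C z with hP
  have hd : P.natDegree = 2 := natDegree_X_pow_sub_C
  set b := (elemDiv f).count P
  let u := (elemDiv f).filter (· ≠ P)
  have h1 : elemDiv f = Multiset.replicate b P + u := by
    rw [← Multiset.filter_eq', Multiset.filter_add_not]
  have h2 : u.map natDegree = Multiset.replicate (Multiset.card u) 1 := by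
    refine Multiset.eq_replicate.2 ⟨by simp, fun d hd' => ?_⟩
    obtain ⟨c, hc, rfl⟩ := Multiset.mem_map.1 hd'
    obtain ⟨c1, c2⟩ := Multiset.mem_filter.1 hc
    have c3 := (pow_eq_smul_one_iff_elemDiv f 2 z).1 h c c1
    have c4 := natDegree_le_of_dvd c3 hm.ne_zero
    have c5 := (isPP_of_mem_elemDiv c1).natDegree_pos
    by_contra c6
    exact c2 (eq_of_monic_of_dvd_of_natDegree_le (isPP_of_mem_elemDiv c1).monic hm c3
      (by omega)).symm
  have h3 : (b / a) • freeDiv a hm = Multiset.replicate (b / a * a) P := by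
    rcases Nat.eq_zero_or_pos b with h0 | h0
    · simp [h0]
    · rw [freeDiv_of_isPP a (isPP_of_mem_elemDiv (Multiset.count_pos.1 h0)),
        Multiset.nsmul_replicate]
  have h4 := Nat.div_add_mod' b a
  have h5 := Nat.mod_lt b ha
  have h6 := sum_degs f
  rw [degs, h1, Multiset.map_add, h2, Multiset.map_replicate, hd, hn] at h6
  simp only [Multiset.sum_add, Multiset.sum_replicate, smul_eq_mul, mul_one] at h6
  obtain ⟨t', rfl⟩ := Nat.exists_eq_add_of_le (show b / a * 2 ≤ t by
    refine Nat.le_of_mul_le_mul_left (c := a) ?_ ha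
    rw [← mul_assoc, mul_comm a (b / a)]
    omega)
  rw [← h4, Multiset.replicate_add, ← h3, add_assoc] at h1
  refine HasDec.of_elemDiv_add h1 (fun U hU e => hasDec_of_freeDiv two_ne_zero _ _
    (restrict_injective hU hinj) (restrict_pow_eq hU h) e) fun U hU e =>
    hasDec_of_degs (i := 2) t' _ (Multiset.card u) (b % a)
      (by rw [degs, e, Multiset.map_add, h2, Multiset.map_replicate, hd, add_comm])
      (by nlinarith) ?_
  have h7 : Multiset.card u + b % a * 2 = a * t' := by nlinarith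
  rcases t' with _ | _ | t'
  · omega
  · omega
  · have : 2 * (a / 2) ≤ (t' + 1 + 1) * (a / 2) := Nat.mul_le_mul_right _ (by omega)
    omega

variable [Fintype F]

theorem exists_finrank_eq_ker_add {r : ℕ} (hr : r.Prime) (h : (r : F) ≠ 0) {f : End F V}
    (hf : f ^ r = 1) : ∃ b, finrank F V =
      finrank F (ker (f - 1)) + b * orderOf (Fintype.card F : ZMod r) := by
  rw [finrank_ker_sub_one, finrank_eq_sum_elemDiv f]
  have := fun b => mem_elemDiv_of_pow_prime (b := b) hr h hf
  generalize elemDiv f = s at this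
  induction s using Multiset.induction_on with
  | empty => exact ⟨0, by simp⟩
  | cons c s ih =>
    obtain ⟨b, hb⟩ := ih fun b hb => this b (Multiset.mem_cons_of_mem hb)
    simp only [Multiset.map_cons, Multiset.sum_cons, hb]
    rcases this c (Multiset.mem_cons_self _ _) with rfl | hc
    · exact ⟨b, by rw [gdeg_of_dvd dvd_rfl]; ring⟩
    · exact ⟨b + 1, by
        rw [gdeg_X_sub_one_of_mem_cycFac hr h hc, natDegree_of_mem_cycFac hr h hc]; ring⟩

theorem mod_le_finrank_inf {r : ℕ} (hr : r.Prime) (h : (r : F) ≠ 0) {f : End F V}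
    (hf : f ^ r = 1) {U : Submodule F V} (hU : Inv f U) :
    finrank F U % orderOf (Fintype.card F : ZMod r) ≤
      finrank F (ker (f - 1) ⊓ U : Submodule F V) := by
  obtain ⟨b, hb⟩ := exists_finrank_eq_ker_add hr h (restrict_pow_eq_one hU hf)
  rw [hb, Nat.add_mul_mod_self_right, finrank_ker_restrict]
  exact Nat.mod_le _ _

theorem apply_eq_of_finrank_lt {r : ℕ} (hr : r.Prime) (h : (r : F) ≠ 0) {f : End F V}
    (hf : f ^ r = 1) {U : Submodule F V} (hU : Inv f U)
    (hlt : finrank F U < orderOf (Fintype.card F : ZMod r)) : ∀ v ∈ U, f v = v := by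
  have h1 := mod_le_finrank_inf hr h hf hU
  rw [Nat.mod_eq_of_lt hlt] at h1
  have h2 := Submodule.eq_of_le_of_finrank_le inf_le_right h1
  intro v hv
  rw [← h2] at hv
  exact sub_eq_zero.1 hv.1

section SL

variable {n : Type} [Fintype n] [DecidableEq n]

omit [Fintype F] in
theorem injective_toLin'_SL (x : Matrix.SpecialLinearGroup n F) :
    Function.Injective (Matrix.toLin' x.1) := (Matrix.SpecialLinearGroup.toLin' x).injective

theorem exists_SL_unip (p : ℕ) [hp : Fact p.Prime] [CharP F p] {μ : Multiset ℕ}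
    (hμ : ∀ a ∈ μ, 0 < a ∧ a ≤ p) (hn : μ.sum = Fintype.card n) {a : ℕ} (ha : a ∈ μ) (ha1 : a ≠ 1) :
    ∃ x : Matrix.SpecialLinearGroup n F, Adm p x.1 ∧ Matrix.toLin' x.1 ^ p = 1 ∧
      degs (Matrix.toLin' x.1) = μ := by
  have hco := coprime_card_sub_one_char (F := F) p
  have hX : (X ^ p - 1 : F[X]) = (X - C 1) ^ p := by rw [sub_pow_char]; simp
  have hd : (μ.map fun a => (X - C 1 : F[X]) ^ a).map natDegree = μ := by
    rw [Multiset.map_map]
    exact (Multiset.map_congr rfl fun a _ => by simp [-map_one]).trans (Multiset.map_id μ)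
  obtain ⟨x, b1, b2⟩ := exists_SL_of_dvd (n := n) hp.out.ne_zero hco
    (s := μ.map fun a => (X - C 1) ^ a) (fun c hc => by
      obtain ⟨a, ha, rfl⟩ := Multiset.mem_map.1 hc
      exact ⟨⟨_, a, irreducible_X_sub_C 1, monic_X_sub_C 1, (hμ a ha).1, rfl⟩,
        hX ▸ pow_dvd_pow _ (hμ a ha).2⟩) (by rw [hd, hn])
  exact ⟨x, ⟨⟨1, by simpa using b2⟩, ne_smul_one_of_mem_mdiv (b := (X - C 1) ^ a)
    (b1 ▸ Multiset.mem_map_of_mem _ ha) (by simpa [-map_one] using ha1)⟩,
    by simpa using (toLin'_pow_eq_smul_one_iff x.1 p 1).2 (by simpa using b2),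
    by rw [degs, show elemDiv (Matrix.toLin' x.1) = _ from b1, hd]⟩

/-- A test element of order `r` with a fixed space of dimension `e`. -/
theorem exists_SL_fix {r : ℕ} (hr : r.Prime) (h : (r : F) ≠ 0)
    (hi : orderOf (Fintype.card F : ZMod r) ≠ 1) {e b : ℕ} (hb : 0 < b)
    (hn : e + b * orderOf (Fintype.card F : ZMod r) = Fintype.card n) :
    ∃ x : Matrix.SpecialLinearGroup n F, Adm r x.1 ∧ Matrix.toLin' x.1 ^ r = 1 ∧
      finrank F (ker (Matrix.toLin' x.1 - 1)) = e := by
  obtain ⟨c, hc⟩ := exists_mem_cycFac hr h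
  have hd := natDegree_of_mem_cycFac hr h hc
  obtain ⟨x, b1, b2⟩ := exists_SL_of_dvd (n := n) hr.ne_zero
    ((Nat.Prime.coprime_iff_not_dvd hr).2 (mt orderOf_card_eq_one_iff.2 hi))
    (s := Multiset.replicate e (X - C 1) + Multiset.replicate b c) (fun d hd => by
      rcases Multiset.mem_add.1 hd with h1 | h1 <;> rw [Multiset.eq_of_mem_replicate h1]
      · exact ⟨isPP_X_sub_C 1, (dvd_X_pow_sub_one_iff hr h (isPP_X_sub_C 1)).2 (Or.inl rfl)⟩
      · exact ⟨isPP_of_mem_cycFac hc,
          (dvd_X_pow_sub_one_iff hr h (isPP_of_mem_cycFac hc)).2 (Or.inr hc)⟩)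
    (by simpa [-map_one, hd] using hn)
  refine ⟨x, ⟨⟨1, by simpa using b2⟩, ne_smul_one_of_mem_mdiv (b := c)
    (b1 ▸ Multiset.mem_add.2 (Or.inr (Multiset.mem_replicate.2 ⟨hb.ne', rfl⟩))) (hd ▸ hi)⟩,
    by simpa using (toLin'_pow_eq_smul_one_iff x.1 r 1).2 (by simpa using b2), ?_⟩
  rw [finrank_ker_sub_one, show elemDiv (Matrix.toLin' x.1) = _ from b1]
  simp [-map_one, gdeg_X_sub_one_of_mem_cycFac hr h hc, gdeg_of_dvd]

omit [Fintype F] [DecidableEq n] in
theorem HasDec.mdec {f : End F (n → F)} {R : (n → F) → (n → F) → Prop} {a t : ℕ}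
    (h : HasDec R f a t) (hf : Function.Injective f) (hn : Fintype.card n = a * t) (ha : 0 < a)
    (ht : 2 ≤ t) : ∃ D : Fin t → Submodule F (n → F), Geo.IsMDecomposition a D ∧
      (∀ i j, i ≠ j → ∀ u ∈ D i, ∀ v ∈ D j, R u v) ∧
      ∃ σ : Equiv.Perm (Fin t), ∀ j, (D j).map f = D (σ j) := by
  obtain ⟨D, σ, h1, h2, h3, h4, h5⟩ := h.final hf (by simpa using hn)
  exact ⟨D, ⟨ht, ha, h1, h2, h3⟩, h5, σ, h4⟩

omit [Fintype F] in
theorem card_mdec_dvd {a t : ℕ} (hn : Fintype.card n = a * t) (ha : 0 < a) (ht : 2 ≤ t) :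
    Nat.card {D : Fin t → Submodule F (n → F) // Geo.IsMDecomposition a D} ∣ Nat.card (GL n F) := by
  rw [Nat.card_congr (Matrix.GeneralLinearGroup.toLin.toEquiv.trans
    (LinearMap.GeneralLinearGroup.generalLinearEquiv F (n → F)).toEquiv)]
  refine card_dvd_of_transitive (fun (g : (n → F) ≃ₗ[F] (n → F)) D i => (D i).map g.toLinearMap)
    (fun D => funext fun i => Submodule.map_id _)
    (fun g h D => funext fun i => Submodule.map_comp _ _ _) _ (fun g D hD => IsMDec.map hD g)
    (fun D D' h h' => ?_) ?_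
  · obtain ⟨g, hg⟩ := exists_equiv_of_dec h.indep h.iSup_eq_top h'.indep h'.iSup_eq_top fun i =>
      LinearEquiv.ofFinrankEq _ _ ((h.finrank_eq i).trans (h'.finrank_eq i).symm)
    refine ⟨g, funext fun i => Submodule.eq_of_le_of_finrank_eq ?_ ?_⟩
    · rintro _ ⟨v, hv, rfl⟩
      exact (hg i ⟨v, hv⟩).symm ▸ Subtype.property _
    · rw [LinearEquiv.finrank_map_eq, h.finrank_eq, h'.finrank_eq]
  · obtain ⟨D, h, -⟩ := (hasDec_two (f := (1 : End F (n → F))) one_ne_zero (by simp) ha
      (by simpa using hn)).mdec (fun _ _ h => h) hn ha ht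
    exact ⟨D, h⟩

end SL

end Cfsg.Agent.Class.Elus
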