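import Mathlib
import Cfsg.Agent.Class.Elus.Sub
import Cfsg.Agent.Class.Spec.Orth
import Cfsg.Agent.Class.Wr.OrthVal
import Cfsg.Agent.Class.Sp.Gen

/-!
Elements of prime order of `PSL_n(q)` and similarity groups of bilinear forms.
-/

set_option autoImplicit false

namespace Cfsg.Agent.Class.Spec

open Polynomial Cfsg Cfsg.Agent.KSG Cfsg.Agent.Class.Wall Matrix

section Comb

variable {M : Type*} [CommGroup M] {p n r : ℕ} {Q : ℤ}

theorem prod_range_two_mul (g : ℕ → ℤ) (m : ℕ) : ∏ i ∈ Finset.range (2 * m), g i =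
    (∏ i ∈ Finset.range m, g (2 * i)) * ∏ i ∈ Finset.range m, g (2 * i + 1) := by
  induction m with
  | zero => simp
  | succ m ih => simp only [mul_add, mul_one, Finset.prod_range_succ, ih]; ring

theorem IsQ.dvd_or (hQ : IsQ M p Q) (hr : r.Prime) (hrp : r ≠ p) {m c : ℕ} {a b : ℤ} (ha : a ≠ 0)
    (h : r * (a * ∏ i ∈ Finset.range m, (Q ^ (2 * (i + 1)) - 1)) ∣
      Q ^ c * ((∏ i ∈ Finset.range (2 * m), (Q ^ (i + 1) - 1)) * (a * b))) :
    (∃ j, Odd j ∧ j < 2 * m ∧ (r : ℤ) ∣ Q ^ j - 1) ∨ (r : ℤ) ∣ b := by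
  have hr' := Nat.prime_iff_prime_int.1 hr
  have h2 : a * ∏ i ∈ Finset.range m, (Q ^ (2 * (i + 1)) - 1) ≠ 0 := mul_ne_zero ha
    (Finset.prod_ne_zero_iff.2 fun i _ e => hQ.not_dvd (d := 2 * (i + 1)) (by omega) (e ▸ dvd_zero _))
  rw [prod_range_two_mul, show ∀ x y : ℤ, Q ^ c * (x * y * (a * b)) = Q ^ c * (x * b) * (a * y) by
    intros; ring] at h
  rcases hr'.dvd_or_dvd ((mul_dvd_mul_iff_right h2).1 h) with h | h
  · obtain ⟨a, -, e⟩ := hQ.abs
    exact absurd ((Nat.prime_dvd_prime_iff_eq hr hQ.prime).1 (hr.dvd_of_dvd_pow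
      (e ▸ Int.natCast_dvd.1 (hr'.dvd_of_dvd_pow h)))) hrp
  · refine (hr'.dvd_or_dvd h).imp_left fun h => ?_
    obtain ⟨i, hi, h⟩ := (hr'.dvd_finsetProd_iff _).1 h
    exact ⟨_, odd_two_mul_add_one i, by simp at hi; omega, h⟩

theorem IsQ.exists_not_twL_neg (hQ : IsQ M p Q) (hr : r.Prime) (hr2 : r ≠ 2) (hrp : r ≠ p)
    (hn : 3 ≤ n) (h1 : ¬ (n = 6 ∧ r = 3))
    (h2 : (r : ℤ) ∣ Q - 1 → r = n → n = 3 ∨ n = 5 → (r : ℤ) ^ 2 ∣ Q - 1)
    (h3 : ¬ (r : ℤ) ∣ Q - 1 → ∃ j, Odd j ∧ j ≤ n ∧ (r : ℤ) ∣ Q ^ j - 1) :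
    ∃ m : Multiset M, Adm Q n r m ∧ ¬ TwL Q (-1) m := by
  have h4 : ¬ (r : ℤ) ∣ -1 - 1 := fun e => not_dvd_two hr hr2 (by simpa using e.neg_right)
  by_cases h : (r : ℤ) ∣ Q - 1
  · exact hQ.exists_not_twL_split hr hr2 h h4 (fun _ _ e => by simpa using e) (by omega) (by omega)
      h1 (h2 h)
  · obtain ⟨j, j1, j2, j3⟩ := h3 h
    exact hQ.exists_not_twL_orbit hr hrp h j1.pos j2 j3 (by rwa [j1.neg_one_pow])
      (by simpa using (Nat.prime_iff_prime_int.1 hr).not_dvd_one)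

/-- A unipotent element with one non-trivial Jordan block. -/
theorem uni_props (hp : p.Prime) {a : ℕ} (h1 : 1 < a) (h2 : a ≤ p) (h3 : a ≤ n) :
    Valid Q n ({(1, a)} + idb M (n - a)) ∧ jdet ({(1, a)} + idb M (n - a)) = 1 ∧
      PK p ({(1, a)} + idb M (n - a)) p ∧ ¬ PK p ({(1, a)} + idb M (n - a)) 1 := by
  refine ⟨((valid_single (by simp) (by omega)).add (valid_idb _)).cast (by omega),
    by simp [jdet, idb], ⟨1, KB_add.2 ⟨KB_single.2 ⟨by simp, ?_⟩,
      KB_idb.2 (Or.inr rfl)⟩⟩, fun ⟨c, hc⟩ => hp.one_lt.ne' (Nat.dvd_one.1 ?_)⟩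
  · exact pow_clog_dvd (by rw [Nat.clog_eq_one hp.two_le le_rfl, pow_one]) h2
  · exact (dvd_pow_self p (Nat.clog_pos hp.one_lt h1).ne').trans (KB_single.1 (KB_add.1 hc).1).2

theorem eq_one_of_uni {a k : ℕ} {l : M}
    (h : sc l (({(1, a)} + idb M k).map (tw (-1))) = {(1, a)} + idb M k) : l = 1 := by
  have : (l, a) ∈ ({(1, a)} + idb M k : Multiset _) := by rw [← h]; simp [sc, tw]
  rcases Multiset.mem_add.1 this with h | h
  · simpa using h
  · exact congrArg Prod.fst (Multiset.eq_of_mem_replicate h)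

theorem count_uni [DecidableEq (M × ℕ)] {a k : ℕ} (h : 1 < a) :
    ({(1, a)} + idb M k : Multiset _).count (1, a) = 1 := by
  simp [idb, Multiset.count_replicate, h.ne]

theorem IsQ.exists_sc_uni (hQ : IsQ M p Q) {J : Multiset (M × ℕ)} (h1 : Valid Q n J) (h2 : PK p J p)
    (h3 : ¬ PK p J 1) : J ≠ 0 ∧ (∀ x ∈ J, x.2 ≤ p) ∧ ∃ c, c ^ Q = c ∧ ∀ x ∈ sc c J, x.1 = 1 := by
  obtain ⟨c, hc⟩ := h2
  obtain ⟨x, hx⟩ := Multiset.exists_mem_of_ne_zero (s := J) (by rintro rfl; exact h3 ⟨1, KB_zero⟩)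
  have h4 : ∀ y ∈ J, x.1⁻¹ * y.1 = 1 := fun y hy => hQ.tf _ (by
    rw [mul_pow, inv_pow, (hc x hx).1, (hc y hy).1, inv_mul_cancel])
  exact ⟨by rintro rfl; simp at hx, fun y hy => (Nat.le_pow_clog hQ.prime.one_lt _).trans
    (Nat.le_of_dvd hQ.prime.pos (hc y hy).2), x.1⁻¹, (_root_.inv_zpow _ _).trans
      (congrArg _ (inv_mul_eq_one.1 (h4 _ (tw_mem h1.inv hx))).symm),
        Multiset.forall_mem_map_iff.2 h4⟩

theorem spC_of_two {J : Multiset (M × ℕ)} (h : ∀ x ∈ J, x = (1, 1) ∨ x = (1, 2))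
    (he : Even (J.map Prod.snd).sum) : SpC J := by
  refine ⟨(Multiset.map_congr rfl fun x hx => ?_).trans (Multiset.map_id _), fun c e _ ho => ?_⟩
  · rcases h x hx with rfl | rfl <;> simp [tw]
  by_cases h1 : (c, e) = (1, 1)
  · rw [h1]
    refine (?_ : _ ↔ _).1 he
    clear he
    induction J using Multiset.induction_on with
    | empty => simp
    | cons x J ih =>
      have := ih fun y hy => h y (by simp [hy])
      rcases h x (by simp) with rfl | rfl <;> simp [← this, parity_simps]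
  · rw [Multiset.count_eq_zero.2 fun h2 => ?_]
    · simp
    · obtain rfl : e = 2 := congrArg Prod.snd ((h _ h2).resolve_left h1)
      exact absurd ho (by decide)

theorem count_ss [DecidableEq M] [DecidableEq (M × ℕ)] (m : Multiset M) (c : M) (e : ℕ) :
    (ss m).count (c, e) = if e = 1 then m.count c else 0 := by
  split_ifs with h
  · exact h ▸ Multiset.count_map_eq_count' _ _ (fun _ _ => congrArg Prod.fst) c
  · simp [ss, Ne.symm h]

end Comb

variable {F K : Type*} [Field F] [Field K] [Algebra F K] {ι κ : Type} [Fintype ι] [DecidableEq ι]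
  [Fintype κ] [DecidableEq κ] {H : Subgroup (GL ι F)} {p r : ℕ}

theorem exists_trGL (T : (κ → F) ≃ₗ[F] (ι → F)) : ∃ Φ : GL κ F ≃* GL ι F,
    (∀ g x, (Φ g).1 *ᵥ T x = T (g.1 *ᵥ x)) ∧ ∀ g, mdiv (Φ g).1 = mdiv g.1 := by
  obtain ⟨e, B, h⟩ := Asch.exists_tr_of_equiv T
  have h1 : ∀ g x, (Asch.trGL e B g).1 *ᵥ T x = T (g.1 *ᵥ x) := fun g x => by
    rw [← h, ← h, Asch.coe_trGL, Asch.tr_mulVec]
  exact ⟨_, h1, fun g => (Sim.elemDiv_eq ⟨T, fun v => (h1 g v).symm⟩).symm⟩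

theorem mdiv_eq_of_sq {A : Matrix ι ι F} {z : F} (hz : ¬ IsSquare z) (h : A ^ 2 = z • 1) :
    Even (Fintype.card ι) ∧ mdiv A = Multiset.replicate (Fintype.card ι / 2) (X ^ 2 - C z) := by
  have h1 : ∀ b ∈ mdiv A, b = X ^ 2 - C z := fun b hb => by
    obtain ⟨e, e1, e2, rfl⟩ := (isPP_of_mem_mdiv hb).eq_pow_of_dvd_pow (k := 1)
      (X_pow_sub_C_irreducible_of_prime Nat.prime_two fun b e => hz ⟨b, by rw [← e, sq]⟩)
      (monic_X_pow_sub_C z two_ne_zero) (by simpa using (pow_eq_smul_one_iff_mdiv A 2 z).1 h b hb)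
    rw [show e = 1 by omega, pow_one]
  have h2 := sum_natDegree_mdiv A
  rw [Multiset.eq_replicate_card.2 h1] at h2 ⊢
  simp only [Multiset.map_replicate, natDegree_X_pow_sub_C, Multiset.sum_replicate, smul_eq_mul] at h2
  exact ⟨⟨(mdiv A).card, by omega⟩, by congr 1; omega⟩

theorem mul_card_dvd_GL [Finite F] [Nonempty ι] {S : Type*} [Group S] (φ : S →* GL ι F)
    (hφ : Function.Injective φ) (h1 : ∀ s, φ s ∈ H) (hr : r ∣ H.relIndex (Geo.specialLinear ι F)) :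
    r * Nat.card S ∣ Nat.card (GL ι F) := by
  let δ := GeneralLinearGroup.det.comp φ
  rw [← card_units_mul_card_SL, ← δ.ker.card_mul_index, Subgroup.index_ker, ← mul_assoc, mul_comm]
  exact mul_dvd_mul (Subgroup.card_subgroup_dvd_card _) (mul_card_dvd_of_relIndex
    (φ.comp δ.ker.subtype) (hφ.comp Subtype.val_injective) (fun s => h1 s) (fun s => s.2) hr)

theorem card_GL_eq (F : Type*) [Field F] [Fintype F] {n : ℕ} (hn : n ≠ 0) :
    (Nat.card (GL (Fin n) F) : ℤ) = Fintype.card F ^ (n * (n - 1) / 2) *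
      ∏ i ∈ Finset.range n, ((Fintype.card F : ℤ) ^ (i + 1) - 1) := by
  have := NeZero.mk hn
  rw [← card_units_mul_card_SL, Nat.cast_mul, card_SL_eq F hn, ← mul_oS _ hn, Nat.card_units,
    Nat.card_eq_fintype_card, Nat.cast_pred Fintype.card_pos, mul_left_comm]

theorem cast_prod_sub_one {q : ℕ} (hq : 0 < q) (m : ℕ) :
    ((∏ i ∈ Finset.range m, (q ^ (2 * (i + 1)) - 1) : ℕ) : ℤ) =
      ∏ i ∈ Finset.range m, ((q : ℤ) ^ (2 * (i + 1)) - 1) := by
  rw [Nat.cast_prod]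
  exact Finset.prod_congr rfl fun i _ => by rw [Nat.cast_pred (by positivity), Nat.cast_pow]

variable [IsAlgClosed K]

theorem sc_tw_of_sim {f : (ι → F) → (ι → F) → F} (hf : Geo.IsBilinearForm f)
    (hn : Geo.IsNondegenerateForm f) {h : GL ι F} {c : Fˣ}
    (hc : ∀ u v, f (h.1 *ᵥ u) (h.1 *ᵥ v) = c * f u v) :
    sc (Units.map (algebraMap F K : F →* K) c) ((jm K h.1).map (tw (-1))) = jm K h.1 := by
  have hs := Asch.isSesq_of_bilinear hf
  let G := GeneralLinearGroup.mkOfDetNeZero _ (hs.det_gram_ne_zero hn)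
  have h1 : h.1ᵀ * G.1 * h.1 = (c : F) • G.1 := Asch.frm_inj (RingEquiv.refl F) fun u v => by
    rw [Asch.frm_smul]
    exact (Asch.frm_mulVec _ _ h.1 h.1 u v).symm.trans (by
      have := hc u v
      rwa [hs.eq_frm] at this)
  rw [← jm_invT, ← jm_conj G, ← jm_smul c (Units.isUnit _), Units.val_mul, Units.val_mul, mul_assoc,
    ← mul_smul_comm, ← mul_smul_comm, ← h1, ← invT_inv_val, mul_assoc, Units.mul_inv_cancel_left,
    Units.inv_mul_cancel_left]

theorem isUnit_sub_one {A : Matrix ι ι F} (hA : IsUnit A) (h : ∀ x ∈ jm K A, x.1 ≠ 1) :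
    IsUnit (A - 1) := by
  have h1 := congrArg (eval 1) (map_prod_eq_jd (K := K)
    (fun b hb => (isPP_of_mem_mdiv hb).monic) (coeff_ne_of_mem_mdiv hA))
  rw [prod_mdiv, eval_one_map, eval_charpoly, eval_multiset_prod, Multiset.map_map] at h1
  rw [← neg_sub, IsUnit.neg_iff, isUnit_iff_isUnit_det, isUnit_iff_ne_zero,
    ← _root_.map_ne_zero (algebraMap F K), ← (scalar ι).map_one, h1]
  refine Multiset.prod_ne_zero fun e => ?_
  obtain ⟨x, hx, e⟩ := Multiset.mem_map.1 e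
  exact h x hx (Units.ext (sub_eq_zero.1 (by simpa using e : 1 - (x.1 : K) = 0 ∧ x.2 ≠ 0).1).symm)

variable [Fintype F]

theorem jm_diagonal (hp : p.Prime) [CharP F p] [CharP K p] (d : ι → Fˣ) :
    jm K (diagonal fun i => (d i : F)) =
      ss (Finset.univ.val.map fun i => Units.map (algebraMap F K : F →* K) (d i)) := by
  have h0 : IsUnit (diagonal fun i => (d i : F)) := isUnit_diagonal.2 (Pi.isUnit_iff.2 (by simp))
  obtain ⟨m, hm⟩ : ∃ m, jm K (diagonal fun i => (d i : F)) = ss m := ⟨_, PK.eq_ss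
    (N := Fintype.card F - 1) ⟨1, (pow_eq_one_iff_KB p hp h0 _).1 (by
      simp [diagonal_pow, Pi.pow_def, FiniteField.pow_card_sub_one_eq_one])⟩ hp.one_lt (fun e =>
        (isQ_card F K hp).not_dvd one_pos (by
          rw [pow_one, ← Nat.cast_pred Fintype.card_pos]; exact_mod_cast e)) (valid_jm h0).pos⟩
  have h1 := congrArg roots (map_prod_eq_jd (K := K)
    (fun b hb => (isPP_of_mem_mdiv hb).monic) (coeff_ne_of_mem_mdiv h0))
  rw [prod_mdiv, ← jm, hm, charpoly_diagonal, Polynomial.map_prod] at h1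
  rw [hm]
  refine congrArg _ (Multiset.map_injective Units.val_injective ?_)
  refine (roots_multiset_prod_X_sub_C _).symm.trans (Eq.trans ?_ (roots_multiset_prod_X_sub_C _))
  simpa [ss] using h1.symm

theorem twL_of_sim {f : (ι → F) → (ι → F) → F} (hf : Geo.IsBilinearForm f)
    (hn : Geo.IsNondegenerateForm f) {h : GL ι F} (hh : h ∈ Geo.similarityGroup f)
    {m : Multiset Kˣ} (e : jm K h.1 = ss m) : TwL (Fintype.card F) (-1) m := by
  obtain ⟨c, hc⟩ := hh
  have := sc_tw_of_sim (K := K) hf hn hc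
  rw [e, map_tw_ss, sc_ss, Multiset.map_map] at this
  exact ⟨_, fixed_iff.2 ⟨c, rfl⟩, ss_injective this⟩

omit [IsAlgClosed K] in
theorem exists_of_sc (h0 : Geo.scalars ι F ≤ H) {c : Kˣ} (hc : c ^ (Fintype.card F : ℤ) = c)
    {J : Multiset (Kˣ × ℕ)} (h : ∃ g ∈ H, jm K g.1 = sc c J) : ∃ g ∈ H, jm K g.1 = J := by
  obtain ⟨c, rfl⟩ := fixed_iff.1 hc
  obtain ⟨g, hg, e⟩ := h
  refine ⟨c⁻¹ • 1 * g, H.mul_mem (h0 ((Geo.mem_scalars_iff _).2 ⟨c⁻¹, rfl⟩)) hg, ?_⟩
  rw [Units.val_mul, Units.val_smul, smul_mul_assoc, Units.val_one, one_mul, Units.smul_def,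
    jm_smul _ g.isUnit, e, sc_sc, ← map_mul, inv_mul_cancel, map_one, sc_one]

variable [Algebra.IsAlgebraic F K]

/-- Involutions: reduce to the split and the non-split case. -/
theorem elu_two_of (hp : p.Prime) [CharP K p] (hp2 : p ≠ 2) (h0 : Geo.scalars ι F ≤ H)
    (h1 : ∀ (c : Fˣ) (m : Multiset Kˣ), m.card = Fintype.card ι → (∀ α ∈ m, α * α = 1) →
      Units.map (algebraMap F K : F →* K) c ^ Fintype.card ι * m.prod = 1 → ∃ h ∈ H, jm K h.1 = ss m)
    (h2 : Even (Fintype.card ι) → ∀ z : F, ¬ IsSquare z → ∃ h ∈ H, h.1 ^ 2 = z • 1) : Elu 2 H := by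
  refine (elu_iff (K := K) hp Nat.prime_two hp2.symm).2 fun m hm => ?_
  obtain ⟨α, hα⟩ := Multiset.card_pos_iff_exists_mem.1 (hm.card ▸ hm.pos)
  obtain ⟨z, hz⟩ := fixed_iff.1 (hm.fixed hα)
  have h3 : ∀ β ∈ m, β ^ 2 = Units.map (algebraMap F K : F →* K) z := fun β hβ => by
    obtain ⟨c, hc⟩ := hm.pow
    rw [hz, hc β hβ, hc α hα]
  by_cases h4 : IsSquare (z : F)
  · obtain ⟨c, hc⟩ := h4
    obtain ⟨c, rfl⟩ := isUnit_of_mul_isUnit_left (hc ▸ z.isUnit)
    obtain rfl : z = c * c := Units.ext hc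
    obtain ⟨h, hh, e⟩ := h1 c (m.map (Units.map (algebraMap F K : F →* K) c⁻¹ * ·))
      (by simpa using hm.card) (fun β hβ => by
        obtain ⟨β, h5, rfl⟩ := Multiset.mem_map.1 hβ
        rw [mul_mul_mul_comm, ← sq β, h3 β h5, ← map_mul, ← map_mul]; simp)
      (by rw [Multiset.prod_map_mul]; simp [hm.card, hm.prod])
    exact exists_of_sc h0 (fixed_iff.2 ⟨_, rfl⟩) ⟨h, hh, e.trans (sc_ss _ _).symm⟩
  · obtain ⟨x, hx⟩ := exists_GL_jm (F := F) (ι := ι) (valid_ss.2 ⟨hm.card, hm.inv⟩)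
    obtain ⟨h5, h6⟩ := mdiv_eq_of_sq h4 ((pow_eq_smul_iff_KB p hp x.isUnit 2 rfl).2
      (hx ▸ KB_ss.2 h3))
    obtain ⟨h, hh, e⟩ := h2 h5 z h4
    exact ⟨h, hh, by rw [← hx, jm, jm, h6, (mdiv_eq_of_sq h4 e).2]⟩

/-! ### Symplectic forms -/

section Sp

variable {f : (ι → F) → (ι → F) → F} (hf : Geo.IsSymplecticForm f)
include hf

omit [Fintype F] [Fintype ι] [DecidableEq ι] in
theorem isSympSpace_bilOf : IsSympSpace (Max.bilOf hf.bilinear) :=
  isFormed_of_isAlt (Max.nondeg_of hf.nondegenerate) hf.alternating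

theorem spC_of_sim {h : GL ι F} (hh : h ∈ Geo.similarityGroup f) : ∃ l : Kˣ,
    sc l ((jm K h.1).map (tw (-1))) = jm K h.1 ∧ (l = 1 → SpC (jm K h.1)) := by
  obtain ⟨c, hc⟩ := hh
  refine ⟨_, sc_tw_of_sim hf.bilinear hf.nondegenerate hc, fun e => ?_⟩
  obtain rfl : c = 1 := Units.ext ((algebraMap F K).injective (by simpa using congrArg Units.val e))
  have h1 : ∀ u v, Max.bilOf hf.bilinear (toLin' h.1 u) (toLin' h.1 v) = Max.bilOf hf.bilinear u v :=
    fun u v => (hc u v).trans (one_mul _)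
  exact (spC_jd_iff (fun _ => isPP_of_mem_mdiv) (coeff_ne_of_mem_mdiv h.isUnit)).2
    ⟨(isSympSpace_bilOf hf).nd.map_dual_elemDiv h1, fun c e hc he => by
      convert (isSympSpace_bilOf hf).even_count h1 hc he
      rfl⟩

omit [Fintype F] in
theorem exists_trGL_sp {m : ℕ} (hm : Fintype.card ι = 2 * m) :
    ∃ Φ : GL (Fin m ⊕ Fin m) F ≃* GL ι F, (∀ g, mdiv (Φ g).1 = mdiv g.1) ∧
      ∀ g ∈ Geo.similarityGroup (sympForm m F), Φ g ∈ Geo.similarityGroup f := by
  obtain ⟨T, hT, -⟩ := (isSympSpace_sympB m F).isometric (isSympSpace_bilOf hf) (by simp [hm, two_mul])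
  obtain ⟨Φ, h1, h2⟩ := exists_trGL T
  refine ⟨Φ, h2, fun g ⟨c, hc⟩ => ⟨c, fun u v => ?_⟩⟩
  obtain ⟨u, rfl⟩ := T.surjective u
  obtain ⟨v, rfl⟩ := T.surjective v
  rw [h1, h1]
  exact (hT _ _).trans ((hc u v).trans (congrArg _ (hT u v).symm))

theorem exists_sim_of_spC {J : Multiset (Kˣ × ℕ)} (h : Valid (Fintype.card F) (Fintype.card ι) J)
    (h' : SpC J) : ∃ g ∈ Geo.similarityGroup f, jm K g.1 = J := by
  obtain ⟨m, hm⟩ := Asch.even_card_of_symplectic hf
  obtain ⟨Φ, h1, h2⟩ := exists_trGL_sp hf (hm.trans (two_mul m).symm)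
  obtain ⟨A, rfl⟩ := exists_Sp_jm (F := F) (m := m) (h.cast (by omega)) h'
  exact ⟨_, h2 (isUnit_Sp A).unit ⟨1, fun u v => (Sp.form_smul_smul A u v).trans (one_mul _).symm⟩,
    by rw [jm, h1]; rfl⟩

omit [Fintype F] in
theorem exists_sim_sq {z : F} (hz : z ≠ 0) : ∃ h ∈ Geo.similarityGroup f, h.1 ^ 2 = z • 1 := by
  obtain ⟨m, hm⟩ := Asch.even_card_of_symplectic hf
  obtain ⟨Φ, h1, h2⟩ := exists_trGL_sp hf (hm.trans (two_mul m).symm)
  have h3 : (fromBlocks 0 (z • 1) 1 0 : Matrix (Fin m ⊕ Fin m) (Fin m ⊕ Fin m) F) ^ 2 = z • 1 := by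
    simp [sq, fromBlocks_multiply, ← fromBlocks_one, fromBlocks_smul]
  obtain ⟨g, hg⟩ : IsUnit (fromBlocks 0 (z • 1) 1 0 : Matrix (Fin m ⊕ Fin m) (Fin m ⊕ Fin m) F) :=
    (isUnit_pow_iff two_ne_zero).1 (h3 ▸ (isUnit_iff_isUnit_det _).2 (by simp [hz]))
  refine ⟨Φ g, h2 g ⟨Units.mk0 (-z) (by simpa), fun u v => ?_⟩, ?_⟩
  · rw [Sp.form_eq, Sp.form_eq, Finset.mul_sum]
    exact Finset.sum_congr rfl fun i _ => by simp [hg, fromBlocks_mulVec, smul_mulVec]; ring
  · rw [pow_eq_smul_one_iff_mdiv, h1, ← pow_eq_smul_one_iff_mdiv, hg, h3]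

omit [Fintype F] hf in
theorem scalars_le_sim {f : (ι → F) → (ι → F) → F} (hf : Geo.IsBilinearForm f) :
    Geo.scalars ι F ≤ Geo.similarityGroup f := fun g hg => by
  obtain ⟨c, hc⟩ := (Geo.mem_scalars_iff g).1 hg
  exact ⟨c * c, fun u v => by simp [hc, smul_mulVec, hf.smul_left, hf.smul_right, mul_assoc]⟩

end Sp

section Sp

variable {n : ℕ} {f : (Fin n → F) → (Fin n → F) → F} (hf : Geo.IsSymplecticForm f)
include hf

omit [IsAlgClosed K] [Algebra.IsAlgebraic F K] [Algebra F K] in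
theorem exists_odd_of_sp (hQ : IsQ Kˣ p (Fintype.card F)) (hn : n ≠ 0) (hr : r.Prime) (hrp : r ≠ p)
    (hΩ : r ∣ (Geo.similarityGroup f).relIndex (Geo.specialLinear (Fin n) F)) :
    ∃ j, Odd j ∧ j ≤ n ∧ (r : ℤ) ∣ (Fintype.card F : ℤ) ^ j - 1 := by
  have := NeZero.mk hn
  obtain ⟨m, rfl⟩ : 2 ∣ n := by
    simpa [even_iff_two_dvd] using Asch.even_card_of_symplectic hf
  obtain ⟨Φ, -, h2⟩ := exists_trGL_sp hf (Fintype.card_fin _)
  have h3 := Int.natCast_dvd_natCast.2 (mul_card_dvd_GL (Φ.toMonoidHom.comp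
    (symplecticGroup (Fin m) F).subtype.toHomUnits) (Φ.injective.comp fun a b e =>
      Subtype.ext (congrArg Units.val e)) (fun A => h2 _ ⟨1, fun u v =>
        (Sp.form_smul_smul A u v).trans (one_mul _).symm⟩) hΩ)
  rw [card_GL_eq F hn, Sp.card_Sp, Nat.card_eq_fintype_card, Nat.cast_mul, Nat.cast_mul,
    cast_prod_sub_one Fintype.card_pos] at h3
  obtain ⟨j, j1, j2, j3⟩ := (hQ.dvd_or (b := 1) hr hrp one_ne_zero (by
    simpa using (mul_dvd_mul_left _ (dvd_mul_left _ _)).trans h3)).resolve_right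
      (Nat.prime_iff_prime_int.1 hr).not_dvd_one
  exact ⟨j, j1, j2.le, j3⟩

theorem not_elu_sp (hp : p.Prime) [CharP F p] [CharP K p] (hn : 4 ≤ n) (he : Even n) (hr : r.Prime)
    (hr2 : r ≠ 2) (h6 : ¬ (n = 6 ∧ r = 3))
    (hΩ : r ∣ (Geo.similarityGroup f).relIndex (Geo.specialLinear (Fin n) F)) :
    ¬ Elu r (Geo.similarityGroup f) := fun h => by
  classical
  have hQ := isQ_card F K hp
  by_cases hrp : r = p
  · subst hrp
    obtain ⟨h1, h2, h3, h4⟩ := uni_props (M := Kˣ) (Q := Fintype.card F) (n := n) (a := 3) hr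
      (by omega) (by have := hr.two_le; omega) (by omega)
    obtain ⟨g, hg, e⟩ := h.exists_jm hr (by simpa using h1) h2 h3 h4
    obtain ⟨l, l1, l2⟩ := spC_of_sim (K := K) hf hg
    rw [e] at l1 l2
    exact Nat.not_even_one (count_uni (M := Kˣ) (a := 3) (by omega) ▸
      (l2 (eq_one_of_uni l1)).par 1 3 (one_mul 1) (by decide))
  · obtain ⟨m, h1, h2⟩ := hQ.exists_not_twL_neg (n := n) hr hr2 hrp (by omega) h6
      (fun _ _ e => by rcases e with rfl | rfl <;> exact absurd he (by decide))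
      fun _ => exists_odd_of_sp hf hQ (by omega) hr hrp hΩ
    obtain ⟨g, hg, e⟩ := (elu_iff hp hr hrp).1 h m (by simpa using h1)
    exact h2 (twL_of_sim hf.bilinear hf.nondegenerate hg e)

theorem elu_two_sp_iff (hp : p.Prime) [CharP F p] [CharP K p] (hn : 4 ≤ n) (he : Even n) :
    Elu 2 (Geo.similarityGroup f) ↔ padicValNat 2 (Fintype.card F - 1) ≤ padicValNat 2 n := by
  classical
  have hQ := isQ_card F K hp
  have h0 := scalars_le_sim hf.bilinear
  have e0 : ((Fintype.card F : ℤ) - 1).natAbs = Fintype.card F - 1 := by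
    have := Fintype.card_pos (α := F); omega
  by_cases h2 : p = 2
  · subst h2
    refine iff_of_true (elu_of (K := K) hp fun J h1 _ h2 h3 => ?_) ?_
    · obtain ⟨h4, h5, c, c1, c2⟩ := hQ.exists_sc_uni h1 h2 h3
      obtain ⟨x, hx⟩ := Multiset.exists_mem_of_ne_zero h4
      have h6 := h1.sc c1
      refine ⟨exists_of_sc h0 c1 (exists_sim_of_spC hf h6 (spC_of_two (fun y hy => ?_)
        (by simpa [h6.sum]))), x, hx, exists_eq_pow_char hp ?_⟩
      · have := h6.pos y hy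
        have : y.2 ≤ 2 := by
          obtain ⟨z, hz, rfl⟩ := Multiset.mem_map.1 hy
          exact h5 z hz
        simp only [Prod.ext_iff, c2 y hy, true_and]
        omega
      · have := h1.pos x hx
        have := h5 x hx
        omega
    · rw [padicValNat.eq_zero_of_not_dvd fun e => hQ.not_dvd one_pos (by
        rwa [pow_one, Int.natCast_dvd, e0])]
      exact Nat.zero_le _
  have h3 : (-1 : Kˣ) ≠ 1 := fun e => h2 ((Nat.prime_dvd_prime_iff_eq hp Nat.prime_two).1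
    ((CharP.cast_eq_zero_iff K p 2).1 (by
      have := congrArg Units.val e
      push_cast at this ⊢
      linear_combination -this)))
  refine ⟨fun h => not_lt.1 fun h4 => ?_, fun h => elu_two_of (K := K) hp h2 h0
    (fun c m h4 h5 h6 => ?_) fun _ z hz => exists_sim_sq hf (by rintro rfl; simp at hz)⟩
  · obtain ⟨c, c1, c2⟩ := hQ.exists_pow_order (n := n) Nat.prime_two (by omega) (by
      rw [← Nat.cast_pow, Int.natCast_dvd, e0]
      exact (pow_dvd_pow 2 h4).trans pow_padicValNat_dvd)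
    obtain ⟨n, rfl⟩ := Nat.exists_eq_add_of_le' (show 1 ≤ n by omega)
    have h5 : (c ^ (n + 1))⁻¹ ≠ 1 := fun e => by simp [inv_eq_one.1 e] at c2
    have h6 : (c ^ (n + 1))⁻¹ ^ 2 = 1 := by rw [inv_pow, ← c2, pow_orderOf_eq_one, inv_one]
    have h7 := adm_two (r := 2) (show 0 < n by omega) one_pos c1 (zpow_eq_self_of_pow h6
      ((hQ.odd h2).sub_odd odd_one).two_dvd) h6 h5 (by simp)
    generalize (c ^ (n + 1))⁻¹ = ζ at *
    obtain ⟨g, hg, e⟩ := exists_of_sc h0 c1 (J := ss (Multiset.replicate n 1 + {ζ})) (by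
      simpa [sc_ss] using (elu_iff hp Nat.prime_two (Ne.symm h2)).1 h _ (by rwa [Fintype.card_fin]))
    obtain ⟨l, l1, l2⟩ := spC_of_sim (K := K) hf hg
    rw [e] at l1 l2
    rw [map_tw_ss, sc_ss, Multiset.map_map] at l1
    have h8 := apply_eq_of_count (a := 1) (fun _ _ e => by simpa using e) (ss_injective l1)
      fun b hb => by
        simp only [Multiset.count_add, Multiset.count_replicate, Multiset.count_singleton, h5.symm,
          if_true, if_false] at hb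
        split_ifs at hb <;> first | omega | simp_all
    simpa [count_ss, Multiset.count_replicate, h5.symm] using
      (l2 (by simpa using h8)).par ζ 1 (sq ζ ▸ h6) odd_one
  · have h7 : ∀ α : Kˣ, α * α = 1 → α = 1 ∨ α = -1 := fun α h => by
      rwa [← Units.val_inj, Units.val_mul, Units.val_one, mul_self_eq_one_iff, Units.val_eq_one,
        Units.val_eq_neg_one] at h
    obtain ⟨a, b, rfl⟩ : ∃ a b, m = Multiset.replicate a 1 + Multiset.replicate b (-1) :=
      ⟨_, _, (Multiset.filter_add_not (· = 1) m).symm.trans (congrArg₂ _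
        (Multiset.eq_replicate_card.2 fun _ hα => (Multiset.mem_filter.1 hα).2)
        (Multiset.eq_replicate_card.2 fun α hα => (h7 α (h5 α (Multiset.mem_filter.1 hα).1)).resolve_left (Multiset.mem_filter.1 hα).2))⟩
    have c1 := (fixed_iff (K := K)).2 ⟨c, rfl⟩
    generalize Units.map (algebraMap F K : F →* K) c = c at *
    simp only [Multiset.card_add, Multiset.card_replicate, Fintype.card_fin, Multiset.prod_add,
      Multiset.prod_replicate, one_pow, one_mul] at h4 h6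
    have h8 := zpow_eq_self_of_padic (α := c) (Q := n + 1) Nat.prime_two hQ.sub_one_pos.ne'
      (by simp; omega) (by simpa using zpow_eq_self_iff.1 c1) (by
        rw [_root_.zpow_add_one, mul_eq_right, zpow_natCast, pow_right_comm, eq_inv_of_mul_eq_one_left h6,
          inv_pow, pow_right_comm]
        simp) (by simpa [e0])
    rw [_root_.zpow_add_one, mul_eq_right, zpow_natCast] at h8
    rw [h8, one_mul, neg_one_pow_eq_one_iff_even h3] at h6
    have h9 : Even a := (Nat.even_add.1 (h4 ▸ he)).2 h6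
    have h10 : ∀ R : ℤ, Odd R → (Multiset.replicate a (1 : Kˣ) + Multiset.replicate b (-1)).map
        (· ^ R) = Multiset.replicate a 1 + Multiset.replicate b (-1) := fun R h => by
      simp [h.neg_one_zpow]
    refine exists_sim_of_spC hf (valid_ss.2 ⟨by simpa, h10 _ (hQ.odd h2)⟩)
      ⟨by rw [map_tw_ss, h10 _ odd_neg_one], fun c e hc _ => ?_⟩
    rcases h7 c hc with rfl | rfl <;> rw [count_ss] <;> split_ifs <;>
      simp [Multiset.count_replicate, h3, h3.symm, h6, h9]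

end Sp

/-! ### Quadratic forms -/

section O

open Orth

variable {Q : (ι → F) → F} (hQ : Geo.IsNondegenerateQuadraticForm Q) (h2 : (2 : F) ≠ 0)
include hQ h2

omit [Fintype F] [DecidableEq κ] in
theorem exists_orth_coords (h : Fintype.card κ = Fintype.card ι) :
    ∃ (T : (κ → F) ≃ₗ[F] (ι → F)) (w : κ → Fˣ), ∀ v, Q (T v) = ∑ i, w i * v i ^ 2 := by
  let _ := invertibleOfNonzero h2
  obtain ⟨w, ⟨e⟩⟩ := (Max.qfOf hQ).equivalent_weightedSumSquares_units_of_nondegenerate'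
    fun x hx => Max.nd_qfOf hQ x fun y =>
      QuadraticMap.isOrtho_polarBilin.2 (QuadraticMap.associated_isOrtho.1 (hx y))
  let σ : κ ≃ Fin (Module.finrank F (ι → F)) := Fintype.equivOfCardEq (by simp [h])
  refine ⟨(LinearEquiv.funCongrLeft F F σ.symm).trans e.symm.toLinearEquiv, w ∘ σ, fun v =>
    (e.symm.map_app _).trans ?_⟩
  rw [QuadraticMap.weightedSumSquares_apply, ← σ.sum_comp]
  simp [Units.smul_def, sq]

theorem elu_two_orth (hp : p.Prime) [CharP F p] [CharP K p] : Elu 2 (Geo.quadSimilarityGroup Q) := by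
  classical
  refine elu_two_of (K := K) hp (by rintro rfl; exact h2 (CharP.cast_eq_zero F 2))
    ((scalars_le_sim hQ.polar_bilinear).trans (Asch.similarity_polar_le hQ h2))
    (fun _ m h3 h4 _ => ?_) fun ⟨m, hm⟩ z hz => ?_
  · obtain ⟨T, w, hT⟩ := exists_orth_coords hQ h2 (κ := ι) rfl
    obtain ⟨Φ, h5, h6⟩ := exists_trGL T
    obtain ⟨β, rfl⟩ : ∃ β : ι → Kˣ, Finset.univ.val.map β = m :=
      ⟨(fun x : m.ToType => (x : Kˣ)) ∘ (Fintype.equivOfCardEq (by simp [h3]) : ι ≃ m.ToType), by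
        rw [← Multiset.map_map, Multiset.map_univ_val_equiv, Multiset.map_univ_coe]⟩
    have h7 : ∀ i, ∃ d : Fˣ, d * d = 1 ∧ Units.map (algebraMap F K : F →* K) d = β i :=
      fun i => by
        have h := h4 _ (Multiset.mem_map_of_mem β (Finset.mem_univ i))
        rw [← Units.val_inj, Units.val_mul, Units.val_one, mul_self_eq_one_iff, Units.val_eq_one,
          Units.val_eq_neg_one] at h
        rcases h with h | h
        exacts [⟨1, by simp, by simp [h]⟩, ⟨-1, by simp, Units.ext (by simp [h])⟩]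
    choose d d1 d2 using h7
    obtain ⟨g, hg⟩ : IsUnit (diagonal fun i => (d i : F)) :=
      isUnit_diagonal.2 (Pi.isUnit_iff.2 (by simp))
    refine ⟨Φ g, ⟨1, fun v => ?_⟩, ?_⟩
    · obtain ⟨v, rfl⟩ := T.surjective v
      simp [h5, hT, hg, mulVec_diagonal, mul_pow, sq (d _ : F), ← Units.val_mul, d1]
    · rw [jm, h6, hg, ← jm, jm_diagonal hp]
      simp [d2]
  · obtain ⟨T, w, hT⟩ := exists_orth_coords hQ h2 (κ := Fin m ⊕ Fin m) (by simp [hm])
    obtain ⟨Φ, h5, h6⟩ := exists_trGL T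
    have h7 : ∀ i : Fin m, ∃ s t : F, s ^ 2 + w (.inl i) / w (.inr i) * t ^ 2 = z := fun i => by
      obtain ⟨s, t, h⟩ := FiniteField.exists_root_sum_quadratic (f := X ^ 2 - C z)
        (g := C (w (.inl i) / w (.inr i) : F) * X ^ 2) (degree_X_pow_sub_C two_pos z)
        (degree_C_mul_X_pow 2 (by simp)) (FiniteField.odd_card_of_char_ne_two (ringChar_ne_two_of h2))
      exact ⟨s, t, by simp at h; linear_combination h⟩
    choose s t h7 using h7
    let A := fromBlocks (diagonal s) (diagonal t)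
      (diagonal fun i => w (.inl i) / w (.inr i) * t i) (diagonal fun i => -s i)
    have h3 : A ^ 2 = z • 1 := by
      rw [sq, fromBlocks_multiply, ← fromBlocks_one, fromBlocks_smul, smul_zero]
      simp only [diagonal_mul_diagonal, diagonal_add, ← diagonal_zero, smul_one_eq_diagonal]
      congr <;> ext i
      exacts [by linear_combination h7 i, by ring, by ring, by linear_combination h7 i]
    have h0 : z ≠ 0 := by rintro rfl; simp at hz
    obtain ⟨g, hg⟩ : IsUnit A :=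
      (isUnit_pow_iff two_ne_zero).1 (h3 ▸ (isUnit_iff_isUnit_det _).2 (by simp [h0]))
    refine ⟨Φ g, ⟨Units.mk0 z h0, fun v => ?_⟩, ?_⟩
    · obtain ⟨v, rfl⟩ := T.surjective v
      rw [h5, hT, hT, Fintype.sum_sum_type, Fintype.sum_sum_type, ← Finset.sum_add_distrib,
        ← Finset.sum_add_distrib, Finset.mul_sum]
      refine Finset.sum_congr rfl fun i _ => ?_
      simp only [hg, A, fromBlocks_mulVec, Sum.elim_inl, Sum.elim_inr, Pi.add_apply, mulVec_diagonal,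
        Function.comp_apply, Units.val_mk0, ← h7 i]
      field_simp
      ring
    · rw [pow_eq_smul_one_iff_mdiv, h6, ← pow_eq_smul_one_iff_mdiv, hg, h3]

omit h2 [Algebra.IsAlgebraic F K] in
theorem exists_of_quadSim {h : GL ι F} (hh : h ∈ Geo.quadSimilarityGroup Q) : ∃ l : Kˣ,
    l ^ (Fintype.card F : ℤ) = l ∧ sc l ((jm K h.1).map (tw (-1))) = jm K h.1 ∧
      (l = 1 → h ∈ isometryGroup F Q) := by
  obtain ⟨c, hc⟩ := hh
  refine ⟨_, fixed_iff.2 ⟨c, rfl⟩, sc_tw_of_sim hQ.polar_bilinear hQ.nondegenerate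
    (Asch.polar_mulVec hc), fun e => ?_⟩
  obtain rfl : c = 1 := Units.ext ((algebraMap F K).injective (by simpa using congrArg Units.val e))
  exact mem_isometryGroup.2 fun v => (hc v).trans (one_mul _)

theorem exists_quadSim_of_oC (ho : Odd (Fintype.card ι)) {J : Multiset (Kˣ × ℕ)}
    (h : Valid (Fintype.card F) (Fintype.card ι) J) (h' : OC J) :
    ∃ g ∈ Geo.quadSimilarityGroup Q, jm K g.1 = J := by
  obtain ⟨m, hm⟩ := ho
  obtain ⟨A, rfl⟩ := exists_O_jm h2 (hm ▸ h) h'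
  obtain ⟨c, hc, e, -, he⟩ := IsOS.exists_isometric_oddQF (isTF_of_quadratic _
    ((nd_iff _).1 (Max.nd_qfOf hQ))) (m := m) (by simpa using hm)
  obtain ⟨Φ, h3, h4⟩ := exists_trGL e.symm
  refine ⟨Φ A, ⟨1, fun v => mul_left_cancel₀ hc ?_⟩, by rw [jm, h4, jm]⟩
  obtain ⟨v, rfl⟩ := e.symm.surjective v
  rw [h3, Units.val_one, one_mul]
  exact (he _).symm.trans (Eq.trans (by
    simp [oddQF_apply, mem_isometryGroup.1 A.2 v]) (he _))

end O

section O

open Orth

variable {n : ℕ} {Q : (Fin n → F) → F} (hQ : Geo.IsNondegenerateQuadraticForm Q) (h2 : (2 : F) ≠ 0)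
include hQ h2

omit [IsAlgClosed K] [Algebra.IsAlgebraic F K] [Algebra F K] in
theorem exists_odd_of_orth (hq : IsQ Kˣ p (Fintype.card F)) (hn : n ≠ 0) (hr : r.Prime) (hrp : r ≠ p)
    (hΩ : r ∣ (Geo.quadSimilarityGroup Q).relIndex (Geo.specialLinear (Fin n) F)) :
    (∃ j, Odd j ∧ j ≤ n ∧ (r : ℤ) ∣ (Fintype.card F : ℤ) ^ j - 1) ∨ ∃ m ε, n = 2 * m ∧
      (ε = 1 ∨ ε = -1) ∧ (r : ℤ) ∣ (Fintype.card F : ℤ) ^ m + ε ∧
        (Fintype.card F : ℤ) * Nat.card {x // Q x = 0} = Fintype.card F ^ (2 * m) +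
          ε * Fintype.card F ^ m * (Fintype.card F - 1) := by
  have := NeZero.mk hn
  have hN := Max.nd_qfOf hQ
  have h0 := Fintype.card_pos (α := F)
  have h3 := Int.natCast_dvd_natCast.2 (mul_card_dvd_GL (H := Geo.quadSimilarityGroup Q)
    (isometryGroup F Q).subtype
    Subtype.val_injective (fun A => ⟨1, fun v => (mem_isometryGroup.1 A.2 v).trans (one_mul _).symm⟩)
    hΩ)
  rw [card_GL_eq F hn, Nat.card_congr (isoEquiv (Max.qfOf hQ) Q fun _ => rfl).toEquiv] at h3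
  obtain ⟨m, rfl | rfl⟩ := n.even_or_odd'
  swap
  · obtain ⟨e⟩ := Wr.nonempty_OG_equiv_odd hN (m := m) (by simp)
    rw [Nat.card_congr e.toEquiv, card_OG_oddQF h2, Nat.card_eq_fintype_card, Nat.cast_mul,
      Nat.cast_mul, cast_prod_sub_one h0, Finset.prod_range_succ] at h3
    refine Or.inl ((hq.dvd_or (m := m) hr hrp one_ne_zero (by
      simpa using (mul_dvd_mul_left _ (dvd_mul_left _ _)).trans h3)).elim
        (fun ⟨j, j1, j2, j3⟩ => ⟨j, j1, by omega, j3⟩) fun h => ⟨_, odd_two_mul_add_one m, le_rfl, h⟩)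
  obtain ⟨m, rfl⟩ := Nat.exists_eq_add_one_of_ne_zero (show m ≠ 0 by omega)
  obtain ⟨ε, h4, h5, h6⟩ : ∃ ε : ℤ, (ε = 1 ∨ ε = -1) ∧ ((Fintype.card F : ℤ) ^ (m + 1) - ε) *
      ∏ i ∈ Finset.range m, ((Fintype.card F : ℤ) ^ (2 * (i + 1)) - 1) ∣ Nat.card (OG (Max.qfOf hQ)) ∧
      (Fintype.card F : ℤ) * Nat.card {x // Q x = 0} = Fintype.card F ^ (2 * (m + 1)) +
        ε * Fintype.card F ^ (m + 1) * (Fintype.card F - 1) := by
    by_cases hp : QF.IsPlus (Max.qfOf hQ)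
    · obtain ⟨e, he⟩ := hN.exists_equiv_plusQF hp (m := m + 1) (by simp)
      refine ⟨1, Or.inl rfl, ?_, by
        simpa using! hN.card_singular_of_isPlus hp (m := m + 1) (by simp)⟩
      rw [card_OG_congr e he, card_OG_plusQF, Nat.card_eq_fintype_card, mul_assoc, Nat.cast_mul,
        Nat.cast_mul _ (Finset.prod _ _), cast_prod_sub_one h0, Nat.cast_pred (by positivity),
        Nat.cast_pow]
      exact dvd_mul_left _ _
    · obtain ⟨ζ, hζ⟩ := QF.exists_aniso (F := F)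
      obtain ⟨e, he⟩ := hN.exists_equiv_minusQF hp (k := m) (by simp; omega) hζ
      refine ⟨-1, Or.inr rfl, ?_, by
        simpa [sub_eq_add_neg] using! hN.card_singular_of_not_isPlus hp (m := m + 1) (by simp)⟩
      rw [card_OG_congr e he, card_OG_minusQF hζ, Nat.card_eq_fintype_card, mul_assoc, Nat.cast_mul,
        Nat.cast_mul _ (Finset.prod _ _), cast_prod_sub_one h0]
      simp
  have h7 : 1 < (Fintype.card F : ℤ) ^ (m + 1) :=
    one_lt_pow₀ (by exact_mod_cast Fintype.one_lt_card) (by omega)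
  rw [Nat.cast_mul, show Finset.range (2 * (m + 1)) = Finset.range (2 * m + 1 + 1) from rfl,
    Finset.prod_range_succ, Finset.prod_range_succ, mul_assoc (Finset.prod _ _),
    show (Fintype.card F : ℤ) ^ (2 * m + 1 + 1) - 1 = (Fintype.card F ^ (m + 1) - ε) *
      (Fintype.card F ^ (m + 1) + ε) by rcases h4 with rfl | rfl <;> ring, mul_left_comm
      (_ ^ (2 * m + 1) - 1)] at h3
  rcases hq.dvd_or hr hrp (by omega) ((mul_dvd_mul_left _ h5).trans h3) with ⟨j, j1, j2, j3⟩ | h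
  · exact Or.inl ⟨j, j1, by omega, j3⟩
  · exact ((Nat.prime_iff_prime_int.1 hr).dvd_or_dvd h).imp
      (fun h => ⟨_, odd_two_mul_add_one m, by omega, h⟩) fun h => ⟨_, ε, rfl, h4, h, h6⟩

theorem elu_orth_iff (hp : p.Prime) [CharP F p] [CharP K p] (hn : 3 ≤ n) (hr : r.Prime)
    (hr2 : r ≠ 2) (h6 : ¬ (n = 6 ∧ r = 3))
    (hΩ : r ∣ (Geo.quadSimilarityGroup Q).relIndex (Geo.specialLinear (Fin n) F)) :
    Elu r (Geo.quadSimilarityGroup Q) ↔
      (r = 3 ∨ r = 5) ∧ n = r ∧ padicValNat r (Fintype.card F - 1) = 1 := by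
  classical
  have := Fact.mk hr
  have hq := isQ_card F K hp
  have hr' := Nat.prime_iff_prime_int.1 hr
  have e0 : ((Fintype.card F : ℤ) - 1).natAbs = Fintype.card F - 1 := by
    have := Fintype.card_pos (α := F); omega
  have e1 : ∀ k, (r : ℤ) ^ k ∣ Fintype.card F - 1 ↔ k ≤ padicValNat r (Fintype.card F - 1) := fun k => by
    rw [← Nat.cast_pow, Int.natCast_dvd, padicValNat_dvd_iff_le hq.sub_one_pos.ne', e0]
  refine ⟨fun h => by_contra fun h1 => ?_, ?_⟩
  swap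
  · rintro ⟨h1, rfl, h3⟩
    have h4 := pow_one (n : ℤ) ▸ (e1 1).2 h3.ge
    refine (elu_iff (K := K) hp hr ?_).2 fun m hm => ?_
    · rintro rfl
      exact hq.not_dvd one_pos (by rwa [pow_one])
    rw [Fintype.card_fin] at hm
    obtain ⟨c, c1, c2⟩ := hm.twS_small hq h1 h4 (by rw [e1]; omega) (R := -1) (by simp)
    refine exists_of_sc ((scalars_le_sim hQ.polar_bilinear).trans (Asch.similarity_polar_le hQ h2))
      c1 (exists_quadSim_of_oC hQ h2 (by simpa using hr.odd_of_ne_two hr2)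
        (by simpa using (valid_ss.2 ⟨hm.card, hm.inv⟩).sc c1) ?_)
    rw [sc_ss]
    exact oC_of_odd (by rw [map_tw_ss, c2]) (Multiset.forall_mem_map_iff.2 fun _ _ _ => odd_one)
  by_cases hrp : r = p
  · subst hrp
    obtain ⟨h1, h3, h4, h5⟩ := uni_props (M := Kˣ) (Q := Fintype.card F) (n := n) (a := 2) hr
      one_lt_two hr.two_le (by omega)
    obtain ⟨g, hg, e⟩ := h.exists_jm hr (by simpa using h1) h3 h4 h5
    obtain ⟨l, -, l1, l2⟩ := exists_of_quadSim (K := K) hQ hg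
    rw [e] at l1
    have := (oC_jm (K := K) (Max.nd_qfOf hQ) (fun _ => rfl) h2 ⟨g, l2 (eq_one_of_uni l1)⟩).par 1 2
      (one_mul 1) even_two
    exact Nat.not_even_one (count_uni (M := Kˣ) one_lt_two ▸ e ▸ this)
  by_cases h3 : ¬ (r : ℤ) ∣ Fintype.card F - 1 →
    ∃ j, Odd j ∧ j ≤ n ∧ (r : ℤ) ∣ (Fintype.card F : ℤ) ^ j - 1
  · obtain ⟨m, h4, h5⟩ := hq.exists_not_twL_neg (n := n) hr hr2 hrp hn h6 (fun e1' e2 e3 =>
      (e1 2).2 (((e1 1).1 (by rwa [pow_one])).lt_of_ne fun e => h1 ⟨e2 ▸ e3, e2.symm, e.symm⟩)) h3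
    obtain ⟨g, hg, e⟩ := (elu_iff hp hr hrp).1 h m (by simpa using h4)
    exact h5 (twL_of_sim hQ.polar_bilinear hQ.nondegenerate (Asch.quadSimilarity_le_polar Q hg) e)
  rw [Classical.not_imp] at h3
  obtain ⟨m, ε, rfl, h4, h5, h7⟩ := (exists_odd_of_orth hQ h2 hq (by omega) hr hrp hΩ).resolve_left h3.2
  have h8 : (r : ℤ) ∣ (Fintype.card F : ℤ) ^ (2 * m) - 1 :=
    h5.trans ⟨Fintype.card F ^ m - ε, by rcases h4 with rfl | rfl <;> ring⟩
  obtain ⟨ζ, hζ, -⟩ := hq.exists_mu hr hrp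
  have e2 : ∀ k : ℤ, ζ ^ k = 1 ↔ (r : ℤ) ∣ k := fun k => by rw [← orderOf_dvd_iff_zpow_eq_one, hζ]
  have e3 : ζ ^ r = 1 := hζ ▸ pow_orderOf_eq_one ζ
  have e4 := zpow_eq_self_of_pow e3 h8
  have e5 : KB p (blk (Fintype.card F) (2 * m) ζ 1) r 1 := KB_blk e3 (by simp) (by simp)
  obtain ⟨g, hg, e⟩ := h.exists_jm hp (by simpa using valid_blk e4 one_pos)
    (by rw [jdet_blk, (e2 _).2 (prime_dvd_gs hr h3.1 h8), one_pow]) ⟨1, e5⟩ fun ⟨c, hc⟩ => h3.1 (by
      have := hc.fixed (valid_blk e4 one_pos).inv ((valid_blk e4 one_pos).ne_zero (by omega))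
      rwa [← (hc _ (self_mem_blk (by omega) ζ 1)).1, pow_one, zpow_eq_self_iff, e2] at this)
  obtain ⟨l, l0, l1, l2⟩ := exists_of_quadSim (K := K) hQ hg
  have h9 := mem_isometryGroup.1 (l2 (eq_one_of_prime hr (by
    have : (l * ζ ^ (-1 : ℤ), 1) ∈ jm K g.1 := l1 ▸ Multiset.mem_map_of_mem _
      (Multiset.mem_map_of_mem _ (e ▸ self_mem_blk (by omega) ζ 1))
    replace := (e5 _ (e ▸ this)).1
    simpa [mul_pow, e3] using this) (zpow_eq_self_iff.1 l0) h3.1))
  have h10 := isUnit_sub_one (K := K) g.isUnit fun x hx e6 => by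
    obtain ⟨i, -, rfl⟩ := mem_blk.1 (e ▸ hx)
    rw [hq.eq_one_of_zpow i e6, orderOf_one] at hζ
    exact hr.one_lt.ne hζ
  have h11 := card_singular_modEq (g := toLin' g.1) h9 (Max.qfOf hQ).map_zero hr (by
    rw [← toLin'_pow, (pow_eq_one_iff_KB p hp g.isUnit r).2 (e ▸ e5), toLin'_one]; rfl)
    fun x hx => mulVec_injective_iff_isUnit.2 h10 (by simpa [sub_mulVec, sub_eq_zero] using hx)
  have h12 := congrArg (Int.cast : ℤ → ZMod r) h7
  rw [← ZMod.intCast_zmod_eq_zero_iff_dvd] at h5 h8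
  simp only [← ZMod.intCast_zmod_eq_zero_iff_dvd] at h3
  push_cast at h12 h5 h8 h3
  have h13 := mt (ZMod.intCast_zmod_eq_zero_iff_dvd 2 r).1 (not_dvd_two hr hr2)
  refine h3.1 ((mul_eq_zero.1 ?_).resolve_left h13)
  rw [h11] at h12
  have h14 : (ε : ZMod r) * ε = 1 := by rcases h4 with rfl | rfl <;> simp
  push_cast
  linear_combination h12 + h8 + (Fintype.card F - 1 : ZMod r) * (ε * h5 - h14)

end O

end Cfsg.Agent.Class.Spec
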