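import Mathlib
import Cfsg.Agent.Class.Elus.SimF
import Cfsg.Agent.Class.Max.C3Lin

/-!
Elements of prime order of `PSL_n(q)` and normalisers of extension fields.
-/

set_option autoImplicit false

namespace Cfsg.Agent.Class.Spec

open Polynomial Cfsg Cfsg.Agent.KSG Matrix

section Comb

variable {M : Type*} [CommGroup M] {p n r d : ℕ} {Q : ℤ} {m : Multiset M}

/-- An element of order `r` with distinct non-trivial eigenvalues and the largest fixed space. -/
theorem IsQ.exists_adm_nodup (hQ : IsQ M p Q) (hr : r.Prime) (hr2 : r ≠ 2) (hrp : r ≠ p)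
    (hd : (r : ℤ) ∣ Q - 1 ∧ d = 2 ∨
      ¬ (r : ℤ) ∣ Q - 1 ∧ 0 < d ∧ ∀ k, (r : ℤ) ∣ Q ^ k - 1 ↔ d ∣ k) (hn : d ≤ n) :
    ∃ O : Multiset M, O.card = d ∧ O.Nodup ∧ 1 ∉ O ∧ (∀ α ∈ O, α ^ r = 1) ∧
      Adm Q n r (O + Multiset.replicate (n - d) 1) := by
  obtain ⟨ζ, hζ, -⟩ := hQ.exists_mu hr hrp
  have e0 : ζ ^ r = 1 := hζ ▸ pow_orderOf_eq_one ζ
  have e1 : ∀ k : ℤ, ζ ^ k = 1 ↔ (r : ℤ) ∣ k := fun k => by rw [← orderOf_dvd_iff_zpow_eq_one, hζ]
  have e2 : ζ ≠ 1 := by rintro rfl; exact hr.one_lt.ne (orderOf_one.symm.trans hζ)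
  have e4 : 1 < d := by
    rcases hd with ⟨-, rfl⟩ | ⟨h1, h2, h3⟩
    · exact one_lt_two
    · exact lt_of_le_of_ne h2 fun e => h1 (by simpa using (h3 1).2 (e ▸ dvd_rfl))
  suffices h : ∃ O : Multiset M, O.card = d ∧ O.Nodup ∧ 1 ∉ O ∧ (∀ α ∈ O, α ^ r = 1) ∧
      O.map (· ^ Q) = O ∧ O.prod = 1 ∧ ζ ∈ O by
    obtain ⟨O, h1, h2, h3, h4, h5, h6, h7⟩ := h
    refine ⟨O, h1, h2, h3, h4, by simp; omega, by simp [h5], by simp [h6], ⟨1, fun α hα => ?_⟩,
      fun ⟨c, hc⟩ => ?_⟩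
    · exact (Multiset.mem_add.1 hα).elim (h4 α) fun h => by simp [Multiset.eq_of_mem_replicate h]
    · obtain rfl : O = Multiset.replicate d ζ := Multiset.eq_replicate.2 ⟨h1, fun b hb =>
        (hc b (Multiset.mem_add.2 (Or.inl hb))).trans (hc ζ (Multiset.mem_add.2 (Or.inl h7))).symm⟩
      classical
      simpa [e4.not_ge] using Multiset.nodup_iff_count_le_one.1 h2 ζ
  rcases hd with ⟨h1, rfl⟩ | ⟨h1, h2, h3⟩
  · have := zpow_eq_self_of_pow e0 h1
    refine ⟨{ζ, ζ⁻¹}, rfl, ?_, by simp [e2, e2.symm], by simp [e0], by simp [this], by simp, by simp⟩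
    simpa [eq_inv_iff_mul_eq_one, ← sq] using fun e : ζ ^ 2 = 1 =>
      hr2 ((Nat.prime_dvd_prime_iff_eq hr Nat.prime_two).1 (hζ ▸ orderOf_dvd_of_pow_eq_one e))
  · have e3 : ζ ^ Q ^ d = ζ := zpow_eq_self_of_pow e0 ((h3 d).2 dvd_rfl)
    have hv := valid_blk e3 one_pos
    obtain ⟨d', -, -, h4, h5, -⟩ := hQ.exists_blk hv (self_mem_blk h2 ζ 1)
    obtain rfl : d = d' := Nat.dvd_antisymm (by rw [← h3, ← e1, ← zpow_eq_self_iff, h4]) ((h4 _).1 e3)
    have hs : blk Q d ζ 1 = ss ((Multiset.range d).map fun i => ζ ^ Q ^ i) := by simp [ss, blk]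
    have hd := jdet_blk (Q := Q) d 1 ζ
    rw [hs] at hv h5 hd
    refine ⟨_, by simp, h5.of_map _, fun h => ?_, fun α h => ?_, (valid_ss.1 hv).2, ?_,
      Multiset.mem_map.2 ⟨0, by simpa, by simp⟩⟩
    · obtain ⟨i, -, h⟩ := Multiset.mem_map.1 h
      exact e2 (hQ.eq_one_of_zpow i h)
    · obtain ⟨i, -, rfl⟩ := Multiset.mem_map.1 h
      rw [← zpow_natCast, ← _root_.zpow_mul, e1]; exact dvd_mul_left _ _
    · rw [← jdet_ss, hd, (e1 _).2 (prime_dvd_gs hr h1 ((h3 d).2 dvd_rfl)), one_pow]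

theorem IsQ.eq_of_nodup (hQ : IsQ M p Q) (hr : r.Prime) (hrp : r ≠ p) {m' : Multiset M}
    (h1 : m.card = r) (h2 : m.Nodup) (h3 : ∀ α ∈ m, α ^ r = 1) (h4 : m'.card = r) (h5 : m'.Nodup)
    (h6 : ∀ α ∈ m', α ^ r = 1) : m = m' := by
  obtain ⟨ζ, hζ, h⟩ := hQ.exists_mu hr hrp
  have := Nat.finite_of_card_ne_zero (α := Subgroup.zpowers ζ) (by simp [hζ, hr.ne_zero])
  have := Fintype.ofFinite (Subgroup.zpowers ζ)
  have key : ∀ m : Multiset M, m.card = r → m.Nodup → (∀ α ∈ m, α ^ r = 1) →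
      m = cos (Subgroup.zpowers ζ) 1 := fun m h1 h2 h3 =>
    Multiset.eq_of_le_of_card_le ((Multiset.le_iff_subset h2).2 fun α hα =>
      mem_cos.2 (by simpa [h] using h3 α hα)) (by rw [card_cos, Nat.card_zpowers, hζ, h1])
  rw [key m h1 h2 h3, key m' h4 h5 h6]

theorem Valid.eq_single {J : Multiset (M × ℕ)} (h : Valid Q n J) {x : M × ℕ} (hx : x ∈ J)
    (e : x.2 = n) : J = {x} := by
  obtain ⟨J, rfl⟩ := Multiset.exists_cons_of_mem hx
  have h1 := h.sum
  rw [Multiset.eq_zero_of_forall_notMem (s := J) fun y hy => by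
    have := h.pos y (Multiset.mem_cons_of_mem hy)
    have := Multiset.le_sum_of_mem (Multiset.mem_map_of_mem Prod.snd hy)
    simp at h1
    omega, Multiset.cons_zero]

theorem IsQ.exists_sc_two (hQ : IsQ M 2 Q) {J : Multiset (M × ℕ)} (h1 : Valid Q 2 J) (h2 : PK 2 J 2)
    (h3 : ¬ PK 2 J 1) : ∃ c, c ^ Q = c ∧ J = {(c, 2)} := by
  obtain ⟨-, h4, c, -, c2⟩ := hQ.exists_sc_uni h1 h2 h3
  obtain ⟨⟨α, a⟩, hx, h5⟩ : ∃ x ∈ J, x.2 ≠ 1 := by
    by_contra! h
    exact h3 ⟨c⁻¹, fun x hx => ⟨by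
      simpa using eq_inv_of_mul_eq_one_right (c2 _ (Multiset.mem_map_of_mem _ hx)), by simp [h x hx]⟩⟩
  obtain rfl : a = 2 := by have := h4 _ hx; have := h1.pos _ hx; omega
  obtain rfl := h1.eq_single hx rfl
  exact ⟨α, by simpa [tw] using h1.inv, rfl⟩

theorem IsQ.nodup_of_order (hQ : IsQ M p Q) (hr : r.Prime) (hr2 : r ≠ 2)
    (hd : ∀ k, (r : ℤ) ∣ Q ^ k - 1 ↔ r - 1 ∣ k) (h1 : m.card = r) (h2 : m.map (· ^ Q) = m)
    (h3 : ∀ α ∈ m, α ^ r = 1) (h4 : ¬ ∃ c, ∀ α ∈ m, α = c) : m.Nodup := by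
  have := Fact.mk hr
  have h0 := hr.two_le
  obtain ⟨α, hα, h5⟩ : ∃ α ∈ m, α ≠ 1 := by
    by_contra! h
    exact h4 ⟨1, h⟩
  obtain ⟨d, J, -, d1, d2, d3, -, d4⟩ := hQ.exists_blk (valid_ss.2 ⟨h1, h2⟩)
    (Multiset.mem_map_of_mem _ hα)
  obtain rfl : d = r - 1 := Nat.dvd_antisymm ((d1 _).1 (zpow_eq_self_of_pow (h3 α hα) ((hd _).2 dvd_rfl)))
    (by rw [← hd, ← orderOf_eq_prime (h3 α hα) h5, orderOf_dvd_iff_zpow_eq_one, ← zpow_eq_self_iff, d1])
  rw [show r - (r - 1) * 1 = 1 by omega] at d4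
  obtain ⟨β, a, hβ⟩ := d4.exists_mem one_pos
  obtain ⟨γ, h6, h7⟩ := Multiset.mem_map.1 (show (β, a) ∈ ss m from d3 ▸ Multiset.mem_add.2 (Or.inr hβ))
  obtain ⟨rfl, rfl⟩ := Prod.mk.inj h7
  obtain rfl := d4.eq_single hβ rfl
  obtain rfl : γ = 1 := eq_one_of_prime hr (h3 γ h6) (zpow_eq_self_iff.1 (by simpa [tw] using d4.inv))
    fun e => by
      have := Nat.le_of_dvd one_pos ((hd 1).1 (by simpa))
      omega
  refine Multiset.Nodup.of_map _ (show (ss m).Nodup from d3 ▸ ?_)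
  rw [add_comm, Multiset.singleton_add, Multiset.nodup_cons, and_iff_left d2]
  exact fun h => by
    obtain ⟨i, -, h⟩ := mem_blk.1 h
    exact h5 (hQ.eq_one_of_zpow i (congrArg Prod.fst h))

theorem exists_map_univ {α ι : Type*} [Fintype ι] {m : Multiset α} (h : Fintype.card ι = m.card) :
    ∃ β : ι → α, Finset.univ.val.map β = m := by
  classical
  exact ⟨(fun x : m.ToType => (x : α)) ∘ (Fintype.equivOfCardEq (by simpa) : ι ≃ m.ToType), by
    rw [← Multiset.map_map, Multiset.map_univ_val_equiv, Multiset.map_univ_coe]⟩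

theorem map_snd_univ {α β γ : Type*} [Fintype α] [Fintype β] (f : β → γ) :
    (Finset.univ.val.map fun x : α × β => f x.2) = Fintype.card α • Finset.univ.val.map f := by
  change (Finset.univ.val.bind fun a => Finset.univ.val.map (Prod.mk a)).map _ = _
  simp only [Multiset.map_bind, Multiset.map_map, Function.comp_def]
  rw [Multiset.bind, Multiset.map_const', Multiset.join, Multiset.sum_replicate]
  rfl

end Comb

variable {F K : Type*} [Field F] [Field K] [Algebra F K] {ι κ : Type} [Fintype ι] [DecidableEq ι]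
  [Fintype κ] [DecidableEq κ] {H : Subgroup (GL ι F)} {p r : ℕ}

theorem rank_sub_one_add [DecidableEq Kˣ] {A : Matrix ι ι F} (hA : IsUnit A) :
    (A - 1).rank + ((jm K A).map Prod.fst).count 1 = Fintype.card ι := by
  rw [← rank_aeval_add_sum_gdeg A (X - C 1), jm, jd, Multiset.map_bind, Multiset.count_bind]
  congr 1
  · simp
  refine congrArg _ (Multiset.map_congr rfl fun b hb => ?_)
  have h : 1 ∈ uroots K b ↔ X - C 1 ∣ b := by
    rw [mem_uroots (coeff_ne_of_mem_mdiv hA b hb), Units.val_one, ← map_one (algebraMap F K),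
      aeval_algebraMap_eq_zero_iff, coe_aeval_eq_eval, dvd_iff_isRoot, IsRoot]
  rw [dc_eq, Multiset.map_map, Function.comp_def, Multiset.map_id', Multiset.count_dedup]
  split_ifs with h1 <;> rw [h] at h1
  · rw [gdeg_of_dvd' h1, natDegree_X_sub_C]
  · rw [gdeg_of_isCoprime ((irreducible_X_sub_C 1).coprime_iff_not_dvd.2 h1)]

theorem exists_mulVec_eq_zero {A B : Matrix ι ι F} (h : A.rank + B.rank < Fintype.card ι) :
    ∃ v, v ≠ 0 ∧ A *ᵥ v = 0 ∧ B *ᵥ v = 0 := by
  have h1 := rank_add_finrank_ker A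
  have h2 := rank_add_finrank_ker B
  have h3 := Submodule.finrank_sup_add_finrank_inf_eq (LinearMap.ker (toLin' A))
    (LinearMap.ker (toLin' B))
  have h4 := (LinearMap.ker (toLin' A) ⊔ LinearMap.ker (toLin' B)).finrank_le
  rw [Module.finrank_fintype_fun_eq_card] at h4
  obtain ⟨v, h5, h6⟩ := Submodule.exists_mem_ne_zero_of_ne_bot
    (p := LinearMap.ker (toLin' A) ⊓ LinearMap.ker (toLin' B)) fun e => by
      rw [e, finrank_bot] at h3; omega
  exact ⟨v, h6, h5⟩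

section Ext

variable {E : Subalgebra F (Matrix ι ι F)} {d : ℕ} (hE : Geo.IsFieldSubalgebra d E) {g : GL ι F}

theorem mem_norm_of_commute (h : ∀ k ∈ E, g.1 * k = k * g.1) : g ∈ Geo.subalgebraNormalizer E :=
  have h1 : ∀ (k : E) v, Orth.glEquiv ι F g (k • v) = k • Orth.glEquiv ι F g v := fun k v => by
    simp [Orth.glEquiv_apply, Subalgebra.smul_def, h k k.2]
  (Max.mem_subalgebraNormalizer_iff E g).2 ⟨fun k => ⟨k, h1 k⟩, fun k => ⟨k, h1 k⟩⟩

theorem scalars_le_norm : Geo.scalars ι F ≤ Geo.subalgebraNormalizer E := fun g hg => by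
  obtain ⟨c, hc⟩ := (Geo.mem_scalars_iff g).1 hg
  exact mem_norm_of_commute (by simp [hc])

include hE

theorem eq_zero_of_mulVec {k : Matrix ι ι F} (hk : k ∈ E) {v : ι → F} (hv : v ≠ 0)
    (h : k *ᵥ v = 0) : k = 0 := by_contra fun e => by
  obtain ⟨y, hy, h1⟩ := hE.inv k hk e
  exact hv (by rw [← one_mulVec v, ← h1, hE.comm k hk y hy, ← mulVec_mulVec, h, mulVec_zero])

theorem commute_of_fix (hd : d.Prime) (hg : g ∈ Geo.subalgebraNormalizer E) {k : Matrix ι ι F}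
    (hk : k ∈ E) (h0 : ¬ ∃ c : F, k = c • 1) {v : ι → F} (hv : v ≠ 0) (h1 : (g.1 - 1) *ᵥ v = 0)
    (h2 : ((g.1 - 1) * k) *ᵥ v = 0) : ∀ x ∈ E, g.1 * x = x * g.1 := by
  have : Nonempty ι := by by_contra! h; exact hv (Subsingleton.elim _ _)
  have := (Max.isField_of hE).isDomain
  have := Subalgebra.isSimpleOrder_of_finrank_prime F E (hE.finrank_eq ▸ hd)
  have h3 := eq_zero_of_mulVec hE (E.sub_mem ((hg k).1 hk) hk) hv (by
    rw [sub_mulVec, one_mulVec, sub_eq_zero] at h1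
    rwa [sub_mulVec, ← h1, mulVec_mulVec, Units.inv_mul_cancel_right, h1, ← sub_mulVec,
      ← sub_one_mul])
  rw [sub_eq_zero, Units.mul_inv_eq_iff_eq_mul] at h3
  rcases eq_bot_or_eq_top ((Subalgebra.centralizer F {g.1}).comap E.val) with h | h
  · obtain ⟨c, hc⟩ := Algebra.mem_bot.1 (h.le (show ⟨k, hk⟩ ∈ _ by simpa [Subalgebra.mem_centralizer_iff]))
    exact absurd ⟨c, by simpa [Algebra.algebraMap_eq_smul_one] using congrArg Subtype.val hc.symm⟩ h0
  · exact fun x hx => by simpa [Subalgebra.mem_centralizer_iff] using h.ge (Algebra.mem_top (x := ⟨x, hx⟩))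

theorem eq_one_of_rank_le_one (hd : d.Prime) (hn : 2 < Fintype.card ι) :
    ∀ g ∈ Geo.subalgebraNormalizer E, (g.1 - 1).rank ≤ 1 → g = 1 := fun g hg h => by
  have := Fintype.card_pos_iff.1 (pos_of_gt hn)
  obtain ⟨k, hk, h0⟩ := Asch.IsFieldSubalgebra.exists_not_scalar hE hd.ne_one
  obtain ⟨v, hv, h1, h2⟩ := exists_mulVec_eq_zero (A := g.1 - 1) (B := (g.1 - 1) * k)
    (by have := rank_mul_le_left (g.1 - 1) k; omega)
  have h3 := commute_of_fix hE hd hg hk h0 hv h1 h2 k hk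
  obtain ⟨⟨u, u1⟩, hu⟩ :=
    (finrank_le_one_iff (K := F) (V := LinearMap.range (g.1 - 1).mulVecLin)).1 h
  refine Units.ext (sub_eq_zero.1 (ext_of_mulVec_single fun i => by_contra fun e => h0 ?_))
  obtain ⟨a, ha⟩ := hu ⟨_, Pi.single i 1, rfl⟩
  obtain ⟨b, hb⟩ := hu ⟨_, k *ᵥ Pi.single i 1, rfl⟩
  simp only [Subtype.ext_iff, SetLike.mk_smul_mk, mulVecLin_apply] at ha hb
  rw [zero_mulVec, Units.val_one, ← ha] at e
  have h4 := eq_zero_of_mulVec hE (E.sub_mem (E.smul_mem hk a) (E.smul_mem E.one_mem b))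
    (right_ne_zero_of_smul e) (by
      rw [sub_mulVec, smul_mulVec, ← mulVec_smul, ha, smul_mulVec, one_mulVec, hb, mulVec_mulVec,
        mulVec_mulVec, mul_sub, sub_mul, h3, mul_one, one_mul, sub_self])
  exact ⟨a⁻¹ * b, by rw [mul_smul, ← sub_eq_zero.1 h4, inv_smul_smul₀ (left_ne_zero_of_smul e)]⟩

theorem eq_one_of_rank (hd : d.Prime) (hn : Fintype.card ι = d) :
    ∀ g ∈ Geo.subalgebraNormalizer E, (g.1 - 1).rank ≤ d - 2 → g = 1 := fun g hg h => by
  have h1 := rank_add_finrank_ker (g.1 - 1)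
  have h2 := mt (finrank_le_one_iff (K := F) (V := LinearMap.ker (toLin' (g.1 - 1)))).2
    (by have := hd.two_le; omega)
  push Not at h2
  obtain ⟨⟨v, hv⟩, h3⟩ := h2 0
  obtain ⟨⟨w, hw⟩, h4⟩ := h2 ⟨v, hv⟩
  have h5 : v ≠ 0 := fun e => h3 0 (Subtype.ext (by simp [e]))
  have h6 := (LinearMap.injective_iff_surjective_of_finrank_eq_finrank
    (f := (LinearMap.toSpanSingleton _ _ v).restrictScalars F ∘ₗ E.val.toLinearMap)
    (by simp [hE.finrank_eq, hn])).1 ((injective_iff_map_eq_zero _).2 fun k hk =>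
      Subtype.ext (eq_zero_of_mulVec hE k.2 h5 hk))
  obtain ⟨k, rfl⟩ := h6 w
  have h7 := commute_of_fix hE hd hg k.2 (fun ⟨c, hc⟩ => h4 c (by simp [hc])) h5 hv
    (by simpa [sub_mul, sub_mulVec] using hw)
  refine Units.ext (sub_eq_zero.1 (ext_of_mulVec_single fun i => ?_))
  obtain ⟨x, hx⟩ := h6 (Pi.single i 1)
  have h8 : x.1 *ᵥ (g.1 - 1) *ᵥ v = 0 := by rw [show (g.1 - 1) *ᵥ v = 0 from hv, mulVec_zero]
  rw [← hx, zero_mulVec, ← h8]
  simp [mul_sub, sub_mul, h7 x x.2]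

theorem exists_frob [Finite F] [Nonempty ι] (hd : d ≠ 1) :
    ∃ g ∈ Geo.subalgebraNormalizer E, g ^ d = 1 ∧ ∀ c : F, g.1 ≠ c • 1 := by
  let _ := (Max.isField_of hE).toField
  have := Fintype.ofFinite F
  have : FiniteDimensional E (ι → F) := Module.Finite.of_finite
  let σ := FiniteField.frobeniusAlgEquivOfAlgebraic F E
  let e := (Module.finBasis E (ι → F)).equivFun
  let e' := e.restrictScalars F
  obtain ⟨g, hg⟩ := (Orth.glEquiv ι F).surjective
    ((e'.trans (LinearEquiv.piCongrRight fun _ => σ.toLinearEquiv)).trans e'.symm)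
  have h1 : ∀ v, Orth.glEquiv ι F g v = e.symm fun i => σ (e v i) := fun v => by rw [hg]; rfl
  have h2 : ∀ (k : E) v, Orth.glEquiv ι F g (k • v) = σ k • Orth.glEquiv ι F g v := fun k v => by
    rw [h1, h1, map_smul, ← map_smul e.symm]
    exact congrArg _ (funext fun i => map_mul σ _ _)
  have h3 : ∀ (j : ℕ) v, Orth.glEquiv ι F (g ^ j) v = e.symm fun i => (σ ^ j) (e v i) := fun j => by
    induction j with
    | zero => simp
    | succ j ih => simp only [pow_succ', map_mul, LinearEquiv.mul_apply, h1, ih]; simp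
  have h4 : orderOf σ = d := by
    rw [FiniteField.orderOf_frobeniusAlgEquivOfAlgebraic, hE.finrank_eq]
  refine ⟨g, (Max.mem_subalgebraNormalizer_iff E g).2 ⟨fun k => ⟨_, h2 k⟩,
    fun k => ⟨σ.symm k, by simp [h2]⟩⟩, (Orth.glEquiv ι F).injective (LinearEquiv.ext fun v => ?_),
    fun c hc => hd ?_⟩
  · rw [h3, ← h4, pow_orderOf_eq_one]; simp
  · rw [← h4, orderOf_eq_one_iff]
    refine AlgEquiv.ext fun k => smul_left_injective E ((Orth.glEquiv ι F g).map_ne_zero_iff.2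
      (one_ne_zero (α := ι → F))) ?_
    simp only [← h2]
    simp [Orth.glEquiv_apply, hc, smul_mulVec, smul_comm c]

theorem exists_diag [Finite F] [Nonempty ι] {m : ℕ} (hn : Fintype.card ι = d * m) (δ : Fin m → Fˣ) :
    ∃ g ∈ Geo.subalgebraNormalizer E,
      mdiv g.1 = mdiv (diagonal fun x : Fin d × Fin m => (δ x.2 : F)) := by
  let _ := (Max.isField_of hE).toField
  have : FiniteDimensional E (ι → F) := Module.Finite.of_finite
  have h1 := Module.finrank_mul_finrank F E (ι → F)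
  rw [hE.finrank_eq, Module.finrank_fintype_fun_eq_card, hn, mul_right_inj'
    (hE.finrank_eq ▸ Module.finrank_pos.ne')] at h1
  let b := Module.finBasisOfFinrankEq E _ h1
  let B := (Module.finBasisOfFinrankEq F E hE.finrank_eq).smulTower b
  obtain ⟨Φ, h2, h3⟩ := exists_trGL B.equivFun.symm
  obtain ⟨g, hg⟩ : IsUnit (diagonal fun x : Fin d × Fin m => (δ x.2 : F)) :=
    isUnit_diagonal.2 (Pi.isUnit_iff.2 (by simp))
  let s := b.constr ℕ fun j => (δ j : F) • b j
  have h4 : toLin' (Φ g).1 = s.restrictScalars F := B.ext fun x => by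
    have := h2 g (Pi.single x 1)
    rw [hg, diagonal_mulVec_single, ← smul_eq_mul, Pi.single_smul, map_smul] at this
    simpa [B, s, Pi.single_apply, smul_comm (δ x.2 : F)] using this
  refine ⟨Φ g, mem_norm_of_commute fun k hk => ext_iff_mulVec.2 fun v => ?_, by rw [h3, hg]⟩
  rw [← mulVec_mulVec, ← mulVec_mulVec, ← toLin'_apply, ← toLin'_apply (Φ g).1, h4]
  exact s.map_smul ⟨k, hk⟩ v

omit hE in
theorem exists_sq_of_two [Fintype F] [Nonempty ι] (hE : Geo.IsFieldSubalgebra 2 E)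
    (ho : Odd (Fintype.card F)) {z : F} (hz : z ≠ 0) :
    ∃ g ∈ Geo.subalgebraNormalizer E, g.1 ^ 2 = z • 1 := by
  let _ := (Max.isField_of hE).toField
  have := Fintype.ofFinite E
  have h1 : Fintype.card E = Fintype.card F ^ 2 := by
    rw [Module.card_eq_pow_finrank (K := F), hE.finrank_eq]
  obtain ⟨t, ht⟩ := ho
  obtain ⟨k, hk⟩ := (FiniteField.isSquare_iff (F := E) (fun e => by
    have := FiniteField.even_card_of_char_two e
    rw [h1, ht, show (2 * t + 1) ^ 2 = 1 + 2 * (2 * t * (t + 1)) by ring] at this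
    omega) ((_root_.map_ne_zero (algebraMap F E)).2 hz)).2 (by
      rw [h1, ← map_pow, ht, show (2 * t + 1) ^ 2 / 2 = (2 * t + 1 - 1) * (t + 1) by
        rw [show (2 * t + 1) ^ 2 = 1 + 2 * (2 * t * (t + 1)) by ring]; simp [Nat.add_mul_div_left],
        ← ht, pow_mul, FiniteField.pow_card_sub_one_eq_one z hz, one_pow, map_one])
  have h2 : k.1 ^ 2 = z • 1 := by
    simpa [sq, Algebra.algebraMap_eq_smul_one] using congrArg Subtype.val hk.symm
  obtain ⟨g, hg⟩ : IsUnit k.1 :=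
    (isUnit_pow_iff two_ne_zero).1 (h2 ▸ (isUnit_iff_isUnit_det _).2 (by simp [hz]))
  exact ⟨g, mem_norm_of_commute fun x hx => hg ▸ hE.comm _ k.2 x hx, hg ▸ h2⟩

end Ext

variable [Fintype F] [IsAlgClosed K]

theorem PK_one_of_rank [DecidableEq Kˣ] (hp : p.Prime) [CharP K p] {k : ℕ}
    (hH : ∀ g ∈ H, (g.1 - 1).rank ≤ k → g = 1) {J : Multiset (Kˣ × ℕ)} (h : ∃ g ∈ H, jm K g.1 = J)
    (hc : Fintype.card ι ≤ k + (J.map Prod.fst).count 1) : PK p J 1 := by
  obtain ⟨g, hg, rfl⟩ := h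
  have := rank_sub_one_add (K := K) g.isUnit
  exact (exists_smul_iff_PK p hp g.isUnit 1).1 ⟨1, by simp [hH g hg (by omega)]⟩

theorem Elu.not_char (h : Elu p H) (hp : p.Prime) [CharP F p] (hn : 2 ≤ Fintype.card ι)
    (hH : ∀ g ∈ H, (g.1 - 1).rank ≤ 1 → g = 1) : False := by
  classical
  let K := AlgebraicClosure F
  have := charP_of_injective_algebraMap (algebraMap F K).injective p
  obtain ⟨h1, h2, h3, h4⟩ := uni_props (M := Kˣ) (Q := Fintype.card F) hp one_lt_two hp.two_le hn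
  exact h4 (PK_one_of_rank hp hH (h.exists_jm hp h1 h2 h3 h4) (by simp [idb]; omega))

theorem add_count_lt (hp : p.Prime) [CharP K p] (h0 : Geo.scalars ι F ≤ H) {k : ℕ}
    (hH : ∀ g ∈ H, (g.1 - 1).rank ≤ k → g = 1) {m : Multiset Kˣ} (h : ∃ g ∈ H, jm K g.1 = ss m)
    (hm : ¬ ∃ c, ∀ α ∈ m, α = c) {c : Kˣ} (hc : c ^ (Fintype.card F : ℤ) = c) [DecidableEq Kˣ] :
    k + m.count c < Fintype.card ι := not_le.1 fun h1 => by
  obtain ⟨a, ha⟩ := PK_one_of_rank hp hH (exists_of_sc h0 hc (J := ss (m.map (c⁻¹ * ·))) (by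
    simpa [sc_ss] using h)) (by
      rwa [ss, Multiset.map_map, Function.comp_def, Multiset.map_id', ← inv_mul_cancel c,
        Multiset.count_map_eq_count' _ _ (mul_right_injective _)])
  exact hm ⟨c * a, fun α hα => by simp [← KB_ss.1 ha _ (Multiset.mem_map_of_mem _ hα)]⟩

theorem Elu.padic_le (h : Elu r H) (hp : p.Prime) [CharP F p] (hr : r.Prime) (hrp : r ≠ p)
    (hn : 2 ≤ Fintype.card ι) (h0 : Geo.scalars ι F ≤ H)
    (hH : ∀ g ∈ H, (g.1 - 1).rank ≤ 1 → g = 1) :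
    padicValNat r (Fintype.card F - 1) ≤ padicValNat r (Fintype.card ι) := not_lt.1 fun h4 => by
  classical
  let K := AlgebraicClosure F
  have := charP_of_injective_algebraMap (algebraMap F K).injective p
  have := Fintype.card_pos (α := F)
  obtain ⟨c, c1, c2⟩ := (isQ_card F K hp).exists_pow_order (n := Fintype.card ι) hr (by omega) (by
    rw [← Nat.cast_pow, ← Nat.cast_pred this, Int.natCast_dvd_natCast]
    exact (pow_dvd_pow r h4).trans pow_padicValNat_dvd)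
  obtain ⟨n, e⟩ := Nat.exists_eq_add_of_le' (show 1 ≤ Fintype.card ι by omega)
  have h5 : (c ^ Fintype.card ι)⁻¹ ≠ 1 := fun e => hr.one_lt.ne (by simp [← c2, inv_eq_one.1 e])
  have h7 := adm_two (r := r) (show 0 < n by omega) one_pos c1 (ζ := (c ^ Fintype.card ι)⁻¹)
    (by rw [_root_.inv_zpow, ← zpow_natCast, ← _root_.zpow_mul, mul_comm, _root_.zpow_mul, c1])
    (by rw [inv_pow, ← c2, pow_orderOf_eq_one, inv_one]) h5 (by simp [e])
  have := add_count_lt hp h0 hH ((elu_iff hp hr hrp).1 h _ (by rwa [← e] at h7)) h7.ne c1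
  simp at this
  omega

/-- Involutions when all of them have eigenspaces of even dimension. -/
theorem elu_two_of_even (hp : p.Prime) [CharP F p] (hp2 : p ≠ 2)
    (h0 : Geo.scalars ι F ≤ H) {m : ℕ} (hn : Fintype.card ι = 2 * m) (hm : m ≠ 0)
    (hv : padicValNat 2 (Fintype.card F - 1) ≤ padicValNat 2 (2 * m))
    (h1 : ∀ δ : Fin m → Fˣ, ∃ g ∈ H, mdiv g.1 = mdiv (diagonal fun x : Fin 2 × Fin m => (δ x.2 : F)))
    (h2 : ∀ z : F, ¬ IsSquare z → ∃ h ∈ H, h.1 ^ 2 = z • 1) : Elu 2 H := by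
  classical
  let K := AlgebraicClosure F
  have := charP_of_injective_algebraMap (algebraMap F K).injective p
  have hQ := isQ_card F K hp
  refine elu_two_of (K := K) hp hp2 h0 (fun c s h4 h5 h6 => ?_) fun _ => h2
  have h7 : ∀ α : Kˣ, α * α = 1 → α = 1 ∨ α = -1 := fun α h => by
    rwa [← Units.val_inj, Units.val_mul, Units.val_one, mul_self_eq_one_iff, Units.val_eq_one,
      Units.val_eq_neg_one] at h
  obtain ⟨a, b, rfl⟩ := Elus.eq_replicate_add_of_mem fun α hα => h7 α (h5 α hα)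
  have c1 := (fixed_iff (K := K)).2 ⟨c, rfl⟩
  generalize Units.map (algebraMap F K : F →* K) c = c at *
  simp only [Multiset.card_add, Multiset.card_replicate, hn, Multiset.prod_add,
    Multiset.prod_replicate, one_pow, one_mul] at h4 h6
  have h8 := zpow_eq_self_of_padic (α := c) (Q := (2 * m : ℕ) + 1) Nat.prime_two hQ.sub_one_pos.ne'
    (by simp; omega) (by simpa using zpow_eq_self_iff.1 c1) (by
      rw [_root_.zpow_add_one, mul_eq_right, zpow_natCast, pow_right_comm, eq_inv_of_mul_eq_one_left h6,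
        inv_pow, pow_right_comm]
      simp) (by
        rwa [add_sub_cancel_right, Int.natAbs_natCast, ← Nat.cast_pred Fintype.card_pos,
          Int.natAbs_natCast])
  rw [_root_.zpow_add_one, mul_eq_right, zpow_natCast] at h8
  rw [h8, one_mul, neg_one_pow_eq_one_iff_even fun e => hp2 ((Nat.prime_dvd_prime_iff_eq hp
    Nat.prime_two).1 ((CharP.cast_eq_zero_iff K p 2).1 (by
      have := congrArg Units.val e
      push_cast at this ⊢
      linear_combination -this)))] at h6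
  obtain ⟨b, rfl⟩ := h6
  obtain ⟨a, rfl⟩ : ∃ a', a = a' + a' := ⟨m - b, by omega⟩
  obtain ⟨δ, hδ⟩ : ∃ δ : Fin m → Fˣ,
      Finset.univ.val.map δ = Multiset.replicate a 1 + Multiset.replicate b (-1) :=
    exists_map_univ (by simp; omega)
  obtain ⟨g, hg, e⟩ := h1 δ
  refine ⟨g, hg, ?_⟩
  rw [jm, e, ← jm, jm_diagonal hp, map_snd_univ fun j => Units.map (algebraMap F K : F →* K) (δ j),
    ← Function.comp_def _ δ, ← Multiset.map_map, hδ, Fintype.card_fin, two_nsmul]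
  simp [Multiset.replicate_add, add_add_add_comm]


section Main

variable {E : Subalgebra F (Matrix ι ι F)} {d : ℕ} (hE : Geo.IsFieldSubalgebra d E)
  (hd : d.Prime) (hn : Fintype.card ι = d) (hp : p.Prime) [CharP F p]
include hE hd hn hp

theorem exists_frob_ss [CharP K p] (hdp : d ≠ p) (h : (d : ℤ) ∣ Fintype.card F - 1 ∨
    d ≠ 2 ∧ ∀ k, (d : ℤ) ∣ Fintype.card F ^ k - 1 ↔ d - 1 ∣ k) {m : Multiset Kˣ} (h1 : m.card = d)
    (h2 : m.Nodup) (h3 : ∀ α ∈ m, α ^ d = 1) :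
    ∃ g ∈ Geo.subalgebraNormalizer E, jm K g.1 = ss m := by
  classical
  have hQ := isQ_card F K hp
  have := Fintype.card_pos_iff.1 (hn ▸ hd.pos)
  obtain ⟨g, g1, g2, g3⟩ := exists_frob hE hd.ne_one
  have h4 := (pow_eq_one_iff_KB (K := K) p hp g.isUnit d).1 (congrArg Units.val g2)
  have h5 := valid_jm (K := K) g.isUnit
  have h6 := mt (exists_smul_iff_PK (K := K) p hp g.isUnit 1).2 (by simpa using g3)
  obtain ⟨s, e⟩ : ∃ s, jm K g.1 = ss s := ⟨_, PK.eq_ss ⟨1, h4⟩ hp.one_lt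
    (fun e => hdp ((Nat.prime_dvd_prime_iff_eq hp hd).1 e).symm) h5.pos⟩
  rw [e] at h4 h5 h6
  rw [KB_ss] at h4
  rw [hn, valid_ss] at h5
  have h7 : ¬ ∃ c, ∀ α ∈ s, α = c := fun ⟨c, hc⟩ => h6 ⟨c, KB_ss.2 (by simpa)⟩
  refine ⟨g, g1, e.trans (congrArg _ (hQ.eq_of_nodup hd hdp h5.1 ?_ h4 h1 h2 h3))⟩
  rcases h with h | ⟨h, h'⟩
  · refine Multiset.nodup_iff_count_le_one.2 fun α => by_contra fun h8 => ?_
    have := add_count_lt hp scalars_le_norm (eq_one_of_rank hE hd hn) ⟨g, g1, e⟩ h7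
      (zpow_eq_self_of_pow (h4 α (Multiset.count_pos.1 (by omega))) h)
    omega
  · exact hQ.nodup_of_order hd h h' h5.1 h5.2 h4 h7

theorem elu_singer_of (hdp : d ≠ p) (h2 : d ≠ 2) (h : orderOf (Fintype.card F : ZMod d) = d - 1) :
    Elu d (Geo.subalgebraNormalizer E) := by
  let K := AlgebraicClosure F
  have := charP_of_injective_algebraMap (algebraMap F K).injective p
  have hQ := isQ_card F K hp
  have h1 : ∀ k, (d : ℤ) ∣ Fintype.card F ^ k - 1 ↔ d - 1 ∣ k := fun k => by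
    rw [← h, orderOf_dvd_iff_pow_eq_one, ← ZMod.intCast_zmod_eq_zero_iff_dvd]; simp [sub_eq_zero]
  refine (elu_iff (K := K) hp hd hdp).2 fun m hm => ?_
  obtain ⟨c, c1, c2⟩ := hm.exists_sc hQ hd hdp (fun e => by
    have := Nat.le_of_dvd one_pos ((h1 1).1 (by simpa))
    have := hd.two_le
    omega) fun e => absurd e h2
  have h3 := valid_ss.1 (sc_ss c m ▸ (valid_ss.2 ⟨hm.card.trans hn, hm.inv⟩).sc c1)
  have h4 : ∀ α ∈ m.map (c * ·), α ^ d = 1 := by simpa using c2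
  exact exists_of_sc scalars_le_norm c1 (sc_ss c m ▸ exists_frob_ss hE hd hn hp hdp (.inr ⟨h2, h1⟩)
    h3.1 (hQ.nodup_of_order hd h2 h1 h3.1 h3.2 h4 fun ⟨a, ha⟩ => hm.ne ⟨c⁻¹ * a, fun α hα => by
      simp [← ha _ (Multiset.mem_map_of_mem _ hα)]⟩) h4)

theorem elu_singer_iff (hdp : d ≠ p) (h3 : 3 < d) :
    Elu d (Geo.subalgebraNormalizer E) ↔ orderOf (Fintype.card F : ZMod d) = d - 1 := by
  classical
  refine ⟨fun h => by_contra fun h1 => ?_, elu_singer_of hE hd hn hp hdp (by omega)⟩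
  have := Fact.mk hd
  let K := AlgebraicClosure F
  have := charP_of_injective_algebraMap (algebraMap F K).injective p
  have hQ := isQ_card F K hp
  have h2 := ZMod.orderOf_dvd_card_sub_one (a := (Fintype.card F : ZMod d)) fun e => by
    obtain ⟨a, -, ha⟩ := FiniteField.card F p
    rw [ha, ZMod.natCast_eq_zero_iff] at e
    exact hdp ((Nat.prime_dvd_prime_iff_eq hd hp).1 (hd.dvd_of_dvd_pow e))
  have h4 := Nat.le_of_dvd (by omega) h2
  obtain ⟨e, e1, e2⟩ : ∃ e, e + 2 ≤ d ∧ ((d : ℤ) ∣ Fintype.card F - 1 ∧ e = 2 ∨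
      ¬ (d : ℤ) ∣ Fintype.card F - 1 ∧ 0 < e ∧ ∀ k, (d : ℤ) ∣ Fintype.card F ^ k - 1 ↔ e ∣ k) := by
    by_cases h5 : (d : ℤ) ∣ Fintype.card F - 1
    · exact ⟨2, by omega, .inl ⟨h5, rfl⟩⟩
    · exact ⟨orderOf (Fintype.card F : ZMod d), by omega, .inr ⟨h5, Nat.pos_of_dvd_of_pos h2 (by omega),
        fun k => by
          rw [orderOf_dvd_iff_pow_eq_one, ← ZMod.intCast_zmod_eq_zero_iff_dvd]; simp [sub_eq_zero]⟩⟩
  obtain ⟨O, -, -, -, -, h5⟩ := hQ.exists_adm_nodup (n := Fintype.card ι) hd (by omega) hdp e2 (by omega)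
  have := add_count_lt hp scalars_le_norm (eq_one_of_rank hE hd hn) ((elu_iff hp hd hdp).1 h _ h5)
    h5.ne (c := 1) (by simp)
  simp at this
  omega

end Main

theorem elu_three_iff {E : Subalgebra F (Matrix (Fin 3) (Fin 3) F)} (hE : Geo.IsFieldSubalgebra 3 E)
    (hp : p.Prime) [CharP F p]
    (hΩ : 3 ∣ (Geo.subalgebraNormalizer E).relIndex (Geo.specialLinear (Fin 3) F)) :
    Elu 3 (Geo.subalgebraNormalizer E) ↔
      Fintype.card F % 9 = 4 ∨ Fintype.card F % 9 = 7 ∨ Fintype.card F % 9 = 8 := by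
  let K := AlgebraicClosure F
  have := charP_of_injective_algebraMap (algebraMap F K).injective p
  have hQ := isQ_card F K hp
  have h0 := eq_one_of_rank hE Nat.prime_three (Fintype.card_fin 3)
  have hq := Fintype.one_lt_card (α := F)
  by_cases h1 : 3 = p
  · subst h1
    have := hQ.dvd
    exact iff_of_false (fun h => h.not_char hp (by simp) h0) (by omega)
  by_cases h2 : Fintype.card F % 3 = 2
  · obtain ⟨g, g1, g2, g3⟩ := exists_frob hE (by norm_num)
    have h3 : g ∈ Geo.specialLinear (Fin 3) F := mem_specialLinear.2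
      (Elus.eq_one_of_pow_eq_one_of_coprime (r := 3) (Nat.prime_three.coprime_iff_not_dvd.2 (by omega))
        (by norm_num) (by rw [← det_pow, ← Units.val_pow_eq_pow_val, g2, Units.val_one, det_one]))
    have h4 := Int.natCast_dvd_natCast.2 (mul_card_dvd_of_relIndex (Subgroup.zpowers g).subtype
      Subtype.val_injective (fun s => Subgroup.zpowers_le.2 g1 s.2)
      (fun s => Subgroup.zpowers_le.2 h3 s.2) hΩ)
    rw [Nat.card_zpowers, orderOf_eq_prime g2 (by rintro rfl; exact g3 1 (by simp)),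
      card_SL_eq F (by norm_num), ← ZMod.intCast_zmod_eq_zero_iff_dvd] at h4
    simp only [oS, Finset.prod_range_succ] at h4
    push_cast at h4
    refine iff_of_true (elu_singer_of hE Nat.prime_three (by simp) hp h1 (by norm_num) ?_) ?_
    · rw [← ZMod.natCast_mod, h2]
      exact orderOf_eq_prime (p := 2) (by decide) (by decide)
    · rw [← ZMod.natCast_mod] at h4
      by_contra h5
      obtain h6 | h6 : Fintype.card F % 9 = 2 ∨ Fintype.card F % 9 = 5 := by omega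
      all_goals rw [h6] at h4; exact absurd h4 (by decide)
  have h3 : (3 : ℤ) ∣ Fintype.card F - 1 := by
    obtain ⟨a, -, ha⟩ := FiniteField.card F p
    have : ¬ 3 ∣ Fintype.card F := fun e => h1 ((Nat.prime_dvd_prime_iff_eq Nat.prime_three hp).1
      (Nat.prime_three.dvd_of_dvd_pow (ha ▸ e)))
    omega
  refine ⟨fun h => by_contra fun h4 => ?_, fun h => (elu_iff (K := K) hp Nat.prime_three h1).2
    fun m hm => ?_⟩
  · have := h.padic_le hp Nat.prime_three h1 (by simp) scalars_le_norm h0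
    have := (padicValNat_dvd_iff_le (p := 3) (n := 2) (a := Fintype.card F - 1) (by omega)).1 (by omega)
    simp at *
    omega
  · obtain ⟨c, c1, c2⟩ := hm.exists_sc hQ Nat.prime_three h1 (fun _ => by
      simpa using one_le_padicValNat_of_dvd hQ.sub_one_pos.ne' (Int.natCast_dvd.1 h3)) (by norm_num)
    obtain ⟨x, y, z, rfl⟩ := Multiset.card_eq_three.1 hm.card
    have h4 := hm.prod
    have h5 := hm.ne
    have h6 : c ^ 3 = 1 := by
      have h7 : c ^ (9 : ℤ) = 1 := by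
        have := congrArg Multiset.prod (Multiset.map_congr rfl c2)
        rw [Multiset.prod_map_pow, Multiset.prod_map_mul, Multiset.map_id', h4] at this
        simpa [← pow_three, ← pow_mul] using this
      rw [← orderOf_dvd_iff_pow_eq_one, ← Int.natCast_dvd_natCast]
      rw [zpow_eq_self_iff, ← orderOf_dvd_iff_zpow_eq_one] at c1
      rw [← orderOf_dvd_iff_zpow_eq_one] at h7
      obtain ⟨t, ht⟩ := h3
      have h8 : ¬ (3 : ℤ) ∣ t := by omega
      obtain ⟨a, b, e⟩ := (Int.prime_three.coprime_iff_not_dvd.2 h8)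
      rw [show ((3 : ℕ) : ℤ) = a * 9 + b * (3 * t) by linear_combination -3 * e, ← ht]
      exact dvd_add (h7.mul_left _) (c1.mul_left _)
    simp only [mul_pow, h6, one_mul] at c2
    refine exists_frob_ss hE Nat.prime_three (by simp) hp h1 (.inl h3) rfl ?_ c2
    have key : ∀ x y : Kˣ, x ^ 3 = 1 → x * (x * y) = 1 → y = x := fun x y h1 h2 =>
      mul_left_cancel (mul_left_cancel (h2.trans (h1.symm.trans (pow_three x))))
    simp only [Multiset.insert_eq_cons, Multiset.mem_cons, Multiset.mem_singleton, forall_eq_or_imp,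
      forall_eq, Multiset.prod_cons, Multiset.prod_singleton, Multiset.nodup_cons,
      Multiset.nodup_singleton, and_true, not_or] at *
    refine ⟨⟨?_, ?_⟩, ?_⟩ <;> rintro rfl
    · exact h5 ⟨x, rfl, rfl, key _ _ c2.1 h4⟩
    · exact h5 ⟨x, rfl, key _ _ c2.1 (by rwa [mul_comm x y]), rfl⟩
    · exact h5 ⟨y, key _ _ c2.2.1 (by rwa [mul_comm, mul_assoc] at h4), rfl, rfl⟩

theorem elu_two_ext_iff {n m : ℕ} {E : Subalgebra F (Matrix (Fin n) (Fin n) F)}
    (hE : Geo.IsFieldSubalgebra 2 E) (hp : p.Prime) [CharP F p] (hn : Fintype.card (Fin n) = 2 * m)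
    (hm : m ≠ 0) :
    Elu 2 (Geo.subalgebraNormalizer E) ↔ m = 1 ∨
      Odd (Fintype.card F) ∧ padicValNat 2 (Fintype.card F - 1) ≤ padicValNat 2 (2 * m) := by
  let K := AlgebraicClosure F
  have := charP_of_injective_algebraMap (algebraMap F K).injective p
  have hQ := isQ_card F K hp
  have := Fintype.card_pos_iff.1 (show 0 < Fintype.card (Fin n) by omega)
  have h0 : Odd (Fintype.card F) ↔ p ≠ 2 := ⟨fun h e => by
    subst e
    exact Int.not_even_iff_odd.2 (Int.odd_coe_nat _ |>.2 h) (even_iff_two_dvd.2 hQ.dvd),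
    fun h => by simpa using hQ.odd h⟩
  have h1 : p ≠ 2 → ∀ z : F, ¬ IsSquare z → _ := fun h z hz =>
    exists_sq_of_two hE (h0.2 h) (z := z) (by rintro rfl; simp at hz)
  rcases eq_or_ne m 1 with rfl | h2
  · refine iff_of_true ?_ (.inl rfl)
    rcases eq_or_ne p 2 with rfl | h2
    · refine elu_of (K := K) hp fun J j1 _ j2 j3 => ?_
      obtain ⟨g, g1, g2, g3⟩ := exists_frob hE (by norm_num)
      obtain ⟨c, c1, rfl⟩ := hQ.exists_sc_two (j1.cast hn) j2 j3
      obtain ⟨a, a1, a2⟩ := hQ.exists_sc_two ((valid_jm g.isUnit).cast hn)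
        ((exists_smul_iff_PK 2 hp g.isUnit 2).1 ⟨1, by simpa using congrArg Units.val g2⟩)
        (mt (exists_smul_iff_PK 2 hp g.isUnit 1).2 (by simpa using g3))
      exact ⟨exists_of_sc scalars_le_norm (c := a / c) (by rw [div_zpow, a1, c1])
        ⟨g, g1, by simp [a2, sc]⟩, (c, 2), by simp, exists_eq_pow_char hp (.inr rfl)⟩
    · refine elu_two_of (K := K) hp h2 scalars_le_norm (fun _ s s1 s2 _ => ?_) fun _ => h1 h2
      obtain ⟨x, y, rfl⟩ := Multiset.card_eq_two.1 (s1.trans hn)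
      have h3 := ((hQ.odd h2).sub_odd odd_one).two_dvd
      rcases eq_or_ne x y with rfl | h4
      · refine exists_of_sc scalars_le_norm (c := x) (zpow_eq_self_of_pow (r := 2)
          (by simpa [sq] using s2) h3) ⟨1, one_mem _, ?_⟩
        simpa [sc_ss, hn, s2 x] using jm_diagonal (F := F) (K := K) hp fun _ : Fin n => 1
      · exact exists_frob_ss hE Nat.prime_two hn hp h2.symm (.inl h3) rfl (by simpa)
          (by simpa only [sq] using s2)
  · have h3 := eq_one_of_rank_le_one hE Nat.prime_two (by omega)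
    rw [or_iff_right h2, h0]
    refine ⟨fun h => ?_, fun h => elu_two_of_even hp h.1 scalars_le_norm hn hm h.2
      (exists_diag hE hn) (h1 h.1)⟩
    have h4 : p ≠ 2 := by rintro rfl; exact h.not_char hp (by omega) h3
    exact ⟨h4, hn ▸ h.padic_le hp Nat.prime_two h4.symm (by omega) scalars_le_norm h3⟩

end Cfsg.Agent.Class.Spec
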