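import Cfsg.Agent.Class.Elus.Unit

/-!
# Unitary groups: pairs of complementary totally isotropic subspaces
-/

set_option autoImplicit false

namespace Cfsg.Agent.Class.Elus

open Polynomial Module Wall
open Cfsg.Agent.KSG (Sim IsPP elemDiv cycFac)

theorem relIndex_mul_card_dvd {G S : Type*} [Group G] [Group S] [Finite G] (H N : Subgroup G)
    [N.Normal] (φ : S →* G) (hφ : Function.Injective φ) (h : ∀ s, φ s ∈ H) :
    H.relIndex N * Nat.card S ∣ Nat.card G := by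
  refine (Nat.mul_dvd_mul_left _ (Subgroup.card_dvd_of_injective (φ.codRestrict H h)
    fun a b e => hφ (congrArg Subtype.val e))).trans ?_
  rw [← N.index_mul_card, ← (H.subgroupOf N).index_mul_card, ← (N.subgroupOf H).index_mul_card,
    mul_left_comm, ← Subgroup.inf_subgroupOf_right H N, ← Subgroup.inf_subgroupOf_left N H,
    Nat.card_congr (Subgroup.subgroupOfEquivOfLe inf_le_right).toEquiv,
    Nat.card_congr (Subgroup.subgroupOfEquivOfLe inf_le_left).toEquiv]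
  rw [Subgroup.inf_subgroupOf_right, Subgroup.inf_subgroupOf_left]
  exact Nat.mul_dvd_mul (Subgroup.relIndex_dvd_index_of_normal N H) dvd_rfl

variable {F V V₁ : Type*} [Field F] [AddCommGroup V] [Module F V] [AddCommGroup V₁] [Module F V₁]

section Gen

variable {σ : F →+* F} {B : V →ₛₗ[σ] V →ₗ[F] F} {g : End F V}

/-- The map `x ↦ x + c B(v, x) v`. -/
def rk1 (B : V →ₛₗ[σ] V →ₗ[F] F) (c : F) (v : V) : End F V := 1 + c • (B v).smulRight v

theorem rk1_apply (c : F) (v x : V) : rk1 B c v x = x + (c * B v x) • v := by simp [rk1, mul_smul]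

theorem rk1_mul (a c : F) (v : V) : rk1 B a v * rk1 B c v = rk1 B (a + c + a * c * B v v) v :=
  LinearMap.ext fun x => by
    simp only [End.mul_apply, rk1_apply, map_add, map_smul]
    module

theorem rk1_zero (v : V) : rk1 B 0 v = 1 := by simp [rk1]

theorem rk1_pow {v : V} (hv : B v v = 0) (c : F) (k : ℕ) : rk1 B c v ^ k = rk1 B (k * c) v := by
  induction k with
  | zero => simp [rk1_zero]
  | succ k ih => rw [pow_succ, ih, rk1_mul, hv]; congr 1; push_cast; ring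

theorem exists_ker_of_two_le (U : Submodule F V) (hU : 2 ≤ finrank F U) (f : V →ₗ[F] F) :
    ∃ u ∈ U, u ≠ 0 ∧ f u = 0 := by
  have : FiniteDimensional F U := Module.finite_of_finrank_pos (by omega)
  obtain ⟨u, h1, h2⟩ := Submodule.exists_mem_ne_zero_of_ne_bot
    (LinearMap.ker_ne_bot_of_finrank_lt (f := f ∘ₗ U.subtype) (by simp; omega))
  exact ⟨u, u.2, fun e => h2 (Subtype.ext e), h1⟩

/-- `g` stabilises a pair of complementary totally isotropic subspaces of dimension `d`. -/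
def LagU (B : V →ₛₗ[σ] V →ₗ[F] F) (d : ℕ) (g : End F V) : Prop :=
  ∃ U W : Submodule F V, IsCompl U W ∧ finrank F U = d ∧ (∀ u ∈ U, ∀ v ∈ U, B u v = 0) ∧
    (∀ u ∈ W, ∀ v ∈ W, B u v = 0) ∧ (Inv g U ∧ Inv g W ∨ (∀ u ∈ U, g u ∈ W) ∧ ∀ u ∈ W, g u ∈ U)

theorem LagU.smul {d : ℕ} (g : End F V) (z : F) (h : LagU B d g) : LagU B d (z • g) := by
  obtain ⟨U, W, a1, a2, a3, a4, a5⟩ := h
  exact ⟨U, W, a1, a2, a3, a4, a5.imp (And.imp (·.smul z) (·.smul z)) (And.imp
    (fun h u hu => W.smul_mem z (h u hu)) fun h u hu => U.smul_mem z (h u hu))⟩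

theorem not_lagU_rk1 (h : Nd σ B) {d : ℕ} (hd : 2 ≤ d) {c : F} (hc : c ≠ 0) {v : V} (hv : v ≠ 0) :
    ¬ LagU B d (rk1 B c v) := by
  rintro ⟨U, W, a1, a2, a3, a4, a5 | a5⟩
  · have key : ∀ {U : Submodule F V}, (∀ u ∈ U, ∀ v ∈ U, B u v = 0) → Inv (rk1 B c v) U →
        ∀ u ∈ U, B v u = 0 := fun {U} h1 h2 u hu => by_contra fun e => e (h1 v (by
      have := U.sub_mem (h2 u hu) hu
      rwa [rk1_apply, add_sub_cancel_left, U.smul_mem_iff (mul_ne_zero hc e)] at this) u hu)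
    refine hv (h.left v fun y => ?_)
    obtain ⟨a, ha, b, hb, rfl⟩ := Submodule.mem_sup.1 (a1.sup_eq_top.ge (Submodule.mem_top (x := y)))
    rw [map_add, key a3 a5.1 a ha, key a4 a5.2 b hb, add_zero]
  · obtain ⟨u, b1, b2, b3⟩ := exists_ker_of_two_le U (by omega) (B v)
    exact b2 (a1.inf_eq_bot.le ⟨b1, by simpa [rk1_apply, b3] using a5.1 u b1⟩)

theorem LagU.exists_inv {d r : ℕ} (h : LagU B d g) (hr : Odd r) (hg : g ^ r = 1) :
    ∃ U : Submodule F V, (finrank F U = d ∧ ∀ u ∈ U, ∀ v ∈ U, B u v = 0) ∧ Inv g U := by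
  obtain ⟨U, W, -, a2, a3, -, a5 | a5⟩ := h
  · exact ⟨U, ⟨a2, a3⟩, a5.1⟩
  obtain ⟨k, rfl⟩ := hr
  have h1 : ∀ j, Inv ((g * g) ^ j) U := fun j => by
    induction j with
    | zero => exact fun _ => id
    | succ j ih => exact fun u hu => pow_succ' (g * g) j ▸ a5.2 _ (a5.1 _ (ih u hu))
  refine ⟨U, ⟨a2, a3⟩, ?_⟩
  have := h1 (k + 1)
  rwa [← sq, ← pow_mul, mul_add, pow_succ, hg, one_mul] at this

theorem rk1_ne_smul [FiniteDimensional F V] (h : Nd σ B) (hn : 2 ≤ finrank F V) {c : F} (hc : c ≠ 0)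
    {v : V} (hv : v ≠ 0) (z : F) : rk1 B c v ≠ z • 1 := fun e => by
  obtain ⟨u, -, b2, b3⟩ := exists_ker_of_two_le ⊤ (by simpa using hn) (B v)
  have h1 := LinearMap.congr_fun e u
  simp only [rk1_apply, b3, mul_zero, zero_smul, add_zero, LinearMap.smul_apply, End.one_apply] at h1
  obtain rfl : 1 = z := smul_left_injective F b2 ((one_smul F u).trans h1)
  exact hv (h.left v fun y => by simpa [rk1_apply, hc, hv] using LinearMap.congr_fun e y)

end Gen

variable {q : ℕ} [U.UF F q] {B : V →ₛₗ[U.conj F q] V →ₗ[F] F} {Q : V → F} {g : End F V} {r d : ℕ}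

theorem IsUS.pres_rk1 (h : IsUS q B Q) {c : F} {v : V}
    (hc : c + U.conj F q c + c * U.conj F q c * B v v = 0) : Pres B Q (rk1 B c v) :=
  IsUS.pres h fun x y => by
    simp only [rk1_apply, map_add, map_smulₛₗ, LinearMap.add_apply, LinearMap.smul_apply, map_mul,
      smul_eq_mul, RingHom.id_apply, h.symm v x, one_mul]
    linear_combination U.conj F q (B v x) * B v y * hc

variable [FiniteDimensional F V] [FiniteDimensional F V₁]

theorem IsUS.exists_levi (h : IsUS q B Q) {A W : Submodule F V} (hc : IsCompl A W)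
    (hU : ∀ u ∈ A, ∀ v ∈ A, B u v = 0) (hW : ∀ u ∈ W, ∀ v ∈ W, B u v = 0)
    (dU : finrank F A = finrank F V₁) (dW : finrank F W = finrank F V₁) :
    ∃ φ : (V₁ ≃ₗ[F] V₁) →* Isom B Q, Function.Injective φ ∧ ∀ f, Inv (φ f).1.toLinearMap A ∧
      Inv (φ f).1.toLinearMap W ∧ elemDiv (φ f).1.toLinearMap =
        (elemDiv f.toLinearMap).map (dual (U.conj F q)) + elemDiv f.toLinearMap := by
  let a : V₁ ≃ₗ[F] A := LinearEquiv.ofFinrankEq _ _ dU.symm
  let b : V₁ ≃ₗ[F] W := LinearEquiv.ofFinrankEq _ _ dW.symm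
  let B₀ := (B.comp (A.subtype ∘ₗ a.toLinearMap)).compl₂ (W.subtype ∘ₗ b.toLinearMap)
  have hB : ∀ x y, B₀ x y = B (a x) (b y) := fun _ _ => rfl
  have dec : ∀ y, ∃ s t, y = (a s : V) + b t := fun y => by
    obtain ⟨s, hs, t, ht, rfl⟩ := Submodule.mem_sup.1 (hc.sup_eq_top.ge (Submodule.mem_top (x := y)))
    exact ⟨a.symm ⟨s, hs⟩, b.symm ⟨t, ht⟩, by simp⟩
  have h₀ : Nd (U.conj F q) B₀ := ⟨h.invol, fun x hx => a.map_eq_zero_iff.1 (Subtype.ext
    (h.left _ fun y => by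
      obtain ⟨s, t, rfl⟩ := dec y
      rw [map_add, hU _ (a x).2 _ (a s).2, ← hB, hx, add_zero])),
    fun x hx => b.map_eq_zero_iff.1 (Subtype.ext (h.right _ fun y => by
      obtain ⟨s, t, rfl⟩ := dec y
      rw [map_add, LinearMap.add_apply, hW _ (b t).2 _ (b x).2, ← hB, hx, add_zero]))⟩
  have h₁ := fType_u.isTF_hypB h₀
  let e := (a.prodCongr b).trans (A.prodEquivOfIsCompl W hc)
  have he : ∀ x, e x = a x.1 + b x.2 := fun _ => rfl
  have e1 : ∀ x y, B (e x) (e y) = hypB 1 h₀ x y := fun x y => by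
    simp [he, hypB_apply, hU _ (a x.1).2 _ (a y.1).2, hW _ (b x.2).2 _ (b y.2).2, hB,
      h.symm (a y.1) (b x.2)]
  have hk : ∀ f : V₁ ≃ₗ[F] V₁, f.toLinearMap * f.symm.toLinearMap = 1 := fun f => by ext; simp
  let φ : (V₁ ≃ₗ[F] V₁) →* Isom (hypB 1 h₀) _ := MonoidHom.mk'
    (fun f => (pres_hypB (π := trU F q) h₀ (hk f)).toIsom h₁.toNd) fun f f' =>
      Subtype.ext (LinearEquiv.ext fun x => Prod.ext
        (LinearMap.congr_fun (h₀.isAnti_adj.mul f'.symm.toLinearMap f.symm.toLinearMap) x.1) rfl)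
  let ψ := Isom.congr (Q' := Q) (Q := fun x => trU F q (B₀ x.1 x.2)) e e1
    fun x => (congrFun (IsUS.eq h) _).trans ((e1 x x).trans (congrFun (IsUS.eq h₁) x).symm)
  have key : ∀ f x, (ψ (φ f)).1 (e x) = e (h₀.adj f.symm.toLinearMap x.1, f x.2) := fun f x => by
    simp only [ψ, Isom.congr_apply, LinearEquiv.symm_apply_apply]; rfl
  refine ⟨ψ.toMonoidHom.comp φ, ψ.injective.comp fun f f' hf => LinearEquiv.ext fun x =>
    congrArg (fun k : Isom (hypB 1 h₀) _ => (k.1 (0, x)).2) hf, fun f => ⟨fun u hu => ?_,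
      fun u hu => ?_, ?_⟩⟩
  · have := key f (a.symm ⟨u, hu⟩, 0)
    simp only [he, map_zero, LinearEquiv.apply_symm_apply, ZeroMemClass.coe_zero, add_zero] at this
    exact this ▸ Subtype.prop _
  · have := key f (0, b.symm ⟨u, hu⟩)
    simp only [he, map_zero, LinearEquiv.apply_symm_apply, ZeroMemClass.coe_zero, zero_add] at this
    exact this ▸ Subtype.prop _
  · rw [← h₀.elemDiv_adj (hk f), ← elemDiv_prodMap]
    exact (Sim.elemDiv_eq ⟨e, fun x => (key f x).symm⟩).symm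

/-- A conjugate of `g` under the special unitary group fixes `A` and `W`. -/
def ConjInto (B : V →ₛₗ[U.conj F q] V →ₗ[F] F) (Q : V → F) (A W : Submodule F V) (g : End F V) : Prop :=
  ∃ e : Isom B Q, LinearMap.det e.1.toLinearMap = 1 ∧
    Inv (e.1.symm.toLinearMap * g * e.1.toLinearMap) A ∧ Inv (e.1.symm.toLinearMap * g * e.1.toLinearMap) W

theorem IsUS.exists_conj_of_pt (h : IsUS q B Q) {A W : Submodule F V} (hc : IsCompl A W)
    (hU : ∀ u ∈ A, ∀ v ∈ A, B u v = 0) (hW : ∀ u ∈ W, ∀ v ∈ W, B u v = 0) (hd : d ≠ 0)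
    (dU : finrank F A = d) (dW : finrank F W = d) (hg : Pres B Q g)
    (H : PT (dual (U.conj F q)) natDegree d (elemDiv g)) : ConjInto B Q A W g := by
  obtain ⟨φ, -, hφ⟩ := IsUS.exists_levi (V₁ := Fin d → F) h hc hU hW (by simpa) (by simpa)
  have hn := Submodule.finrank_add_eq_of_isCompl hc
  have key : ∀ ν : Multiset F[X], (∀ b ∈ ν, IsPP b) → (∀ b ∈ ν, ¬ X ∣ b) →
      (ν.map natDegree).sum = d → ∃ f : (Fin d → F) ≃ₗ[F] (Fin d → F), elemDiv f.toLinearMap = ν :=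
    fun ν h1 h2 h3 => by
      obtain ⟨f, rfl⟩ := KSG.exists_elemDiv_eq (V := Fin d → F) h1 (by simpa)
      exact ⟨.ofBijective f ((End.isUnit_iff _).1 ((KSG.isUnit_iff_elemDiv f).2 h2)), rfl⟩
  obtain ⟨ν, a1, a2⟩ := H
  obtain ⟨t, e⟩ := Multiset.le_iff_exists_add.1 a1
  have hX : ∀ b ∈ ν, ¬ X ∣ b := fun b hb =>
    (KSG.isUnit_iff_elemDiv g).1 (hg.isUnit h.toNd) b (by simp [e, hb])
  obtain ⟨f, rfl⟩ := key ν (fun b hb => KSG.isPP_of_mem_elemDiv (f := g) (by simp [e, hb])) hX a2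
  rw [← (hφ f).2.2] at e
  have a4 := KSG.finrank_eq_sum_elemDiv g
  rw [e, Multiset.map_add, Multiset.sum_add, ← KSG.finrank_eq_sum_elemDiv, left_eq_add] at a4
  rw [Multiset.eq_zero_of_forall_notMem (s := t) fun b hb =>
    (KSG.isPP_of_mem_elemDiv (f := g) (by simp [e, hb])).natDegree_pos.ne'
      (Multiset.sum_eq_zero_iff.1 a4 _ (Multiset.mem_map_of_mem _ hb)), add_zero] at e
  obtain ⟨c, c1, c2, c3⟩ := IsUS.simCl h (pres_isom (φ f)) g hg e.symm
  obtain ⟨s, s1, s2⟩ := U.exists_conj_div_eq (e := LinearMap.det c.toLinearMap)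
    ((U.mul_conj_eq_pow _).trans (IsUS.norm_det h ⟨c1, c2⟩))
  obtain ⟨f₀, h₀⟩ := key ({X - C s} + Multiset.replicate (d - 1) (X - C 1))
    (fun b hb => (Multiset.mem_add.1 hb).elim (fun e => Multiset.mem_singleton.1 e ▸ KSG.isPP_X_sub_C s)
      fun e => Multiset.eq_of_mem_replicate e ▸ KSG.isPP_X_sub_C 1)
    (fun b hb => (Multiset.mem_add.1 hb).elim (fun e => by simp [Multiset.mem_singleton.1 e, X_dvd_iff, s1])
      fun e => by simp [Multiset.eq_of_mem_replicate e, X_dvd_iff]) (by simp [-map_one]; omega)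
  obtain ⟨c', rfl⟩ : ∃ c' : Isom B Q, c'.1 = c := ⟨⟨c, c1, c2⟩, rfl⟩
  have h2 : ((c' * φ f₀).1.symm.toLinearMap * g * (c' * φ f₀).1.toLinearMap : End F V) =
      (φ (f₀⁻¹ * f * f₀)).1.toLinearMap := by
    refine LinearMap.ext fun v => (c' * φ f₀).1.symm_apply_eq.2 ?_
    have : c' * φ f₀ * φ (f₀⁻¹ * f * f₀) = c' * φ f * φ f₀ := by simp [mul_assoc]
    exact (c3 _).symm.trans (congrArg (fun k : Isom B Q => k.1 v) this.symm)
  refine ⟨c' * φ f₀, ?_, h2 ▸ (hφ _).1, h2 ▸ (hφ _).2.1⟩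
  rw [show ((c' * φ f₀).1.toLinearMap : End F V) =
    c'.1.toLinearMap * (φ f₀).1.toLinearMap from rfl, map_mul, det_eq_of_elemDiv (φ f₀).1.toLinearMap,
    (hφ _).2.2, h₀, ← hn, dU, dW]
  have h1 : U.conj F q s ≠ 0 := by simpa using s1
  simpa [-map_one, dual_X_sub_C s1, dual_X_sub_C_of_norm (σ := U.conj F q) (c := 1) (by simp),
    ← two_mul, pow_mul, ← mul_pow, ← mul_assoc, ← s2] using mul_inv_cancel₀ h1

omit [U.UF F q] in
theorem uf_two_mul (q d : ℕ) : uf q (2 * d) = qf (q ^ 2) d * ∏ j ∈ Finset.range d, (q ^ (2 * j + 1) + 1) := by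
  induction d with
  | zero => rfl
  | succ d ih =>
    rw [uf, mul_add, Finset.prod_range_succ, Finset.prod_range_succ, ← uf, ih, qf, qf,
      Finset.prod_range_succ, Finset.prod_range_succ, if_pos (even_two_mul d), if_neg (by simp), ← pow_mul]
    ring_nf

theorem IsUS.eluU_lagU (h : IsUS q B Q) {p : ℕ} [hp : Fact p.Prime] [CharP F p] [hr : Fact r.Prime]
    (hd : 2 ≤ d) (hn : finrank F V = 2 * d) {N : ℕ} (hN : r ∣ N)
    (hΩ : N * Nat.card ((Fin d → F) ≃ₗ[F] (Fin d → F)) ∣ Nat.card (Isom B Q))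
    (H : EluU B Q r (LagU B d)) :
    r = 2 ∧ Odd q ∧ padicValNat 2 (q + 1) ≤ padicValNat 2 (finrank F V) := by
  have := U.UF.finite (F := F) q
  have := Fintype.ofFinite F
  have hq2 := U.two_le_q F q
  have : Nontrivial V := nontrivial_of_finrank_pos (R := F) (by omega)
  have hq : Fintype.card F = q ^ 2 := by rw [← Nat.card_eq_fintype_card, U.UF.card_eq (q := q)]
  have hpq : p ∣ q := hp.out.dvd_of_dvd_pow (hq ▸ char_dvd_card F p)
  by_cases hrp : r = p
  · subst hrp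
    obtain ⟨W, ⟨a1, a2⟩, -⟩ := (IsUS.exists_tss_iff (m := 1) (r := 1) h Pres.one (by simp) one_ne_zero
      (by simp)).2 ⟨{X - C 1}, by
        rw [elemDiv_one, Multiset.map_singleton, dual_X_sub_C_of_norm (by simp)]
        exact (Multiset.replicate_le_replicate (k := 2) _).2 (by omega), by simp [-map_one]⟩
    obtain ⟨v, b1, b2⟩ := Submodule.exists_mem_ne_zero_of_ne_bot (p := W) (by rintro rfl; simp at a1)
    obtain ⟨c, c1, c2⟩ := U.exists_trace_zero F q
    have b3 := a2.1 v b1 v b1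
    exact absurd ((eluU_iff_coprime h LagU.smul ((Nat.Prime.coprime_iff_not_dvd hr.out).2 fun e =>
      hr.out.one_lt.ne' (Nat.dvd_one.1 ((Nat.dvd_add_right hpq).1 e)))).1 H _
      (IsUS.pres_rk1 h (by simp [b3, c2])) (by simp [rk1_pow b3, rk1_zero])
      (by simpa using rk1_ne_smul h.toNd (by omega) c1 b2 1)) (not_lagU_rk1 h.toNd hd c1 b2)
  have h0 : (r : F) ≠ 0 := KSG.natCast_ne_zero_of_prime_ne hr.out hrp
  have hrq : ¬ r ∣ q := fun e => by
    obtain ⟨p', a, b1, b2, rfl, -⟩ := U.exists_prime_pow F q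
    obtain rfl := CharP.eq F b2 ‹CharP F p›
    exact hrp ((Nat.prime_dvd_prime_iff_eq hr.out b1).1 (hr.out.dvd_of_dvd_pow e))
  by_cases hr2 : r = 2
  · subst hr2
    have ho : Odd q := Nat.odd_iff.2 (by omega)
    refine ⟨rfl, ho, not_lt.1 fun hlt => ?_⟩
    obtain ⟨c, c1, c2⟩ := (exists_pow_eq_neg_one_iff (F := F) ho (by omega)).2 hlt
    obtain ⟨v, hv⟩ : ∃ v, B v v ≠ 0 := by
      by_contra! e
      obtain ⟨e', a, -⟩ := IsUS.isometric (isUS_hermB (F := F) (q := q) (2 * d)) h (by simp [hn])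
      simpa [e, hermB_apply, hermForm, Pi.single_apply, show q ≠ 0 by omega] using
        a (Pi.single ⟨0, by omega⟩ 1) (Pi.single ⟨0, by omega⟩ 1)
    have b1 : U.conj F q (B v v) = B v v := by simpa using (h.symm v v).symm
    have b2 : -2 / B v v ≠ 0 := div_ne_zero (neg_ne_zero.2 h0) hv
    have b3 : v ≠ 0 := by rintro rfl; simp at hv
    have b4 : rk1 B (-2 / B v v) v ^ 2 = 1 := by
      rw [sq, rk1_mul, ← rk1_zero v]; congr 1; field_simp; ring
    refine not_lagU_rk1 h.toNd hd b2 b3 (((eluU_iff h LagU.smul).1 H).1 _ ⟨IsUS.pres_rk1 h ?_, b4,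
      rk1_ne_smul h.toNd (by omega) b2 b3, ?_⟩)
    · rw [map_div₀, map_neg, map_ofNat, b1]; field_simp; ring
    · rcases sq_eq_one_iff.1 (show LinearMap.det (rk1 B (-2 / B v v) v) ^ 2 = 1 by
        rw [← map_pow, b4, map_one]) with e | e
      exacts [⟨1, by simp, by simp [e]⟩, ⟨c, c1, by simp [e, c2]⟩]
  have key : ∀ g, Pres B Q g → g ^ r = 1 → LagU B d g →
      PT (dual (U.conj F q)) natDegree d (elemDiv g) := fun g a1 a2 a3 =>
    (IsUS.exists_tss_iff h a1 h0 one_ne_zero (by simpa using a2)).1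
      ((a3.exists_inv (hr.out.odd_of_ne_two hr2) a2).imp fun W a => ⟨⟨a.1.1, (IsUS.tss_iff h).2 a.1.2⟩, a.2⟩)
  have := hr.out.two_le
  by_cases h1 : r ∣ q + 1
  · have := (IsUS.forall_tyA_pt h h1 hr2 (m := d) (by omega) (by omega)).1 fun g a =>
      key g a.pres a.pow (((eluU_iff h LagU.smul).1 H).1 g a)
    omega
  rw [card_linearEquiv (finrank_fin_fun F), prod_pow_sub_pow _ le_rfl, IsUS.card_isom h, hn,
    uf_two_mul, hq] at hΩ
  simp only [Nat.sub_self, zero_add] at hΩ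
  rw [← mul_assoc, ← qf, mul_comm (qf _ _), ← mul_assoc,
    Nat.mul_dvd_mul_iff_right (qf_pos (by nlinarith) d)] at hΩ
  obtain ⟨j, a1, a2⟩ := (hr.out.prime.dvd_finsetProd_iff _).1 ((hr.out.dvd_mul.1
    (hN.trans ((dvd_mul_right _ _).trans hΩ))).resolve_left fun e => hrq (hr.out.dvd_of_dvd_pow e))
  rw [← ZMod.natCast_eq_zero_iff, Nat.cast_add, Nat.cast_pow, Nat.cast_one, add_eq_zero_iff_eq_neg,
    pow_eq_neg_one_iff hr2] at a2
  obtain ⟨k, hk⟩ := ((orderOf (q : ZMod r)).even_or_odd.resolve_right fun e =>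
    a2.1 ((Nat.coprime_two_right.2 e).dvd_of_dvd_mul_left a2.2)).two_dvd
  have a3 := Nat.dvd_of_mul_dvd_mul_left two_pos (hk ▸ a2.2)
  have a4 := Nat.odd_iff.1 ((odd_two_mul_add_one j).of_dvd_nat a3)
  have a5 := Nat.le_of_dvd (by omega) a3
  have a6 := Finset.mem_range.1 a1
  have hT := blk_cycFac h0 hk.symm (b := k) (by simp)
  have := ((hT.all_pt_fix (fun t ht => (dual_eq_self_iff_u hr2 h0 hk.symm ht).2 (by omega))
    (m := d) (n := finrank F V) (by omega) (by simp [hn, hT.pos]; omega)).1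
    ((IsUS.forall_pow_iff h h0 hT).1 fun g a1 a2 a3 => key g a1 a2 ((eluU_iff_coprime h LagU.smul
      ((Nat.Prime.coprime_iff_not_dvd hr.out).2 h1)).1 H g a1 a2 a3))).1
  simp [hn, hT.ne.ne_empty] at this

theorem IsUS.eluU_conjInto (h : IsUS q B Q) {A W : Submodule F V} (hc : IsCompl A W)
    (hU : ∀ u ∈ A, ∀ v ∈ A, B u v = 0) (hW : ∀ u ∈ W, ∀ v ∈ W, B u v = 0) (hd : d ≠ 0)
    (dU : finrank F A = d) (dW : finrank F W = d) (ho : Odd q)
    (hv : padicValNat 2 (q + 1) ≤ padicValNat 2 (finrank F V)) : EluU B Q 2 (ConjInto B Q A W) := by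
  have hn := Submodule.finrank_add_eq_of_isCompl hc
  have : Nontrivial V := nontrivial_of_finrank_pos (R := F) (by omega)
  refine (eluU_iff h fun g z ⟨e, a1, a2, a3⟩ => ⟨e, a1, by simpa using a2.smul z,
    by simpa using a3.smul z⟩).2 ⟨fun g a => ?_, fun g a => ?_⟩ <;>
    refine IsUS.exists_conj_of_pt h hc hU hW hd dU dW a.pres ?_
  · exact (IsUS.forall_tyA_pt_two h ho (by omega) (by omega)).2 (Or.inr hv) g a
  · exact ((a.shape h).2.2.2 d (by omega)).2 (Or.inl rfl)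

theorem eluU_gu_iff {n : ℕ} (Φ : End F (Fin n → F) → Prop) :
    (∀ x ∈ GU n F q ⊓ Geo.specialLinear (Fin n) F, (∃ z : F, (x ^ r).1 = z • 1) →
      (∀ z : F, x.1 ≠ z • 1) → Φ (Matrix.toLin' x.1)) ↔
      EluU (hermB n F q) (fun x => hermB n F q x x) r Φ := by
  rw [← eluU_su_iff]
  exact ⟨fun H x h1 => by simpa using H (Matrix.SpecialLinearGroup.toGL x) ⟨h1, by simp [Geo.specialLinear]⟩,
    fun H x h1 ⟨z, h2⟩ => H ⟨x.1, congrArg Units.val h1.2⟩ h1.1
      ⟨z, (Matrix.SpecialLinearGroup.coe_pow _ r).trans (by simpa using h2)⟩⟩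

end Cfsg.Agent.Class.Elus
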