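import Mathlib
import Cfsg.Agent.Class.Elus.Unit2
import Cfsg.Agent.Class.Max.C3Z
import Cfsg.Agent.Class.Sp.Simple

/-!
Elements of prime order of classical groups and normalisers of extension fields: semilinear maps,
ranks and the arithmetic of the index.
-/

set_option autoImplicit false

namespace Cfsg.Agent.Class.Elus

open Polynomial Module Cfsg.Agent.Class.Wall

variable {F K V : Type*} [Field F] [Field K] [Algebra F K] [AddCommGroup V] [Module F V]
  [Module K V] [IsScalarTower F K V] {g y : End F V} {r i i' k : ℕ}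

/-- Maps which are semilinear over the extension field `K`. -/
def Semi (K : Type*) [Field K] [Algebra F K] [Module K V] (g : End F V) : Prop :=
  ∃ τ : K ≃ₐ[F] K, ∀ (a : K) v, g (a • v) = τ a • g v

theorem semi_restrictScalars (g : End K V) : Semi K (g.restrictScalars F : End F V) :=
  ⟨1, fun a v => g.map_smul a v⟩

omit [IsScalarTower F K V] in
theorem Semi.mul (h : Semi K g) (h' : Semi K y) : Semi K (g * y) := by
  obtain ⟨τ, h⟩ := h
  obtain ⟨τ', h'⟩ := h'
  exact ⟨τ * τ', fun a v => by simp [h, h']⟩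

theorem Semi.smul (h : Semi K g) (z : F) : Semi K (z • g) := by
  obtain ⟨τ, h⟩ := h
  exact ⟨τ, fun a v => by simp [h, smul_comm z]⟩

theorem restrictScalars_pow (g : End K V) (n : ℕ) :
    (g.restrictScalars F : End F V) ^ n = (g ^ n).restrictScalars F := by
  induction n with
  | zero => rfl
  | succ n ih => rw [pow_succ, pow_succ, ih]; rfl

theorem semi_of_forall [Nontrivial V] [FiniteDimensional F K] (hg : Function.Injective g)
    (h : ∀ a : K, ∃ b : K, ∀ v, g (a • v) = b • g v) : Semi K g := by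
  choose t ht using h
  obtain ⟨x, hx⟩ := exists_ne (0 : V)
  have key : ∀ {a b : K}, a • g x = b • g x → a = b := fun e =>
    smul_left_injective K ((map_ne_zero_iff g hg).2 hx) e
  let f : K →ₐ[F] K :=
    { toFun := t
      map_one' := key (by rw [← ht, one_smul, one_smul])
      map_mul' := fun a b => key (by rw [← ht, mul_smul, ht, ht, mul_smul])
      map_zero' := key (by rw [← ht, zero_smul, zero_smul, map_zero])
      map_add' := fun a b => key (by rw [← ht, add_smul, map_add, ht, ht, add_smul])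
      commutes' := fun c => key (by rw [← ht, algebraMap_smul, algebraMap_smul, map_smul]) }
  exact ⟨AlgEquiv.ofBijective f f.bijective, ht⟩

variable [FiniteDimensional F V]

theorem rk_add_finrank_ker (g : End F V) :
    rk g + finrank F (LinearMap.ker (g - 1)) = finrank F V := by
  rw [← neg_sub, LinearMap.ker_neg]; exact LinearMap.finrank_range_add_finrank_ker _

omit [FiniteDimensional F V] in
theorem rk_restrictScalars (g : End K V) :
    rk (g.restrictScalars F : End F V) = finrank F K * rk g := by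
  rw [rk, rk, Module.finrank_mul_finrank, show (1 - g.restrictScalars F : End F V) =
    (1 - g).restrictScalars F from rfl, LinearMap.range_restrictScalars]
  rfl

theorem Semi.cases [Finite K] (h : Semi K g) (hk : (finrank F K).Prime) :
    (∃ g' : End K V, g = g'.restrictScalars F) ∨ (finrank F V ≤ 2 * rk g ∧
      ∀ r : ℕ, r.Prime → Nontrivial V → g ^ r = 1 → r = finrank F K) := by
  obtain ⟨τ, h⟩ := h
  by_cases h1 : τ = 1
  · subst h1
    exact Or.inl ⟨⟨g.toAddHom, h⟩, rfl⟩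
  refine Or.inr ⟨?_, fun r hr _ e => ?_⟩
  · obtain ⟨a, ha⟩ : ∃ a, τ a ≠ a := by
      by_contra! H
      exact h1 (AlgEquiv.ext H)
    have h0 : a ≠ 0 := by rintro rfl; simp at ha
    let m : V ≃ₗ[F] V := (LinearEquiv.smulOfNeZero K V a h0).restrictScalars F
    have h2 := rk_add_finrank_ker g
    have h3 := Submodule.finrank_sup_add_finrank_inf_eq (LinearMap.ker (g - 1))
      ((LinearMap.ker (g - 1)).map m.toLinearMap)
    have h4 := (LinearMap.ker (g - 1) ⊔ (LinearMap.ker (g - 1)).map m.toLinearMap).finrank_le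
    rw [m.finrank_map_eq, show LinearMap.ker (g - 1) ⊓ (LinearMap.ker (g - 1)).map m.toLinearMap = ⊥ from
      eq_bot_iff.2 ?_, finrank_bot] at h3
    · omega
    rintro _ ⟨b1, v, b2, rfl⟩
    have b3 : g v = v := sub_eq_zero.1 b2
    have b4 : g (a • v) = a • v := sub_eq_zero.1 b1
    rw [h, b3, ← sub_eq_zero, ← sub_smul, smul_eq_zero_iff_right (sub_ne_zero.2 ha)] at b4
    simp [b4]
  · have : Finite F := Finite.of_injective _ (algebraMap F K).injective
    have h2 : ∀ (n : ℕ) (a : K) v, (g ^ n) (a • v) = (τ ^ n) a • (g ^ n) v := fun n => by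
      induction n with
      | zero => simp
      | succ n ih => intro a v; rw [pow_succ', pow_succ', End.mul_apply, ih, h]; rfl
    obtain ⟨x, hx⟩ := exists_ne (0 : V)
    have h3 : τ ^ r = 1 := AlgEquiv.ext fun a => smul_left_injective K hx (by
      simpa [e] using (h2 r a x).symm)
    have := Fact.mk hr
    have h4 := orderOf_dvd_natCard τ
    rwa [IsGalois.card_aut_eq_finrank, orderOf_eq_prime h3 h1, Nat.prime_dvd_prime_iff_eq hr hk] at h4

section Lift

variable {B : LinearMap.BilinForm F V} {T : Dual F K} {s : K →+* K} {Ψ : V →ₛₗ[s] V →ₗ[K] K} {ε : F}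
  {Q : V → F} {Q' : V → K}

omit [FiniteDimensional F V]

theorem exists_lift [FiniteDimensional F K] (h : Herm (RingHom.id F) ε B) (hT : T ≠ 0)
    (hs2 : ∀ a, s (s a) = a) (hs : ∀ (a : K) u v, B (a • u) v = B u (s a • v)) {η : K}
    (hη : ∀ b, T (η * s b) = ε * T b) :
    ∃ Ψ : V →ₛₗ[s] V →ₗ[K] K, Herm s η Ψ ∧ ∀ u v, B u v = T (Ψ u v) := by
  choose χ hχ using fun u => Max.exists_dual_lift hT (B u)
  have key : ∀ χ χ' : Dual K V, (∀ v, T (χ v) = T (χ' v)) → χ = χ' := fun χ χ' e =>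
    LinearMap.ext fun v => sub_eq_zero.1 (Max.eq_zero_of_forall_mul hT fun c => by
      rw [mul_sub, map_sub, ← smul_eq_mul, ← smul_eq_mul, ← map_smul, ← map_smul, e, sub_self])
  let Ψ : V →ₛₗ[s] V →ₗ[K] K := ⟨⟨χ, fun u u' => key _ _ fun v => by
    rw [← hχ, map_add, LinearMap.add_apply, hχ, hχ, LinearMap.add_apply, map_add]⟩,
    fun a u => key _ _ fun v => by
      rw [← hχ, hs, hχ, map_smul, LinearMap.smul_apply]⟩
  have h1 : ∀ u v, B u v = T (Ψ u v) := hχ
  refine ⟨Ψ, ⟨⟨hs2, fun x hx => h.left x fun y => by rw [h1, hx, map_zero],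
    fun x hx => h.right x fun y => by rw [h1, hx, map_zero]⟩, fun x y => ?_⟩, h1⟩
  refine sub_eq_zero.1 (Max.eq_zero_of_forall_mul hT fun c => ?_)
  rw [mul_sub, map_sub, ← smul_eq_mul, ← map_smul, ← h1, h.symm, h1, RingHom.id_apply, ← hη,
    map_smulₛₗ, LinearMap.smul_apply, smul_eq_mul, map_mul s, hs2, mul_left_comm, sub_self]

omit [IsScalarTower F K V] in
theorem map_lift (hT : T ≠ 0) (hΨ : ∀ u v, B u v = T (Ψ u v)) {g : End K V}
    (hg : ∀ u v, B (g u) (g v) = B u v) (u v : V) : Ψ (g u) (g v) = Ψ u v :=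
  sub_eq_zero.1 (Max.eq_zero_of_forall_mul hT fun c => by
    rw [mul_sub, map_sub, ← smul_eq_mul, ← smul_eq_mul, ← map_smul, ← map_smul, ← map_smul, ← hΨ,
      ← hΨ, hg, sub_self])

/-- The index of the normaliser of `K` in `N`. -/
noncomputable def semiIdx (K : Type*) [Field K] [Algebra F K] [Module K V]
    (N : Subgroup (Isom B Q)) : ℕ :=
  (show Subgroup (Isom B Q) from
    { carrier := {g | Semi K g.1.toLinearMap}
      mul_mem' := Semi.mul
      one_mem' := ⟨1, fun _ _ => rfl⟩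
      inv_mem' := fun {g} ⟨τ, h⟩ => ⟨τ⁻¹, fun a v => g.1.injective (by
        change g.1 (g.1.symm _) = g.1.toLinearMap (_ • g.1.symm _)
        simp [h])⟩ }).relIndex N

theorem semiIdx_mul_dvd [Finite V] (N : Subgroup (Isom B Q)) [N.Normal]
    (h : ∀ g : End K V, Pres Ψ Q' g → Pres B Q (g.restrictScalars F)) :
    semiIdx K N * Nat.card (Isom Ψ Q') ∣ Nat.card (Isom B Q) := by
  have : Finite (V ≃ₗ[F] V) := DFunLike.finite _
  exact relIndex_mul_card_dvd _ N
    { toFun := fun g : Isom Ψ Q' => (⟨g.1.restrictScalars F, (h _ (pres_isom g)).1,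
        (h _ (pres_isom g)).2⟩ : Isom B Q)
      map_one' := rfl
      map_mul' := fun _ _ => rfl }
    (fun a b e => Subtype.ext (LinearEquiv.ext fun v => congrArg (fun x : Isom B Q => x.1 v) e))
    fun g => semi_restrictScalars g.1.toLinearMap

end Lift

section Odd

variable [Fintype F] {B : LinearMap.BilinForm F V} {Q : V → F} {N : ℕ}

theorem Cap.rk_eq (c : Cap B Q r i N) (hr : OddP F r i) (hB : Nd (RingHom.id F) B)
    (hg : Pres B Q g) (h1 : g ^ r = 1) : ∃ A, rk g = A * cc i ∧ A * cc i ≤ N := by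
  obtain ⟨u, b1, b2, b3⟩ := (c.realIn_iff hr hB fun b hb =>
    mem_elemDiv_of_pow_prime hr.prime hr.ne_zero h1 hb).1 ⟨g, hg, rfl⟩
  obtain ⟨A, d1, -⟩ := hr.exists_split b1
  have := rk_add_finrank_ker g
  have := c.le
  rw [finrank_ker_of_elemDiv hr b1 b3] at *
  exact ⟨A, by omega, d1 ▸ b2⟩

theorem Cap.exists_rk (c : Cap B Q r i N) (hr : OddP F r i) (hB : Nd (RingHom.id F) B) {A : ℕ}
    (h0 : A ≠ 0) (hA : A * cc i ≤ N) : ∃ g, Pres B Q g ∧ g ^ r = 1 ∧ g ≠ 1 ∧ rk g = A * cc i := by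
  obtain ⟨u, a1, a2⟩ := hr.exists_sd A
  by_contra H
  refine ((c.forall_iff hr hB (Ψ := fun v => Multiset.card v * i ≠ A * cc i)
    (Φ := fun g => rk g ≠ A * cc i) fun g v _ _ b1 b2 b3 => ?_).1
    (fun g b1 b2 b3 b4 => H ⟨g, b1, b2, b3, b4⟩) u a1 ?_ (a2 ▸ hA)) a2
  · have := rk_add_finrank_ker g
    have := c.le
    rw [finrank_ker_of_elemDiv hr b1 b3] at *
    omega
  rintro rfl
  exact mul_ne_zero h0 (cc_pos hr.pos).ne' (by simpa using a2.symm)

theorem OddP.cc_lt (hr : OddP F r i) : cc i < r := by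
  have := Fact.mk hr.prime
  have h1 := hr.prime.two_le
  obtain ⟨j, hj⟩ := hr.odd
  have h2 : i ∣ 2 * j := by
    rw [hr.ord, show 2 * j = r - 1 by omega]
    exact ZMod.orderOf_dvd_card_sub_one fun e =>
      hr.not_dvd_card ((ZMod.natCast_eq_zero_iff _ _).1 e)
  have := Nat.le_of_dvd (by have := hr.ne_two; omega) (cc_dvd_two_mul_iff.2 h2)
  omega

variable [Fintype K]

omit [Algebra F K] in
theorem OddP.cc_eq (hr : OddP F r i) (hr' : OddP K r i') (hk : Fintype.card K = Fintype.card F ^ k)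
    (k0 : k ≠ 0) {A : ℕ} (h : cc i = k * (A * cc i')) : cc i = k * cc i' := by
  obtain ⟨c, hc⟩ := even_cc i'
  have h1 : cc i ∣ k * cc i' := by
    rw [hc, ← two_mul, mul_left_comm, cc_dvd_two_mul_iff, ← hr.dvd_iff, mul_left_comm, pow_mul, ← hk,
      hr'.dvd_iff, ← cc_dvd_two_mul_iff, two_mul, ← hc]
  have h2 := cc_pos hr'.pos
  rw [h, Nat.mul_dvd_mul_iff_left (by omega)] at h1
  rw [h, Nat.eq_one_of_dvd_one (n := A) ((Nat.mul_dvd_mul_iff_right h2).1 (by rwa [one_mul])), one_mul]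

omit [Algebra F K] in
theorem OddP.not_dvd_of_cc (hr : OddP F r i) (hk : Fintype.card K = Fintype.card F ^ k)
    (h : cc i = k * cc i') {D D' M a b : ℕ} (hD : 2 * D / cc i ≤ 2 * D' / cc i') (hb : b ≠ 0)
    (h1 : a.factorization r = (qf2 (Fintype.card K) D').factorization r)
    (h2 : b.factorization r = (qf2 (Fintype.card F) D).factorization r) (h3 : M * a ∣ b) :
    ¬ r ∣ M := fun hM => by
  have hq := Fintype.one_lt_card (α := F)
  have hq' := Fintype.one_lt_card (α := K)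
  have h0 := cc_pos hr.pos
  have k0 : 0 < k := Nat.pos_of_mul_pos_right (h ▸ h0)
  obtain ⟨c, hc⟩ := even_cc i'
  have key : ∀ E, (qf2 (Fintype.card K) E).factorization r =
      (qf2 (Fintype.card F) (k * E)).factorization r := fun E => by
    induction E with
    | zero => rfl
    | succ E ih =>
      obtain ⟨j, hj⟩ := Nat.exists_eq_add_one.2 (Nat.mul_pos k0 E.add_one_pos)
      have e : 2 * j / cc i = 2 * (k * E) / cc i := by
        rw [h, hc, ← two_mul, mul_left_comm, Nat.mul_div_mul_left _ _ two_pos,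
          Nat.mul_div_mul_left _ _ two_pos, ← Nat.div_div_eq_div_mul, ← Nat.div_div_eq_div_mul,
          Nat.mul_div_cancel_left _ k0,
          Nat.div_eq_of_lt_le (m := j) (k := E) (by nlinarith) (by nlinarith)]
      rw [qf2_succ, hj, qf2_succ, Nat.factorization_mul (qf2_pos hq' _).ne'
        (Nat.sub_pos_of_lt (Nat.one_lt_pow (by omega) hq')).ne', Nat.factorization_mul (qf2_pos hq _).ne'
        (Nat.sub_pos_of_lt (Nat.one_lt_pow (by omega) hq)).ne', Finsupp.add_apply, Finsupp.add_apply, ih,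
        ← hj, hk, ← pow_mul, mul_left_comm,
        le_antisymm (hr.factorization_qf2_le e.le) (hr.factorization_qf2_le e.ge)]
  have := hr.div_lt_of_dvd hb (h1.trans (key D')) h2 h3 hM
  rw [h, mul_left_comm, Nat.mul_div_mul_left _ _ k0, ← h] at this
  omega

end Odd

section Bas

variable {ι : Type*} (b : Basis ι K V) {B : LinearMap.BilinForm F V} {z : End F V}

omit [FiniteDimensional F V]

omit [Algebra F K] [IsScalarTower F K V] in
theorem ext_basis {W : Type*} [AddCommGroup W] [Module F W] {g g' : V →ₗ[F] W}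
    (h : ∀ (a : K) j, g (a • b j) = g' (a • b j)) : g = g' := LinearMap.ext fun v => by
  rw [← b.linearCombination_repr v, Finsupp.linearCombination_apply, Finsupp.sum, map_sum, map_sum]
  exact Finset.sum_congr rfl fun j _ => h _ j

theorem semi_of_basis (τ : K ≃ₐ[F] K) (h : ∀ (a c : K) j, z ((a * c) • b j) = τ a • z (c • b j)) :
    Semi K z := ⟨τ, fun a => LinearMap.congr_fun (ext_basis b
      (g := z ∘ₗ (LinearMap.lsmul K V a).restrictScalars F)
      (g' := (LinearMap.lsmul K V (τ a)).restrictScalars F ∘ₗ z) fun c j => by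
        simpa [smul_smul, mul_comm] using h a c j)⟩

omit [Algebra F K] [IsScalarTower F K V] in
theorem map_B_of_basis
    (h : ∀ (a c : K) i j, B (z (a • b i)) (z (c • b j)) = B (a • b i) (c • b j)) (u v : V) :
    B (z u) (z v) = B u v :=
  LinearMap.congr_fun₂ (ext_basis b (g := B.compl₁₂ z z) (g' := B) fun a i =>
    ext_basis b fun c j => h a c i j) u v

variable [Fintype ι]

theorem exists_dmap (f : ι → K →ₗ[F] K) : ∃ z : End F V, ∀ (a : K) j, z (a • b j) = f j a • b j := by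
  classical
  refine ⟨∑ j, (LinearMap.toSpanSingleton K V (b j)).restrictScalars F ∘ₗ f j ∘ₗ
    (b.coord j).restrictScalars F, fun a j => ?_⟩
  rw [LinearMap.sum_apply, Finset.sum_eq_single j (fun i _ h => by simp [h]) (by simp)]
  simp

theorem exists_diag_rk (h2 : (2 : K) ≠ 0) (S : Finset ι) : ∃ y : End K V, rk y = S.card ∧
    (∀ j ∈ S, y (b j) = -b j) ∧ ∀ j ∉ S, y (b j) = b j := by
  classical
  refine ⟨Matrix.toLin b b (Matrix.diagonal fun j => if j ∈ S then -1 else 1), ?_,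
    fun j h => by simp [Matrix.diagonal_apply, h], fun j h => by simp [Matrix.diagonal_apply, h]⟩
  rw [rk, End.one_eq_id, ← Matrix.toLin_one b, ← map_sub, ← Matrix.rank_eq_finrank_range_toLin,
    ← Matrix.diagonal_one, Matrix.diagonal_sub, Matrix.rank_diagonal, ← Fintype.card_coe]
  exact Fintype.card_congr (Equiv.subtypeEquivRight fun j => by
    split_ifs with h <;> simp [h, one_add_one_eq_two, h2])

end Bas

section Neg

variable {B : LinearMap.BilinForm F V} {Q : V → F} {ε : F} {π : F →+ F} {W W' : Submodule F V}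

theorem NegOn.range_eq (hW : NegOn B g W) (h2 : (2 : F) ≠ 0) (h : IsFormed (RingHom.id F) B Q ε π) :
    LinearMap.range (1 - g) = W := by
  refine le_antisymm ?_ fun v hv => ⟨(2⁻¹ : F) • v, by
    rw [map_smul, LinearMap.sub_apply, hW.neg v hv, End.one_apply, sub_neg_eq_add, ← two_smul F,
      inv_smul_smul₀ h2]⟩
  rintro _ ⟨v, rfl⟩
  obtain ⟨x, u, rfl⟩ := h.exists_add_perp hW.nd v
  simpa [hW.neg _ x.2, hW.fix _ u.2] using W.add_mem x.2 x.2

theorem NegOn.isoSim (hW : NegOn B g W) (hW' : NegOn B y W') (T : FType (RingHom.id F) ε π)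
    (h : IsTF (RingHom.id F) B Q ε π) (e : IsoS B Q (resB B W) (fun w => Q w) W') :
    IsoSim B Q y B Q g := by
  have h' := h.isFormed T
  exact ((isoSim_prod_perp h' hW'.nd (hW'.inv_of_le le_rfl) (hW'.inv_of_le_perp le_rfl)).symm.trans
    (isoSim_prod (Isometric.isoSim_smul e (-1) (fun v => Subtype.ext (by simpa using hW'.neg _ v.2))
      fun v => Subtype.ext (by simpa using hW.neg _ v.2))
    (Isometric.isoSim_smul ((isSum_perp h' hW.nd).isoS_perp T h (isTF_restrict T h hW.nd)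
      (isTF_restrict T h (h'.perp_inf_perp_perp hW.nd)) e) 1
      (fun v => Subtype.ext (by simpa using hW'.fix _ v.2))
      fun v => Subtype.ext (by simpa using hW.fix _ v.2)))).trans
    (isoSim_prod_perp h' hW.nd (hW.inv_of_le le_rfl) (hW.inv_of_le_perp le_rfl))

theorem IsSS.isoSim_of_rk (h2 : (2 : F) ≠ 0) (h : IsSS B Q) (hg : Pres B Q g) (hy : Pres B Q y)
    (e : g * g = 1) (e' : y * y = 1) (hr : rk y = rk g) : IsoSim B Q y B Q g := by
  have h' := h.isFormed fType_sp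
  obtain ⟨W, hW⟩ := exists_negOn h2 h' hg e
  obtain ⟨W', hW'⟩ := exists_negOn h2 h' hy e'
  rw [rk, rk, hW.range_eq h2 h', hW'.range_eq h2 h'] at hr
  exact hW.isoSim hW' fType_sp h
    (IsSS.isometric (isTF_restrict fType_sp h hW'.nd) (isTF_restrict fType_sp h hW.nd) hr)

theorem IsSS.rk_invol (h2 : (2 : F) ≠ 0) (h : IsSS B Q) (hg : Pres B Q g) (e : g * g = 1) :
    Even (rk g) ∧ (g ≠ -1 → rk g < finrank F V) := by
  have h' := h.isFormed fType_sp
  obtain ⟨W, hW⟩ := exists_negOn h2 h' hg e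
  rw [rk, hW.range_eq h2 h']
  refine ⟨IsSS.even (isTF_restrict fType_sp h hW.nd), fun h1 => ?_⟩
  have := hW.finrank_perp_ne h' h1
  have := h'.finrank_add_finrank_perp W
  omega

theorem IsSS.exists_invol (h2 : (2 : F) ≠ 0) (h : IsSS B Q) (hn : 2 < finrank F V) :
    ∃ g, Pres B Q g ∧ g * g = 1 ∧ g ≠ 1 ∧ g ≠ -1 ∧ rk g = 2 := by
  have h' := h.isFormed fType_sp
  obtain ⟨W, -, hW⟩ := IsSS.exists_le_isoS (U := ⊤) h (isSS_sympB 1) (by rw [h'.perp_top, inf_bot_eq])
    (by rw [finrank_symp, finrank_top]; omega)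
  obtain ⟨g, a1, a2, a3⟩ := exists_negOn' h fType_sp (hW.inf_perp (isSS_sympB 1).toNd)
  have e1 := hW.finrank_eq
  have e2 := h'.finrank_add_finrank_perp W
  rw [finrank_symp] at e1
  exact ⟨g, a1, a2, a3.ne_one h2 (by omega), a3.ne_neg_one h2 (by omega), by
    rw [rk, a3.range_eq h2 h', e1]⟩

theorem IsSS.exists_transv (h : IsSS B Q) (hn : 2 ≤ finrank F V) (p : ℕ) [CharP F p] :
    ∃ g, Pres B Q g ∧ g ^ p = 1 ∧ (∀ z : F, g ≠ z • 1) ∧ rk g = 1 := by
  have : Nontrivial V := nontrivial_of_finrank_pos (R := F) (by omega)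
  obtain ⟨v, hv⟩ := exists_ne (0 : V)
  have h0 : B v v = 0 := by obtain ⟨c, -, hc⟩ := h.self v; simpa using hc
  have h1 := rk1_ne_smul h.toNd hn one_ne_zero hv
  refine ⟨rk1 B 1 v, IsSS.pres h fun x y => ?_, by simp [rk1_pow h0, rk1_zero], h1, le_antisymm
    ((Submodule.finrank_mono ?_).trans (finrank_span_singleton hv).le)
    (Nat.pos_of_ne_zero (mt rk_eq_zero_iff.1 (by simpa using h1 1)))⟩
  · simp [rk1_apply, h0, h.symm v x, mul_comm]
  · rintro _ ⟨x, rfl⟩
    simp [rk1_apply, Submodule.smul_mem, Submodule.mem_span_singleton_self]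

end Neg

section Bridge

variable {B : LinearMap.BilinForm F V} {Q : V → F}

/-- `g` belongs to the group `N` of isometries. -/
def InN (N : Subgroup (Isom B Q)) (g : End F V) : Prop := ∃ k ∈ N, k.1.toLinearMap = g

/-- `g` is conjugate under `N` to a map with the property `P`. -/
def CS (N : Subgroup (Isom B Q)) (P : End F V → Prop) (g : End F V) : Prop :=
  ∃ e ∈ N, ∃ y, P y ∧ ∀ v, e.1 (y v) = g (e.1 v)

/-- Every element of `N` of order `r` modulo scalars is conjugate to a map with the property `P`. -/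
def EluN (N : Subgroup (Isom B Q)) (r : ℕ) (P : End F V → Prop) : Prop :=
  ∀ g, InN N g → (∃ z : F, g ^ r = z • 1) → (∀ z : F, g ≠ z • 1) → CS N P g

omit [FiniteDimensional F V] in
theorem CS.isoSim {N : Subgroup (Isom B Q)} {P : End F V → Prop} (h : CS N P g) :
    ∃ y, P y ∧ IsoSim B Q y B Q g :=
  let ⟨e, _, y, h1, h2⟩ := h
  ⟨y, h1, e.1, e.2.1, e.2.2, h2⟩

theorem eluN_top (h : Nd (RingHom.id F) B) {P : End F V → Prop} : EluN (⊤ : Subgroup (Isom B Q)) r P ↔
    EluP B Q r fun g => ∃ y, P y ∧ IsoSim B Q y B Q g :=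
  ⟨fun H g a1 a2 a3 => (H g ⟨a1.toIsom h, trivial, rfl⟩ a2 a3).isoSim,
    fun H _ ⟨k, _, e⟩ a2 a3 =>
      let ⟨y, b1, e, b2, b3, b4⟩ := H _ (e ▸ pres_isom k) a2 a3
      ⟨⟨e, b2, b3⟩, trivial, y, b1, b4⟩⟩

variable {ι : Type} [Fintype ι] [DecidableEq ι] {B : LinearMap.BilinForm F (ι → F)} {Q : (ι → F) → F}
  {N : Subgroup (Isom B Q)} {G H : Subgroup (GL ι F)}

theorem eluN_iff (hG : ∀ Φ : End F (ι → F) → Prop,
      (∀ x ∈ G, Φ (Matrix.toLin' (x : Matrix ι ι F))) ↔ ∀ g, InN N g → Φ g) :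
    (∀ x ∈ G, (∃ z : F, ((x ^ r : GL ι F) : Matrix ι ι F) = z • (1 : Matrix ι ι F)) →
      (∀ z : F, (x : Matrix ι ι F) ≠ z • (1 : Matrix ι ι F)) → ∃ g ∈ G, g⁻¹ * x * g ∈ H) ↔
      EluN N r fun y => ∃ x ∈ H, Matrix.toLin' (x : Matrix ι ι F) = y := by
  rw [EluN, ← hG]
  simp only [toLin'_pow_eq_smul_one_iff, Ne, toLin'_eq_smul_one_iff, Units.val_pow_eq_pow_val]
  refine forall₂_congr fun x _ => imp_congr_right fun _ => imp_congr_right fun _ => ⟨?_, ?_⟩
  · rintro ⟨g, h1, h2⟩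
    obtain ⟨e, h3, h4⟩ := (hG (InN N)).2 (fun _ h => h) g h1
    refine ⟨e, h3, _, ⟨_, h2, rfl⟩, fun v => ?_⟩
    rw [← LinearEquiv.coe_coe, h4]
    simp [← mul_assoc]
  · rintro ⟨e, h1, _, ⟨y, h2, rfl⟩, h3⟩
    obtain ⟨g, h4, h5⟩ := (hG fun a => ∃ x ∈ G, Matrix.toLin' (x : Matrix ι ι F) = a).1
      (fun x hx => ⟨x, hx, rfl⟩) _ ⟨e, h1, rfl⟩
    refine ⟨g, h4, (?_ : y = g⁻¹ * x * g) ▸ h2⟩
    rw [mul_assoc, eq_inv_mul_iff_mul_eq]
    refine Units.ext (Matrix.toLin'.injective (LinearMap.ext fun v => ?_))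
    simpa [-Matrix.toLin'_apply, h5] using h3 v

theorem relIndex_eq (hG : ∀ Φ : End F (ι → F) → Prop,
      (∀ x ∈ G, Φ (Matrix.toLin' (x : Matrix ι ι F))) ↔ ∀ g, InN N g → Φ g) :
    H.relIndex G = (H.comap ((Orth.glEquiv ι F).symm.toMonoidHom.comp (Isom B Q).subtype)).relIndex N := by
  rw [Subgroup.relIndex_comap]
  congr 1
  ext x
  refine ⟨fun h => ?_, ?_⟩
  · obtain ⟨e, h3, h4⟩ := (hG (InN N)).2 (fun _ h => h) x h
    exact ⟨e, h3, (Orth.glEquiv ι F).symm_apply_eq.2 (LinearEquiv.toLinearMap_injective h4)⟩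
  · rintro ⟨e, h1, rfl⟩
    obtain ⟨g, h4, h5⟩ := (hG fun a => ∃ x ∈ G, Matrix.toLin' (x : Matrix ι ι F) = a).1
      (fun x hx => ⟨x, hx, rfl⟩) _ ⟨e, h1, rfl⟩
    exact (show g = _ from
      (Orth.glEquiv ι F).eq_symm_apply.2 (LinearEquiv.toLinearMap_injective h5)) ▸ h4

theorem forall_spGL_iff {d : ℕ} (Φ : End F (Fin d ⊕ Fin d → F) → Prop) :
    (∀ x ∈ spGL d F, Φ (Matrix.toLin' x.1)) ↔
      ∀ g, InN (⊤ : Subgroup (Isom (sympB d F) fun _ => 0)) g → Φ g := by
  rw [Subtype.forall' (p := (· ∈ spGL d F)), ← Sp.equivSpGL.forall_congr_right]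
  exact (forall_sp_iff Φ).trans ⟨fun H _ ⟨k, _, e⟩ => H _ (e ▸ pres_isom k),
    fun H g hg => H g ⟨hg.toIsom (isSS_sympB d).toNd, trivial, rfl⟩⟩

theorem eluN_norm_iff [Nonempty ι] {E : Subalgebra F (Matrix ι ι F)} (hE : Geo.IsFieldSubalgebra k E)
    (hG : ∀ Φ : End F (ι → F) → Prop,
      (∀ x ∈ G, Φ (Matrix.toLin' (x : Matrix ι ι F))) ↔ ∀ g, InN N g → Φ g) :
    letI := (Max.isField_of hE).toField
    (Geo.subalgebraNormalizer E).relIndex G = semiIdx E N ∧
    ((∀ x ∈ G, (∃ z : F, ((x ^ r : GL ι F) : Matrix ι ι F) = z • (1 : Matrix ι ι F)) →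
      (∀ z : F, (x : Matrix ι ι F) ≠ z • (1 : Matrix ι ι F)) →
        ∃ g ∈ G, g⁻¹ * x * g ∈ Geo.subalgebraNormalizer E) ↔ EluN N r (Semi E)) := by
  let := (Max.isField_of hE).toField
  have key : ∀ x, x ∈ Geo.subalgebraNormalizer E ↔ Semi E (Orth.glEquiv ι F x).toLinearMap := fun x =>
    (Max.mem_subalgebraNormalizer_iff E x).trans ⟨fun h => semi_of_forall (Orth.glEquiv ι F x).injective h.1,
      fun ⟨τ, h⟩ => ⟨fun a => ⟨_, h a⟩, fun a => ⟨τ.symm a, fun v => (h _ v).trans (by simp)⟩⟩⟩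
  refine ⟨(relIndex_eq hG).trans (congrArg (Subgroup.relIndex · N) (Subgroup.ext fun g =>
    (key _).trans (by simp; rfl))), (eluN_iff hG).trans (forall₃_congr fun g ⟨x, _, hx⟩ _ =>
      imp_congr_right fun _ => exists_congr fun e => and_congr_right fun _ => exists_congr fun y =>
        and_congr_left fun h => ⟨?_, fun h1 => ?_⟩)⟩
  · rintro ⟨x, h1, rfl⟩
    exact (key x).1 h1
  · obtain ⟨z, hz⟩ := (Orth.glEquiv ι F).surjective (e⁻¹ * x * e).1
    have h2 : (Orth.glEquiv ι F z).toLinearMap = y := LinearMap.ext fun v => e.1.injective (by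
      rw [h, hz, ← hx]; exact e.1.apply_symm_apply _)
    exact ⟨z, (key z).2 (h2 ▸ h1), h2⟩

end Bridge

end Cfsg.Agent.Class.Elus
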