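import Mathlib
import Cfsg.Agent.Class.Elus.Ext2

/-!
Elements of prime order of symplectic groups and normalisers of extension fields.
-/

set_option autoImplicit false

namespace Cfsg.Agent.Class.Elus

open Polynomial Module Cfsg.Agent.Class.Wall
open Cfsg.Agent.KSG (Sim IsPP elemDiv cycFac)

variable {F K V : Type*} [Field F] [Field K] [Algebra F K] [AddCommGroup V] [Module F V]
  [Module K V] [IsScalarTower F K V] {g y : End F V} {r i i' k d : ℕ} [FiniteDimensional F V]
  {B : LinearMap.BilinForm F V} {Q : V → F} [Fintype F] [Fintype K]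

omit [Fintype F] in
theorem IsSS.not_eluP_char (h : IsSS B Q) (hk : (finrank F K).Prime) (hn : 2 < finrank F V) (p : ℕ)
    [CharP F p] : ¬ EluP B Q p fun g => ∃ y, Semi K y ∧ IsoSim B Q y B Q g := fun H => by
  obtain ⟨g, a1, a2, a3, a4⟩ := IsSS.exists_transv h hn.le p
  obtain ⟨y, b1, b2⟩ := H g a1 ⟨1, by simpa using a2⟩ a3
  have b3 := (IsoSim.rk_eq b2).trans a4
  rcases b1.cases hk with ⟨y, rfl⟩ | ⟨c, -⟩
  · exact hk.one_lt.ne' (Nat.eq_one_of_mul_eq_one_right ((rk_restrictScalars y).symm.trans b3))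
  · omega

theorem IsSS.exists_min (h : IsSS B Q) (hr : OddP F r i) (hk : (finrank F K).Prime)
    (hd : r ∣ Nat.card (Isom B Q)) (hn : r = finrank F K → 2 * r ≤ finrank F V)
    (H : EluP B Q r fun g => ∃ y, Semi K y ∧ IsoSim B Q y B Q g) :
    ∃ y : End K V, Pres B Q (y.restrictScalars F) ∧ y ^ r = 1 ∧ cc i = finrank F K * rk y := by
  have h1 := IsSS.cc_le h hr hd
  have h2 := cc_pos hr.pos
  have : Nontrivial V := nontrivial_of_finrank_pos (R := F) (by omega)
  obtain ⟨g, a1, a2, a3, a4⟩ := (IsSS.cap h hr).exists_rk hr h.toNd one_ne_zero (by omega)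
  obtain ⟨y, b1, b2⟩ := H g a1 ⟨1, by simpa using a2⟩ (by
    rintro z rfl
    rcases mul_self_eq_one_iff.1 (mul_self_eq_one_of_pres h.toNd a1) with rfl | rfl
    · simp at a3
    · rw [_root_.smul_pow, hr.odd.neg_one_pow, one_pow] at a2
      exact a3 a2)
  have b3 := (IsoSim.rk_eq b2).trans a4
  have b4 : y ^ r = 1 := by simpa using Sim.pow_eq_smul b2.symm.sim (r := r) (z := 1) (by simpa using a2)
  rcases b1.cases hk with ⟨y, rfl⟩ | ⟨c1, c2⟩
  · exact ⟨y, IsoSim.pres b2.symm a1, LinearMap.restrictScalars_injective F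
      ((restrictScalars_pow y r).symm.trans b4), by rw [← rk_restrictScalars, b3, one_mul]⟩
  · have := hr.cc_lt
    have := hn (c2 r hr.prime ‹_› b4)
    omega

theorem IsSS.eluP_semi_sp (h : IsSS B Q) (hk : (finrank F K).Prime)
    (hs : ∀ (a : K) u v, B (a • u) v = B u (a • v)) (ha : ∀ (a : K) v, B (a • v) v = 0)
    (hn : finrank F V = 2 * d) (hd : 2 ≤ d) {p : ℕ} [Fact p.Prime] [CharP F p] [hr : Fact r.Prime]
    (hΩ : r ∣ semiIdx K (⊤ : Subgroup (Isom B Q))) :
    EluP B Q r (fun g => ∃ y, Semi K y ∧ IsoSim B Q y B Q g) ↔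
      r = 2 ∧ d = 2 ∧ finrank F K = 2 ∧ Odd (Fintype.card F) := by
  have : Nontrivial V := nontrivial_of_finrank_pos (R := F) (by omega)
  have : FiniteDimensional K V := Module.Finite.of_restrictScalars_finite F K V
  have : Finite V := Module.finite_of_finite F
  have := charP_of_injective_algebraMap (algebraMap F K).injective p
  have hT := Algebra.trace_ne_zero F K
  obtain ⟨Ψ, c1, c2⟩ := exists_lift (s := RingHom.id K) (η := -1) h.toHerm hT (fun _ => rfl) hs
    (by simp)
  have c3 : ∀ v, Ψ v v = 0 := fun v => Max.eq_zero_of_forall_mul hT fun c => by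
    rw [← smul_eq_mul, ← map_smul, ← c2, ← hs, ha]
  have c4 : IsSS Ψ fun _ => 0 := ⟨c1, by simp, by simp, fun x => ⟨0, by simp [c3]⟩⟩
  have c5 : ∀ y : End K V, Pres Ψ (fun _ => 0) y ↔ Pres B Q (y.restrictScalars F) := fun y =>
    ⟨fun hy => IsSS.pres h fun u v => by simp [c2, hy.map_B],
      fun hy => IsSS.pres c4 (map_lift hT c2 hy.map_B)⟩
  have c6 := semiIdx_mul_dvd ⊤ fun y => (c5 y).1
  obtain ⟨m, hm⟩ := IsSS.even c4
  have c7 := Module.finrank_mul_finrank F K V
  have c8 : m ≠ 0 := by rintro rfl; simp [hm] at c7; omega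
  constructor
  · intro H
    by_cases hp : r = p
    · exact (IsSS.not_eluP_char h hk (by omega) p (hp ▸ H)).elim
    by_cases h2 : r = 2
    · subst h2
      have h2 := (two_ne_zero_iff_char F p).2 (Ne.symm hp)
      obtain ⟨g, a1, a2, a3, a4, a5⟩ := IsSS.exists_invol h2 h (by omega)
      obtain ⟨y, b1, b2⟩ := ((eluP_two_iff h.toNd h2).1 H).1 g a1 a2 a3 a4
      have b3 := (IsoSim.rk_eq b2).trans a5
      have b4 := Sim.mul_eq_one b2.symm.sim a2
      rcases b1.cases hk with ⟨y, rfl⟩ | ⟨d1, d2⟩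
      · obtain ⟨j, hj⟩ := (IsSS.rk_invol ((two_ne_zero_iff_char K p).2 (Ne.symm hp)) c4
          ((c5 y).2 (IsoSim.pres b2.symm a1)) (LinearMap.restrictScalars_injective F b4)).1
        rw [rk_restrictScalars, hj, ← two_mul, mul_left_comm] at b3
        exact absurd (Nat.eq_one_of_mul_eq_one_right (by omega : finrank F K * j = 1)) hk.one_lt.ne'
      · exact ⟨rfl, by omega, (d2 2 Nat.prime_two ‹_› (by rwa [sq])).symm,
          Nat.odd_iff.2 (Orth.card_mod_two_of_two_ne_zero h2)⟩
    have r1 := oddP_of (F := F) p h2 hp rfl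
    have r2 := oddP_of (F := K) p h2 hp rfl
    obtain ⟨y, a1, a2, a3⟩ := IsSS.exists_min h r1 hk ((hΩ.mul_right _).trans c6) (fun e => by
      rw [← c7, hm, ← e]; nlinarith [Nat.pos_of_ne_zero c8]) H
    obtain ⟨A, b1, -⟩ := (IsSS.cap c4 r2).rk_eq r2 c4.toNd ((c5 y).2 a1) a2
    have e1 := r1.cc_eq r2 Module.card_eq_pow_finrank hk.ne_zero (b1 ▸ a3)
    refine (r1.not_dvd_of_cc Module.card_eq_pow_finrank e1 (D := d) (D' := m) (le_of_eq ?_)
      (IsSS.card_isom_ne_zero h) (IsSS.factorization_card c4 r2 (by omega))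
      (IsSS.factorization_card h r1 hn) c6 hΩ).elim
    rw [e1, ← hn, ← c7, Nat.mul_div_mul_left _ _ hk.pos, hm, two_mul]
  · rintro ⟨rfl, rfl, e1, e2⟩
    have h2 := Orth.two_ne_zero_of_odd_card e2
    refine (eluP_two_iff h.toNd h2).2 ⟨fun g a1 a2 a3 a4 => ?_, fun g a1 a2 => ?_⟩
    · let τ := FiniteField.frobeniusAlgEquivOfAlgebraic F K
      have t1 : orderOf τ = 2 := (FiniteField.orderOf_frobeniusAlgEquivOfAlgebraic F K).trans e1
      obtain ⟨t2, t3⟩ := (orderOf_eq_prime_iff (hp := ⟨Nat.prime_two⟩)).1 t1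
      obtain ⟨e, e3, -⟩ := IsSS.isometric (isSS_sympB 1) c4 (by rw [finrank_symp]; rw [e1] at c7; omega)
      let b := (Pi.basisFun K _).map e
      obtain ⟨z, hz⟩ := exists_dmap b fun _ => τ.toLinearMap
      have z1 : Pres B Q z := IsSS.pres h (map_B_of_basis b fun a c i j => by
        have : τ (Ψ (b i) (b j)) = Ψ (b i) (b j) := by
          rcases i with i | i <;> rcases j with j | j <;>
            simp [b, e3, Sp.form_eq, Subsingleton.elim i 0, Subsingleton.elim j 0]
        simp only [hz, c2, map_smul, LinearMap.smul_apply, smul_eq_mul, AlgEquiv.toLinearMap_apply]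
        rw [← this, ← map_mul, ← map_mul, this, Algebra.trace_eq_of_algEquiv])
      have z2 : z * z = 1 := ext_basis b fun a j => by
        simpa [hz, sq] using congrArg (· • b j) (AlgEquiv.congr_fun t2 a)
      have z3 : ∀ c : F, z ≠ c • 1 := fun c e => t3 (AlgEquiv.ext fun a => by
        have k1 := hz a (.inl 0)
        have k2 := hz 1 (.inl 0)
        rw [e] at k1 k2
        simp only [LinearMap.smul_apply, End.one_apply, one_smul, map_one, AlgEquiv.toLinearMap_apply] at k1 k2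
        rw [smul_comm, k2] at k1
        exact (smul_left_injective K (b.ne_zero _) k1).symm)
      refine ⟨z, semi_of_basis b τ fun a c j => by simp [hz, smul_smul],
        IsSS.isoSim_of_rk h2 h a1 z1 a2 z2 ?_⟩
      obtain ⟨k1, k2⟩ := IsSS.rk_invol h2 h a1 a2
      obtain ⟨k3, k4⟩ := IsSS.rk_invol h2 h z1 z2
      have := k2 a4
      have := k4 (by simpa using z3 (-1))
      have := mt rk_eq_zero_iff.1 a3
      have := mt rk_eq_zero_iff.1 (show z ≠ 1 by simpa using z3 1)
      rw [Nat.even_iff] at k1 k3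
      omega
    · obtain ⟨y, b1, b2⟩ := IsSS.exists_mul_eq_neg c4
      exact ⟨_, semi_restrictScalars y, isoSim_of_mul_eq_neg h2 (h.isFormed fType_sp)
        (h.isFormed fType_sp) ((c5 y).1 b1) a1 (congrArg (LinearMap.restrictScalars F) b2) a2 rfl⟩

omit [Fintype F] [Fintype K] [FiniteDimensional F V] in
theorem exists_diag_pres {ι : Type*} [Fintype ι] (b : Basis ι K V) (h2 : (2 : K) ≠ 0) (S : Finset ι)
    (ho : ∀ (a c : K) i j, i ≠ j → B (a • b i) (c • b j) = 0) : ∃ y : End K V, rk y = S.card ∧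
      y * y = 1 ∧ (∀ u v, B (y u) (y v) = B u v) ∧ (∀ j ∈ S, y (b j) = -b j) ∧ ∀ j ∉ S, y (b j) = b j := by
  obtain ⟨y, a1, a2, a3⟩ := exists_diag_rk b h2 S
  refine ⟨y, a1, b.ext fun j => by by_cases h : j ∈ S <;> simp [a2, a3, h],
    map_B_of_basis b (z := y.restrictScalars F) fun a c i j => ?_, a2, a3⟩
  by_cases h : i = j
  · subst h
    by_cases h : i ∈ S <;> simp [a2, a3, h]
  · by_cases h : i ∈ S <;> by_cases h' : j ∈ S <;> simp [*]

omit [FiniteDimensional F V] in
theorem eq_frob (hk : finrank F K = 2) {τ : K ≃ₐ[F] K} (h : τ ≠ 1) :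
    τ = FiniteField.frobeniusAlgEquivOfAlgebraic F K := by
  obtain ⟨t, -, ht⟩ := (Nat.card_eq_two_iff' (1 : K ≃ₐ[F] K)).1 ((IsGalois.card_aut_eq_finrank F K).trans hk)
  exact (ht τ h).trans (ht _ ((orderOf_eq_prime_iff (hp := ⟨Nat.prime_two⟩)).1
    ((FiniteField.orderOf_frobeniusAlgEquivOfAlgebraic F K).trans hk)).2).symm

omit [Fintype F] [FiniteDimensional F V] in
theorem exists_adj [Nontrivial V] (h : Nd (RingHom.id F) B)
    (hac : ∀ a : K, ∃ a' : K, ∀ u v, B (a • u) v = B u (a' • v)) :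
    ∃ τ : K ≃ₐ[F] K, ∀ (a : K) u v, B (a • u) v = B u (τ a • v) := by
  choose t ht using hac
  obtain ⟨x, hx⟩ := exists_ne (0 : V)
  have key : ∀ {a b : K}, (∀ u, B u (a • x) = B u (b • x)) → a = b := fun e =>
    smul_left_injective K hx (sub_eq_zero.1 (h.right _ fun u => by simp [e u]))
  let f : K →ₐ[F] K :=
    { toFun := t
      map_one' := key fun u => by rw [← ht, one_smul, one_smul]
      map_mul' := fun a b => key fun u => by rw [← ht, mul_comm, mul_smul, ht, ht, mul_smul]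
      map_zero' := key fun u => by rw [← ht]; simp
      map_add' := fun a b => key fun u => by rw [← ht]; simp [add_smul, ht]
      commutes' := fun c => key fun u => by rw [← ht]; simp }
  exact ⟨AlgEquiv.ofBijective f f.bijective, ht⟩

theorem OddP.not_dvd_uf (hr : OddP F r i) (hi : i % 4 = 2) {N e e' : ℕ}
    (h : N * (Fintype.card F ^ e * uf (Fintype.card F) d) ∣
      Fintype.card F ^ e' * qf2 (Fintype.card F) d) : ¬ r ∣ N := fun hN => by
  set q := Fintype.card F
  have h1 : qf2 q d = uf q d * ∏ j ∈ Finset.range d, if Even j then q ^ (j + 1) - 1 else q ^ (j + 1) + 1 := by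
    rw [qf2, uf, ← Finset.prod_mul_distrib]
    exact Finset.prod_congr rfl fun j _ => by
      split_ifs <;> rw [pow_mul', ← one_pow 2, Nat.sq_sub_sq] <;> simp [mul_comm]
  rw [h1, ← mul_assoc, mul_left_comm, mul_comm (uf q d),
    Nat.mul_dvd_mul_iff_right (uf_pos Fintype.one_lt_card d)] at h
  obtain ⟨j, -, hj⟩ := (hr.prime.prime.dvd_finsetProd_iff _).1 (((Nat.Prime.dvd_mul hr.prime).1
    ((hN.mul_right _).trans h)).resolve_left fun e => hr.not_dvd_card (hr.prime.dvd_of_dvd_pow e))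
  split_ifs at hj with h2
  · obtain ⟨c, hc⟩ := (hr.dvd_iff _).1 hj
    have : Even (j + 1) := hc ▸ (Nat.even_iff.2 (by omega)).mul_right c
    exact Nat.even_add_one.1 this h2
  · have h3 : i ∣ 2 * (j + 1) := (hr.dvd_iff _).1 (by
      rw [pow_mul', ← one_pow 2, Nat.sq_sub_sq]; exact hj.mul_right _)
    obtain ⟨c, rfl⟩ : ∃ c, i = 2 * c := ⟨i / 2, by omega⟩
    have h4 := (hr.dvd_iff _).2 (Nat.Coprime.mul_dvd_of_dvd_of_dvd
      (Nat.coprime_two_left.2 (Nat.odd_iff.2 (by omega))) (Nat.even_add_one.2 h2).two_dvd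
      (Nat.dvd_of_mul_dvd_mul_left two_pos h3))
    have h5 := Nat.dvd_sub hj h4
    have := Nat.one_le_pow (j + 1) q Fintype.card_pos
    rw [show q ^ (j + 1) + 1 - (q ^ (j + 1) - 1) = 2 by omega,
      Nat.prime_dvd_prime_iff_eq hr.prime Nat.prime_two] at h5
    exact hr.ne_two h5

theorem IsSS.eluP_semi_u (h : IsSS B Q) (hk : finrank F K = 2)
    (hac : ∀ a : K, ∃ a' : K, ∀ u v, B (a • u) v = B u (a' • v))
    (hs : ¬ ∀ (a : K) u v, B (a • u) v = B u (a • v)) (ho : Odd (Fintype.card F))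
    (hn : finrank F V = 2 * d) (hd : 2 ≤ d) {p : ℕ} [Fact p.Prime] [CharP F p] [hr : Fact r.Prime]
    (hΩ : r ∣ semiIdx K (⊤ : Subgroup (Isom B Q))) :
    EluP B Q r (fun g => ∃ y, Semi K y ∧ IsoSim B Q y B Q g) ↔ r = 2 := by
  have : Nontrivial V := nontrivial_of_finrank_pos (R := F) (by omega)
  have : FiniteDimensional K V := Module.Finite.of_restrictScalars_finite F K V
  have : Finite V := Module.finite_of_finite F
  have := charP_of_injective_algebraMap (algebraMap F K).injective p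
  have hk' : (finrank F K).Prime := hk ▸ Nat.prime_two
  have : U.UF K (Fintype.card F) := .of_card (by rw [Module.card_eq_pow_finrank (K := F), hk])
  obtain ⟨τ, hτ⟩ := exists_adj h.toNd hac
  have t1 : ∀ a, τ a = U.conj K (Fintype.card F) a := fun a => by
    rw [eq_frob hk (τ := τ) (by rintro rfl; exact hs hτ)]; rfl
  obtain ⟨δ, d1, d2⟩ := U.exists_trace_zero K (Fintype.card F)
  let T : Dual F K := Algebra.trace F K ∘ₗ LinearMap.mulRight F δ
  have hT : T ≠ 0 := fun e =>
    d1 (Max.eq_zero_of_forall_mul (Algebra.trace_ne_zero F K) (LinearMap.congr_fun e))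
  have t2 : ∀ a, T (U.conj K (Fintype.card F) a) = -T a := fun a => by
    simp only [T, LinearMap.comp_apply, LinearMap.mulRight_apply]
    rw [← Algebra.trace_eq_of_algEquiv τ, map_mul, t1, t1, U.conj_conj, ← map_neg,
      eq_neg_of_add_eq_zero_right d2, mul_neg]
  obtain ⟨Ψ, c1, c2⟩ := exists_lift (s := U.conj K (Fintype.card F)) (η := 1) h.toHerm hT U.conj_conj
    (fun a => t1 a ▸ hτ a) (by simpa using t2)
  have c4 : IsUS (Fintype.card F) Ψ fun x => Ψ x x :=
    have h := c1.isHermSpace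
    ⟨h.herm, h.add, h.smul, fun x => (h.range x).imp fun c hc => ⟨hc.symm, by simpa using hc.symm⟩⟩
  have c5 : ∀ y : End K V, Pres Ψ (fun x => Ψ x x) y ↔ Pres B Q (y.restrictScalars F) := fun y =>
    ⟨fun hy => IsSS.pres h fun u v => by simp [c2, hy.map_B],
      fun hy => IsUS.pres c4 (map_lift hT c2 hy.map_B)⟩
  have c6 := semiIdx_mul_dvd ⊤ fun y => (c5 y).1
  have c7 : finrank K V = d := by have := Module.finrank_mul_finrank F K V; rw [hk] at this; omega
  have h2 := Orth.two_ne_zero_of_odd_card ho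
  constructor
  · intro H
    by_contra r2
    by_cases hp : r = p
    · exact IsSS.not_eluP_char h hk' (by omega) p (hp ▸ H)
    have r1 := oddP_of (F := F) p r2 hp rfl
    have r3 := oddP_of (F := K) p r2 hp rfl
    obtain ⟨y, a1, a2, a3⟩ := IsSS.exists_min h r1 hk' ((hΩ.mul_right _).trans c6)
      (fun e => absurd (e.trans hk) r2) H
    rw [IsUS.card_isom c4, IsSS.card_isom h hn, c7] at c6
    refine r1.not_dvd_uf ?_ c6 hΩ
    have hb := blk_cycFac (F := K) (q := Fintype.card F) r3.ne_zero rfl rfl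
    obtain ⟨u, k, b1, b2⟩ := exists_eq_add_replicate fun t ht =>
      mem_elemDiv_of_pow_prime hr.out r3.ne_zero a2 (b := t) ht
    have b3 := c4.toNd.map_dual_elemDiv ((c5 y).2 a1).map_B
    have b4 := rk_add_finrank_ker y
    rw [finrank_ker_sub_one, KSG.finrank_eq_sum_elemDiv y, b2, hb.sum_deg b1, Multiset.map_add,
      Multiset.sum_add, Multiset.map_congr rfl
      fun b hb => gdeg_X_sub_one_of_mem_cycFac hr.out r3.ne_zero (b1 b hb)] at b4
    refine ((blk_cases (F := K) (q := Fintype.card F) r2 r3.ne_zero rfl rfl rfl).resolve_right fun e => ?_).1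
    obtain ⟨v, rfl⟩ := hb.exists_half e.2.1 b1 (map_dual_add_replicate_iff.1 (b2 ▸ b3))
    have b5 := r1.pos
    simp [-map_one, KSG.gdeg_of_dvd] at b4
    rw [b4, hk, cc] at a3
    split_ifs at a3 with b6
    · obtain ⟨c, hc⟩ := b6
      rw [hc, show (c + c) / 2 = c by omega] at a3
      rcases Nat.eq_zero_or_pos (Multiset.card v) with e | e <;> nlinarith
    · rcases Nat.eq_zero_or_pos (Multiset.card v) with e | e <;> nlinarith
  · rintro rfl
    obtain ⟨e, e3, -⟩ := IsUS.isometric (isUS_hermB d) c4 (by simp [c7])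
    let b := (Pi.basisFun K _).map e
    have hb : ∀ i j, Ψ (b i) (b j) = if i = j then 1 else 0 := fun i j => by
      simp [b, e3, hermForm, Pi.single_apply, eq_comm]
    refine (eluP_two_iff h.toNd h2).2 ⟨fun g a1 a2 _ a4 => ?_, fun g a1 a2 => ?_⟩
    · obtain ⟨⟨a, k1⟩, k2⟩ := IsSS.rk_invol h2 h a1 a2
      obtain ⟨S, -, hS⟩ := Finset.exists_subset_card_eq (s := (Finset.univ : Finset (Fin d))) (n := a)
        (by have := k2 a4; simp; omega)
      obtain ⟨y, b1, b2, b3, -⟩ := exists_diag_pres (B := B) b (two_ne_zero_of_odd ho) S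
        fun a c i j hij => by simp [c2, hb, hij]
      exact ⟨_, semi_restrictScalars y, IsSS.isoSim_of_rk h2 h a1 (IsSS.pres h b3) a2
        (congrArg (LinearMap.restrictScalars F) b2) (by rw [rk_restrictScalars, hk, b1]; omega)⟩
    · obtain ⟨α, hα⟩ := U.exists_norm_eq (F := K) (q := Fintype.card F) (μ := -1) (by simp)
      obtain ⟨z, hz⟩ := exists_dmap b fun _ => LinearMap.mulLeft F α ∘ₗ τ.toLinearMap
      refine ⟨z, semi_of_basis b τ fun a c j => by simp [hz, smul_smul, mul_left_comm],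
        isoSim_of_mul_eq_neg h2 (h.isFormed fType_sp) (h.isFormed fType_sp)
          (IsSS.pres h (map_B_of_basis b fun a c i j => ?_)) a1 (ext_basis b fun a j => ?_) a2 rfl⟩
      · simp only [hz, c2, map_smulₛₗ, LinearMap.smul_apply, smul_eq_mul, hb, LinearMap.comp_apply,
          LinearMap.mulLeft_apply, AlgEquiv.toLinearMap_apply, t1, RingHom.id_apply]
        rw [← neg_inj, ← t2, ← map_neg]
        congr 1
        split_ifs <;> simp [U.conj_conj]
        linear_combination (c * U.conj K (Fintype.card F) a) * hα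
      · simp [hz, t1, U.conj_conj, ← mul_assoc, hα]

end Cfsg.Agent.Class.Elus
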