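import Mathlib
import Cfsg.Agent.Class.Elus.Ext3
import Cfsg.Agent.S0756

/-!
Elements of prime order of orthogonal groups and normalisers of quadratic extension fields.
-/

set_option autoImplicit false

namespace Cfsg.Agent.Class.Elus

open Polynomial Module Cfsg.Agent.Class.Wall
open Cfsg.Agent.KSG (Sim IsPP elemDiv cycFac)

variable {F K V : Type*} [Field F] [Field K] [Algebra F K] [AddCommGroup V] [Module F V]
  [Module K V] [IsScalarTower F K V] {g y : End F V} {r i i' k d : ℕ}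
  {B : LinearMap.BilinForm F V} {Q : V → F} {W : Submodule F V} {w w' : V}

theorem Pres.mul_rk1 (hy : Pres B Q y) (c : F) (w : V) : y * rk1 B c w = rk1 B c (y w) * y :=
  LinearMap.ext fun x => by simp [rk1_apply, hy.map_B]

theorem IsOS.refl_mul_self (h : IsOS B Q) (h0 : Q w ≠ 0) :
    rk1 B (-(Q w)⁻¹) w * rk1 B (-(Q w)⁻¹) w = 1 := by
  rw [rk1_mul, IsOS.self_eq h, ← rk1_zero (B := B) w]
  congr 1
  field_simp
  ring

theorem InOm.mul (h : InOm B Q g) (h' : InOm B Q y) : InOm B Q (g * y) := by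
  obtain ⟨k, hk, rfl⟩ := h
  obtain ⟨k', hk', rfl⟩ := h'
  exact ⟨k * k', mul_mem hk hk', rfl⟩

theorem IsOS.exists_pair (h : IsOS B Q) (hd : finrank F W = 2) (hw : w ∈ W) (hw' : w' ∈ W)
    (h0 : B w w ≠ 0) (h0' : B w' w' ≠ 0) (ho : B w w' = 0) {x : V} (hx : x ∈ W) :
    ∃ s t : F, x = s • w + t • w' := by
  have : FiniteDimensional F W := Module.finite_of_finrank_pos (by omega)
  have h1 : LinearIndependent F ![w, w'] := LinearIndependent.pair_iff.2 fun s t e =>
    ⟨by simpa [ho, h0] using congrArg (B w) e,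
      by simpa [IsOS.symm' h w' w, ho, h0'] using congrArg (B w') e⟩
  rw [← Submodule.eq_of_le_of_finrank_le (S₁ := Submodule.span F (Set.range ![w, w'])) (S₂ := W)
    (Submodule.span_le.2 (by rintro _ ⟨i, rfl⟩; fin_cases i <;> assumption))
    (by rw [finrank_span_eq_card h1, hd, Fintype.card_fin]),
    Submodule.mem_span_range_iff_exists_fun] at hx
  obtain ⟨c, rfl⟩ := hx
  exact ⟨c 0, c 1, by simp⟩

variable [FiniteDimensional F V]

theorem NegOn.mem_iff (hW : NegOn B g W) (h2 : (2 : F) ≠ 0) (h : IsOS B Q) {v : V} :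
    v ∈ W ↔ g v = -v := ⟨hW.neg v, fun e => hW.range_eq h2 (h.isFormed fType_orth) ▸ ⟨(2⁻¹ : F) • v, by
      rw [map_smul, LinearMap.sub_apply, e, End.one_apply, sub_neg_eq_add, ← two_smul F,
        inv_smul_smul₀ h2]⟩⟩

theorem NegOn.refl_mul_refl (hW : NegOn B g W) (h2 : (2 : F) ≠ 0) (h : IsOS B Q)
    (hd : finrank F W = 2) (hw : w ∈ W) (hw' : w' ∈ W) (h0 : Q w ≠ 0) (h0' : Q w' ≠ 0)
    (ho : B w w' = 0) : rk1 B (-(Q w)⁻¹) w * rk1 B (-(Q w')⁻¹) w' = g := LinearMap.ext fun v => by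
  obtain ⟨x, u, rfl⟩ := (h.isFormed fType_orth).exists_add_perp hW.nd v
  obtain ⟨s, t, e⟩ := IsOS.exists_pair h hd hw hw' (by simp [IsOS.self_eq h, *])
    (by simp [IsOS.self_eq h, *]) ho x.2
  rw [map_add, map_add, hW.neg _ x.2, hW.fix _ u.2, e]
  simp only [End.mul_apply, rk1_apply, map_add, map_smul, u.2 w hw, u.2 w' hw', IsOS.self_eq h, ho,
    IsOS.symm' h w' w]
  match_scalars <;> field_simp <;> ring

variable [Fintype F]

theorem IsOS.inOm_mul_self (h2 : (2 : F) ≠ 0) (h : IsOS B Q) (hg : Pres B Q g) : InOm B Q (g * g) := by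
  obtain ⟨Q, rfl, rfl, hQ⟩ := h.exists_quadraticForm
  obtain ⟨k, rfl⟩ := exists_og hQ hg
  have hQ' := (Orth.nd_iff Q).2 hQ
  exact (inOm_iff_og (k * k)).2 ((Orth.mem_commutator_iff hQ' (hQ'.reflGen_odd h2) _).2
    ⟨by rw [map_mul, Int.units_mul_self], by rw [map_mul, Orth.sqClass_mul_self]⟩)

theorem IsOS.cs_of_refl (h2 : (2 : F) ≠ 0) (h : IsOS B Q) {P : End F V → Prop}
    (hW : W ⊓ perp B W = ⊥) (hd : 2 ≤ finrank F W)
    (hP : ∀ y w, P y → w ∈ W → Q w ≠ 0 → P (rk1 B (-(Q w)⁻¹) w * y * rk1 B (-(Q w)⁻¹) w))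
    (h1 : P y) (H : IsoSim B Q y B Q g) : CS (commutator (Isom B Q)) P g := by
  have h' := h
  obtain ⟨Q, rfl, rfl, hQ⟩ := h.exists_quadraticForm
  have hQ' := (Orth.nd_iff Q).2 hQ
  have hR := hQ'.reflGen_odd h2
  have k1 : ∀ (e : Orth.OG Q) w, w ∈ W → Q w ≠ 0 → (∃ y, P y ∧ ∀ v, e.1 (y v) = g (e.1 v)) →
      ∃ y, P y ∧ ∀ v, (e * Orth.refl Q w).1 (y v) = g ((e * Orth.refl Q w).1 v) := by
    rintro e w a1 a2 ⟨y, a3, a4⟩
    have : ∀ v, (Orth.refl Q w).1 v = rk1 (QuadraticMap.polarBilin Q) (-(Q w)⁻¹) w v := fun v => by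
      simp [rk1_apply, Orth.refl_apply, sub_eq_add_neg, QuadraticMap.polar_comm Q v w]
    refine ⟨_, hP y w a3 a1 a2, fun v => ?_⟩
    rw [Orth.OG.mul_apply, Orth.OG.mul_apply, this, this, ← a4, ← End.mul_apply, ← mul_assoc,
      ← mul_assoc, IsOS.refl_mul_self h' a2, one_mul, End.mul_apply]
  have k2 : ∀ c : F, c ≠ 0 → ∃ w ∈ W, Q w = c := fun c => Orth.exists_mem_Q_eq W (fun x a1 a2 =>
    (Submodule.eq_bot_iff _).1 hW x ⟨a1, fun y hy => (QuadraticMap.polar_comm Q y x).trans (a2 y hy)⟩) hd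
  have k3 : ∀ e : Orth.OG Q, Orth.dickson hQ' hR e ≠ 1 → (∃ y, P y ∧ ∀ v, e.1 (y v) = g (e.1 v)) →
      CS (commutator (Isom (QuadraticMap.polarBilin Q) Q)) P g := fun e a1 a2 => by
    obtain ⟨c, b1, b2⟩ := Orth.sqClass_surjective (Orth.spinor hQ' hR e)
    obtain ⟨w, b3, rfl⟩ := k2 c b1
    exact ⟨Orth.ogEquiv Q (e * Orth.refl Q w), (Orth.mem_commutator_equiv _ _).2
      ((Orth.mem_commutator_iff hQ' hR _).2 ⟨by
        rw [map_mul, Orth.dickson_refl hQ' hR b1, (Int.units_eq_one_or _).resolve_left a1]; simp, by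
        rw [map_mul, Orth.spinor_refl hQ' hR b1, b2, Orth.sqClass_mul_self]⟩), k1 e w b3 b1 a2⟩
  obtain ⟨e, -, a1, a2⟩ := H
  by_cases a3 : Orth.dickson hQ' hR ⟨e, a1⟩ = 1
  · obtain ⟨w, b1, b2⟩ := k2 1 one_ne_zero
    have b3 : Q w ≠ 0 := b2 ▸ one_ne_zero
    exact k3 _ (by rw [map_mul, a3, Orth.dickson_refl hQ' hR b3]; decide) (k1 ⟨e, a1⟩ w b1 b3 ⟨y, h1, a2⟩)
  · exact k3 _ a3 ⟨y, h1, a2⟩

theorem IsOS.exists_eichler (h : IsOS B Q) (hn : 4 < finrank F V) (p : ℕ) [CharP F p] :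
    ∃ g, Pres B Q g ∧ g ^ p = 1 ∧ g ≠ 1 ∧ rk g ≤ 2 ∧ (1 - g) * (1 - g) = 0 := by
  obtain ⟨W, -, a1, a2⟩ := (IsOS.exists_tss_iff h (U := ⊤)
    (by rw [(h.isFormed fType_orth).perp_top, inf_bot_eq]) 2).2 (Or.inl (by simpa using hn))
  let b := finBasisOfFinrankEq F W a2
  have a3 : ∀ i j, B (b i) (b j) = 0 := fun i j => a1.1 _ (b i).2 _ (b j).2
  let N : End F V := (B (b 0)).smulRight (b 1 : V) - (B (b 1)).smulRight (b 0 : V)
  have a4 : ∀ x, N x = B (b 0) x • (b 1 : V) - B (b 1) x • (b 0 : V) := fun _ => rfl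
  have a5 : N * N = 0 := LinearMap.ext fun x => by simp [a4, a3]
  have a6 : ∀ n : ℕ, (1 + N) ^ n = 1 + (n : F) • N := fun n => by
    induction n with
    | zero => simp
    | succ n ih => simp [pow_succ, ih, add_mul, mul_add, a5, add_smul, add_assoc]
  refine ⟨1 + N, IsOS.pres_of_Q h fun x => ?_, by simp [a6], fun e => ?_, a2 ▸ Submodule.finrank_mono ?_,
    by simpa using a5⟩
  · rw [LinearMap.add_apply, End.one_apply, IsOS.add' h, a4,
      a1.2 _ (W.sub_mem (W.smul_mem _ (b 1).2) (W.smul_mem _ (b 0).2))]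
    simp [IsOS.symm' h x, mul_comm]
  · refine b.ne_zero 0 (Subtype.ext (h.left _ fun x => ?_))
    simpa using congrArg (b.repr · 1) (show B (b 0) x • b 1 - B (b 1) x • b 0 = 0 from
      Subtype.ext (LinearMap.congr_fun (add_eq_left.1 e) x))
  · rintro _ ⟨x, rfl⟩
    simpa [a4] using W.sub_mem (W.smul_mem _ (b 0).2) (W.smul_mem _ (b 1).2)

omit [Fintype F] [FiniteDimensional F V] [Algebra F K] [IsScalarTower F K V] in
theorem IsOS.eq_one_of_rk [FiniteDimensional K V] (h2 : (2 : F) ≠ 0) (h : IsOS B Q)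
    (hs : ∀ (a : K) u v, B (a • u) v = B u (a • v)) {y : End K V} (hy : ∀ u v, B (y u) (y v) = B u v)
    (h1 : rk y ≤ 1) (h0 : (1 - y) * (1 - y) = 0) : y = 1 := by
  obtain ⟨M, rfl⟩ : ∃ M, y = 1 - M := ⟨1 - y, by simp⟩
  rw [rk, sub_sub_cancel] at *
  have a1 : ∀ u, M (M u) = 0 := LinearMap.congr_fun h0
  have a2 : ∀ u v, B (M u) v = -B u (M v) := fun u v => by
    have b1 := hy u v
    have b2 := hy (M u) v
    simp only [LinearMap.sub_apply, End.one_apply, map_sub, a1, map_zero, LinearMap.zero_apply] at b1 b2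
    linear_combination -b1 - b2
  have a3 : ∀ (a : K) u, B u (a • M u) = 0 := fun a u => mul_left_cancel₀ h2 (by
    have := a2 (a • u) u
    rw [map_smul, hs a u, IsOS.symm' h] at this
    linear_combination this)
  obtain ⟨⟨_, u, rfl⟩, hu⟩ := finrank_le_one_iff.1 h1
  have a4 : M u = 0 := h.left _ fun v => by
    obtain ⟨c, hc⟩ := hu ⟨_, v, rfl⟩
    rw [a2, ← show c • M u = M v from congrArg Subtype.val hc, a3, neg_zero]
  refine sub_eq_self.2 (LinearMap.ext fun v => ?_)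
  obtain ⟨c, hc⟩ := hu ⟨_, v, rfl⟩
  rw [← show c • M u = M v from congrArg Subtype.val hc, a4, smul_zero, LinearMap.zero_apply]

variable [Fintype K]

theorem IsOS.exists_lin (h2 : (2 : F) ≠ 0) (h : IsOS B Q) (hk : finrank F K = 2) (hr : r.Prime)
    (r2 : r ≠ 2) (H : EluN (commutator (Isom B Q)) r (Semi K)) (hg : Pres B Q g) (h1 : g ^ r = 1)
    (h0 : g ≠ 1) : ∃ y : End K V, IsoSim B Q (y.restrictScalars F) B Q g ∧ y ^ r = 1 := by
  have : Nontrivial V := by by_contra! e; exact h0 (Subsingleton.elim _ _)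
  have ho := hr.odd_of_ne_two r2
  obtain ⟨y, b1, b2⟩ := (H g (IsOS.inOm_of_odd h (Or.inl h2) hg ho h1) ⟨1, by simpa using h1⟩ (by
    rintro z rfl
    rcases mul_self_eq_one_iff.1 (mul_self_eq_one_of_pres h.toNd hg) with rfl | rfl
    · simp at h0
    · rw [_root_.smul_pow, ho.neg_one_pow, one_pow] at h1
      exact h0 h1)).isoSim
  have b4 : y ^ r = 1 := by simpa using Sim.pow_eq_smul b2.symm.sim (r := r) (z := 1) (by simpa using h1)
  rcases b1.cases (hk ▸ Nat.prime_two) with ⟨y, rfl⟩ | ⟨-, c2⟩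
  · exact ⟨y, b2, LinearMap.restrictScalars_injective F ((restrictScalars_pow y r).symm.trans b4)⟩
  · exact absurd ((c2 r hr ‹_› b4).trans hk) r2

theorem IsOS.eq_two_of_eluN (h : IsOS B Q) (hk : finrank F K = 2)
    (hs : ∀ (a : K) u v, B (a • u) v = B u (a • v)) (h2 : (2 : F) ≠ 0) (hn : 4 < finrank F V)
    {p : ℕ} [Fact p.Prime] [CharP F p] [hr : Fact r.Prime]
    (hΩ : r ∣ semiIdx K (commutator (Isom B Q))) (H : EluN (commutator (Isom B Q)) r (Semi K)) :
    r = 2 := by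
  by_contra r2
  have : FiniteDimensional K V := Module.Finite.of_restrictScalars_finite F K V
  have : Finite V := Module.finite_of_finite F
  have := charP_of_injective_algebraMap (algebraMap F K).injective p
  by_cases hp : r = p
  · subst hp
    obtain ⟨g, a1, a2, a3, a4, a5⟩ := IsOS.exists_eichler h hn r
    obtain ⟨y, b1, -⟩ := IsOS.exists_lin h2 h hk hr.out r2 H a1 a2 a3
    have b2 := IsoSim.rk_eq b1
    obtain rfl := IsOS.eq_one_of_rk h2 h hs (y := y) (IsoSim.pres b1.symm a1).map_B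
      (by rw [rk_restrictScalars, hk] at b2; omega) (by
        obtain ⟨e, -, -, he⟩ := b1
        exact LinearMap.ext fun v => e.injective (by
          simpa [← he] using LinearMap.congr_fun a5 (e v)))
    exact a3 (rk_eq_zero_iff.1 (b2.symm.trans rk_one))
  have hT := Algebra.trace_ne_zero F K
  obtain ⟨Ψ, c1, c2⟩ := exists_lift (s := RingHom.id K) (η := 1) h.toHerm hT (fun _ => rfl) hs
    (by simp)
  have k2 : (2 : K) ≠ 0 := map_ofNat (algebraMap F K) 2 ▸ (_root_.map_ne_zero _).2 h2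
  have c4 : IsOS Ψ _ := c1.isTF_of_two_ne k2
  have c6 := semiIdx_mul_dvd (Ψ := Ψ) (Q' := fun x => 2⁻¹ * Ψ x x) (commutator (Isom B Q))
    fun y hy => IsOS.pres_of_B h2 h fun u v => by simp [c2, hy.map_B]
  have c7 := Module.finrank_mul_finrank F K V
  have r1 := oddP_of (F := F) p r2 hp rfl
  have r3 := oddP_of (F := K) p r2 hp rfl
  generalize orderOf (Fintype.card F : ZMod r) = i at r1
  generalize orderOf (Fintype.card K : ZMod r) = i' at r3
  have key : ∀ A, A ≠ 0 → A * cc i ≤ 2 * dd i (finrank F V) (Plus F Q) → ∃ A', A * cc i = 2 * (A' * cc i') ∧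
      A' * cc i' ≤ 2 * dd i' (finrank K V) (Plus K fun x => 2⁻¹ * Ψ x x) := fun A a1 a2 => by
    obtain ⟨g, b1, b2, b3, b4⟩ := (IsOS.cap h r1).exists_rk r1 h.toNd a1 a2
    obtain ⟨y, d1, d2⟩ := IsOS.exists_lin h2 h hk hr.out r2 H b1 b2 b3
    obtain ⟨A', d3, d4⟩ := (IsOS.cap c4 r3).rk_eq r3 c4.toNd
      (IsOS.pres_of_B k2 c4 (map_lift hT c2 (IsoSim.pres d1.symm b1).map_B)) d2
    exact ⟨A', by rw [← b4, ← IsoSim.rk_eq d1, rk_restrictScalars, hk, d3], d4⟩
  have e0 := cc_pos r1.pos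
  have e1 := r1.div_lt_of_dvd (D' := 0) (a := 1) (IsOS.card_isom_ne_zero h (by omega)) (by simp [qf2])
    (IsOS.factorization_card h r1 (by omega)) (by simp) ((hΩ.mul_right _).trans c6)
  rw [mul_zero, Nat.zero_div] at e1
  obtain ⟨A, a1, -⟩ := key 1 one_ne_zero ((mul_le_iff_le_div e0).2 e1)
  have e2 : Fintype.card K = Fintype.card F ^ 2 := by rw [Module.card_eq_pow_finrank (K := F), hk]
  have e3 := r1.cc_eq r3 e2 two_ne_zero (by rwa [one_mul] at a1)
  obtain ⟨A', a2, a3⟩ := key _ e1.ne' (Nat.div_mul_le_self _ _)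
  refine r1.not_dvd_of_cc e2 e3 ?_ (IsOS.card_isom_ne_zero h (by omega))
    (IsOS.factorization_card c4 r3 (by rw [hk] at c7; omega)) (IsOS.factorization_card h r1 (by omega)) c6 hΩ
  rw [mul_left_comm, ← e3, Nat.mul_left_inj e0.ne'] at a2
  exact a2 ▸ (mul_le_iff_le_div (cc_pos r3.pos)).1 a3

theorem IsOS.eluN_two (h : IsOS B Q) (hk : finrank F K = 2)
    (hs : ∀ (a : K) u v, B (a • u) v = B u (a • v)) (h2 : (2 : F) ≠ 0) (hn : 2 < finrank F V) :
    EluN (commutator (Isom B Q)) 2 (Semi K) := by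
  classical
  have : Nontrivial V := nontrivial_of_finrank_pos (R := F) (by omega)
  have : FiniteDimensional K V := Module.Finite.of_restrictScalars_finite F K V
  have : U.UF K (Fintype.card F) := .of_card (by rw [Module.card_eq_pow_finrank (K := F), hk])
  have h' := h.isFormed fType_orth
  have k2 : (2 : K) ≠ 0 := map_ofNat (algebraMap F K) 2 ▸ (_root_.map_ne_zero _).2 h2
  let τ := FiniteField.frobeniusAlgEquivOfAlgebraic F K
  set σ := U.conj K (Fintype.card F)
  have t1 : ∀ a, τ a = σ a := fun _ => rfl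
  have t2 : ∀ a, σ (σ a) = a := U.conj_conj
  have inj := (algebraMap F K).injective
  obtain ⟨T, hT, t3⟩ := Max.Fm.exists_trace (hk ▸ Nat.prime_two) t2 τ.commutes (U.conj_ne_id K _)
  obtain ⟨Ψ, c1, c2⟩ := exists_lift (s := RingHom.id K) (η := 1) h.toHerm hT (fun _ => rfl) hs
    (by simp)
  obtain ⟨β, hβ⟩ : ∃ β, β * σ β = -1 := U.exists_norm_eq (by simp)
  obtain ⟨α, α0, hα⟩ : ∃ α, α ≠ 0 ∧ σ α = β * β * α := U.exists_conj_div_eq (by
    rw [map_mul, mul_mul_mul_comm, hβ]; simp)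
  have α1 : ¬ IsSquare α := by
    rintro ⟨γ, rfl⟩
    have g0 : γ * σ γ ≠ 0 := by simpa using α0
    rw [map_mul, mul_mul_mul_comm, mul_self_eq_mul_self_iff] at hα
    refine mul_ne_zero k2 g0 ?_
    rcases hα with e | e <;> have e' := congrArg σ e <;> simp only [t2, map_mul, map_neg] at e'
    · linear_combination σ γ * e' + σ β * σ γ * e + γ * σ γ * hβ
    · linear_combination σ γ * e' - σ β * σ γ * e + γ * σ γ * hβ
  have c7 := Module.finrank_mul_finrank F K V
  rw [hk] at c7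
  obtain ⟨n, hn'⟩ : ∃ n, finrank K V = n + 1 := ⟨finrank K V - 1, by omega⟩
  obtain ⟨b, b1, b2, b3⟩ := S0756.result k2 (α⁻¹ • Ψ) ⟨fun x y => by simp [c1.symm x y]⟩
    ⟨fun x hx => c1.left x fun y => by simpa [α0] using hx y,
      fun x hx => c1.right x fun y => by simpa [α0] using hx y⟩ hn' α α1
  simp only [LinearMap.smul_apply, smul_eq_mul, inv_mul_eq_iff_eq_mul₀ α0, mul_one, mul_zero] at b1 b2 b3
  have key : ∀ S : Finset (Fin (n + 1)), ∃ (y : End K V) (W : Submodule F V),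
      Pres B Q (y.restrictScalars F) ∧ y * y = 1 ∧ NegOn B (y.restrictScalars F) W ∧
      finrank F W = 2 * S.card ∧ (∀ j ∈ S, y (b j) = -b j) ∧ (∀ j ∉ S, y (b j) = b j) ∧
      ((∀ j ∈ S, Ψ (b j) (b j) = α) → ∃ z : End F V, Pres B Q z ∧ z * z = y.restrictScalars F ∧
        ∀ (a : K), ∀ j ∈ S, z (a • b j) = (β * τ a) • b j) := fun S => by
    obtain ⟨y, a1, a2, a3, a4, a5⟩ := exists_diag_pres (B := B) b k2 S
      fun a c i j hij => by simp [c2, b1 i j hij]
    have a6 : Pres B Q (y.restrictScalars F) := IsOS.pres_of_B h2 h a3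
    obtain ⟨W, hW⟩ := exists_negOn h2 h' a6 (congrArg (LinearMap.restrictScalars F) a2)
    refine ⟨y, W, a6, a2, hW, by rw [← hW.range_eq h2 h', ← rk, rk_restrictScalars, hk, a1], a4, a5,
      fun hS => ?_⟩
    obtain ⟨z, hz⟩ := exists_dmap b fun j =>
      if j ∈ S then LinearMap.mulLeft F β ∘ₗ τ.toLinearMap else LinearMap.id
    refine ⟨z, IsOS.pres_of_B h2 h (map_B_of_basis b fun a c i j => ?_), ext_basis b fun a j => ?_,
      fun a j hj => by simp [hz, hj]⟩
    · by_cases hij : i = j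
      · subst hij
        by_cases hi : i ∈ S
        · refine inj ?_
          simp only [hz, c2, hi, if_true, map_smul, LinearMap.smul_apply, smul_eq_mul, hS i hi, t3,
            LinearMap.comp_apply, LinearMap.mulLeft_apply, AlgEquiv.toLinearMap_apply, t1, map_mul, t2]
          have := congrArg σ hα
          simp only [map_mul, t2] at this
          linear_combination -(σ a * σ c) * hα - a * c * this
        · simp [hz, hi]
      · simp [hz, c2, b1 i j hij]
    · by_cases hj : j ∈ S <;> simp [hz, hj, a4, a5, t1, t2, ← mul_assoc, hβ]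
  refine fun g hg u1 u2 => (eluP_two_iff (Q := Q) (Φ := fun g => InOm B Q g → CS _ (Semi K) g) h.toNd h2).2
    ⟨fun g a1 a2 a3 a4 a5 => ?_, fun g a1 a2 _ => ?_⟩ g (InOm.pres hg) u1 u2 hg
  · obtain ⟨W, hW⟩ := exists_negOn h2 h' a1 a2
    obtain ⟨⟨a, e1⟩, e2⟩ := (hW.inOm_iff h2 h a1).1 a5
    have := hW.finrank_ne h' a3
    have := hW.finrank_perp_ne h' a4
    have := h'.finrank_add_finrank_perp W
    obtain ⟨S, s1, s2⟩ := Finset.exists_subset_card_eq (s := Finset.univ.erase (Fin.last n)) (n := a)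
      (by simp; omega)
    obtain ⟨y, W', d1, d2, d3, d4, -, -, d5⟩ := key S
    obtain ⟨z, d6, d7, -⟩ := d5 fun j hj => b2 j (Finset.ne_of_mem_erase (s1 hj))
    obtain ⟨e, f1, _, rfl, f2⟩ := IsOS.cs_of_refl h2 h (P := (· = y.restrictScalars F)) d3.nd (by omega)
      (by
        rintro _ w rfl f1 f2
        rw [mul_assoc, Pres.mul_rk1 d1, d3.neg w f1, show ∀ c, rk1 B c (-w) = rk1 B c w from fun c =>
          LinearMap.ext fun x => by simp [rk1_apply], ← mul_assoc, IsOS.refl_mul_self h f2, one_mul])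
      rfl (hW.isoSim d3 fType_orth h (IsOS.isometric_of_dsc h2 (isTF_restrict fType_orth h d3.nd)
        (isTF_restrict fType_orth h hW.nd) (by omega)
        (((d3.inOm_iff h2 h d1).1 (d7 ▸ IsOS.inOm_mul_self h2 h d6)).2.trans e2.symm)))
    exact ⟨e, f1, _, semi_restrictScalars y, f2⟩
  · obtain ⟨ρ, W, d1, d2, d3, d4, d5, d6, -⟩ := key {Fin.last n}
    rw [Finset.card_singleton] at d4
    have d7 : ∀ a : K, a • b (Fin.last n) ∈ W := fun a => (d3.mem_iff h2 h).2 (by simp [d5])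
    rcases b3 with b3 | b3
    · obtain ⟨y, -, -, -, -, -, e1, -, e2⟩ := key Finset.univ
      obtain ⟨z, e3, e4, e5⟩ := e2 fun j _ => by by_cases e : j = Fin.last n <;> simp [*]
      simp only [Finset.mem_univ, forall_const] at e1 e5
      have e6 : z * z = -1 := e4.trans (ext_basis b fun a j => by simp [e1])
      have e7 : ρ.restrictScalars F * z = z * ρ.restrictScalars F := ext_basis b fun a j => by
        by_cases e : j = Fin.last n <;> simp [*]
      obtain ⟨e, f1, y, f2, f3⟩ := IsOS.cs_of_refl h2 h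
        (P := fun y => Pres B Q y ∧ y * y = -1 ∧ Semi K y ∧ Inv y W) d3.nd d4.ge (by
          rintro y w ⟨f1, f2, f3, f4⟩ f5 f6
          have f7 : B w (y w) = 0 := mul_left_cancel₀ h2 (by
            have := f1.map_B w (y w)
            rw [← End.mul_apply, f2, IsOS.symm' h (y w)] at this
            simp only [LinearMap.neg_apply, End.one_apply, map_neg] at this
            rw [IsOS.symm' h w] at *
            linear_combination -this)
          refine ⟨?_, ?_, ?_, ?_⟩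
          swap
          · simp only [mul_assoc]
            rw [← mul_assoc (rk1 _ _ _) (rk1 _ _ _), IsOS.refl_mul_self h f6, one_mul, ← mul_assoc y, f2,
              neg_one_mul, mul_neg, IsOS.refl_mul_self h f6]
          all_goals rw [mul_assoc, Pres.mul_rk1 f1, ← mul_assoc, ← congrArg (rk1 B · (y w))
            (congrArg (-·⁻¹) (f1.map_Q w)), d3.refl_mul_refl h2 h d4 f5 (f4 w f5) f6
              ((f1.map_Q w).symm ▸ f6) f7]
          exacts [d1.mul f1, (semi_restrictScalars ρ).mul f3,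
            fun v hv => d3.inv_of_le le_rfl _ (f4 v hv)])
        ⟨e3, e6, semi_of_basis b τ fun a c j => by simp [e5, smul_smul, mul_left_comm], fun v hv =>
          (d3.mem_iff h2 h).2 (by rw [← End.mul_apply, e7, End.mul_apply, d3.neg v hv, map_neg])⟩
        (isoSim_of_mul_eq_neg h2 h' h' e3 a1 e6 a2 rfl)
      exact ⟨e, f1, y, f2.2.2.1, f3⟩
    · obtain ⟨y, -, -, -, -, -, e1, e2, e3⟩ := key (Finset.univ.erase (Fin.last n))
      obtain ⟨z, e4, e5, -⟩ := e3 fun j hj => b2 j (Finset.ne_of_mem_erase hj)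
      obtain ⟨x, x1, x2⟩ := (IsOS.exists_mul_eq_neg_iff h2 (isTF_restrict fType_orth h d3.nd)).2
        ((d3.inOm_iff h2 h d1).1 ((show g * g * (z * z) = ρ.restrictScalars F from by
          rw [a2, e5]
          exact ext_basis b fun a j => by by_cases e : j = Fin.last n <;> simp [*]) ▸
          (IsOS.inOm_mul_self h2 h a1).mul (IsOS.inOm_mul_self h2 h e4)))
      obtain ⟨θ, θ0, θ1⟩ : ∃ θ, θ ≠ 0 ∧ θ + σ θ = 0 := U.exists_trace_zero K (Fintype.card F)
      have θ2 : σ θ = -θ := eq_neg_of_add_eq_zero_right θ1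
      have p1 : ∀ a c : K, algebraMap F K (B ((a * α⁻¹) • b (Fin.last n)) ((c * α⁻¹) • b (Fin.last n))) =
          a * c + σ (a * c) := fun a c => by
        rw [c2, ← t3]; congr 2; simp [b3]; field_simp
      obtain ⟨s, t, e⟩ := IsOS.exists_pair h d4 (d7 (1 * α⁻¹)) (d7 (θ * α⁻¹))
        (fun e => k2 (by have := p1 1 1; rw [e] at this; simpa [one_add_one_eq_two] using this.symm))
        (fun e => by simpa [e, θ2, ← two_mul, k2, θ0] using (p1 θ θ).symm)
        (inj (by simpa [θ2] using p1 1 θ)) (x ⟨_, d7 (1 * α⁻¹)⟩).2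
      have p2 := congrArg (algebraMap F K) (x1.map_B ⟨_, d7 (1 * α⁻¹)⟩ ⟨_, d7 (1 * α⁻¹)⟩)
      have p3 := congrArg (algebraMap F K) (x1.map_B ⟨_, d7 (1 * α⁻¹)⟩ (x ⟨_, d7 (1 * α⁻¹)⟩))
      rw [← End.mul_apply, x2] at p3
      simp only [LinearMap.domRestrict₁₂_apply, e, map_add, map_smul, LinearMap.add_apply,
        LinearMap.smul_apply, smul_eq_mul, map_mul, p1, θ2, map_one, LinearMap.neg_apply, End.one_apply,
        map_neg] at p2 p3
      have p4 : algebraMap F K s = 0 := mul_left_cancel₀ (mul_ne_zero k2 k2) (by linear_combination -p3)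
      have p5 : (algebraMap F K t * θ) * (algebraMap F K t * θ) = 1 :=
        mul_left_cancel₀ k2 (by rw [p4] at p2; linear_combination p2)
      have p6 : σ (algebraMap F K t * θ) = -(algebraMap F K t * θ) := by
        rw [map_mul, θ2, ← t1, τ.commutes, mul_neg]
      refine (k2 ?_).elim
      rcases mul_self_eq_one_iff.1 p5 with e | e <;> rw [e] at p6 <;> simp only [map_one, map_neg] at p6
      · linear_combination p6
      · linear_combination -p6

theorem forall_omegaGL_norm_iff {ι : Type} [Fintype ι] [DecidableEq ι] (Q : QuadraticForm F (ι → F))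
    {q : (ι → F) → F} (hq : ∀ v, Q v = q v) (h : IsOS (QuadraticMap.polarBilin Q) Q)
    (ho : Odd (Fintype.card F)) (hn : 4 < Fintype.card ι) {E : Subalgebra F (Matrix ι ι F)}
    (hE : Geo.IsFieldSubalgebra 2 E) (hs : Geo.IsSelfAdjointFor (QuadraticMap.polar q) E)
    {p : ℕ} [Fact p.Prime] [CharP F p] [Fact r.Prime]
    (hΩ : r ∣ (Geo.subalgebraNormalizer E).relIndex (Geo.omegaGL q)) :
    (∀ x ∈ Geo.omegaGL q, (∃ z : F, ((x ^ r : GL ι F) : Matrix ι ι F) = z • (1 : Matrix ι ι F)) →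
      (∀ z : F, (x : Matrix ι ι F) ≠ z • (1 : Matrix ι ι F)) →
        ∃ g ∈ Geo.omegaGL q, g⁻¹ * x * g ∈ Geo.subalgebraNormalizer E) ↔ r = 2 := by
  have : Nonempty ι := Fintype.card_pos_iff.1 (by omega)
  let _ := (Max.isField_of hE).toField
  have := Fintype.ofFinite E
  obtain ⟨h1, h2⟩ := eluN_norm_iff (r := r) (N := commutator (Isom (QuadraticMap.polarBilin Q) Q)) hE
    (forall_omegaGL_iff Q hq)
  obtain rfl : q = Q := funext fun v => (hq v).symm
  have h3 := Orth.two_ne_zero_of_odd_card ho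
  rw [h2]
  exact ⟨IsOS.eq_two_of_eluN h hE.finrank_eq (fun a => hs a a.2) h3 (by simpa) (p := p) (h1 ▸ hΩ),
    fun e => e ▸ IsOS.eluN_two h hE.finrank_eq (fun a => hs a a.2) h3 (by simp; omega)⟩

end Cfsg.Agent.Class.Elus
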