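import Cfsg.Agent.Class.Elus.Lin
import Cfsg.Agent.Class.Wall.SpOdd
import Cfsg.Agent.Class.FormedCount

/-!
# Invariant non-degenerate and totally singular subspaces of isometries

For an isometry `g` whose class is determined by its elementary divisors, the existence of an
invariant subspace of a given type is read off from the elementary divisors.
-/

set_option autoImplicit false

namespace Cfsg.Agent.Class.Elus

open Polynomial Module Wall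
open Cfsg.Agent.KSG (Sim IsPP elemDiv cycFac)

variable {F V V₁ V₂ : Type*} [Field F] [AddCommGroup V] [Module F V] [AddCommGroup V₁] [Module F V₁]
  [AddCommGroup V₂] [Module F V₂] {σ : F →+* F} {ε : F} {π : F →+ F}
  {B : V →ₛₗ[σ] V →ₗ[F] F} {Q : V → F} {B₁ : V₁ →ₛₗ[σ] V₁ →ₗ[F] F} {Q₁ : V₁ → F}
  {B₂ : V₂ →ₛₗ[σ] V₂ →ₗ[F] F} {Q₂ : V₂ → F} {g : End F V}

/-- The subspace `W` is isometric to the model `(B₁, Q₁)`. -/
abbrev IsoS (B : V →ₛₗ[σ] V →ₗ[F] F) (Q : V → F) (B₁ : V₁ →ₛₗ[σ] V₁ →ₗ[F] F) (Q₁ : V₁ → F)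
    (W : Submodule F V) : Prop := Isometric (resB B W) (fun w => Q w) B₁ Q₁

/-- `(B, Q)` is the orthogonal sum of the two models. -/
abbrev IsSum (B₁ : V₁ →ₛₗ[σ] V₁ →ₗ[F] F) (Q₁ : V₁ → F) (B₂ : V₂ →ₛₗ[σ] V₂ →ₗ[F] F) (Q₂ : V₂ → F)
    (B : V →ₛₗ[σ] V →ₗ[F] F) (Q : V → F) : Prop :=
  Isometric (prodB B₁ B₂) (fun x => Q₁ x.1 + Q₂ x.2) B Q

/-- Totally singular subspaces. -/
abbrev TSS (B : V →ₛₗ[σ] V →ₗ[F] F) (Q : V → F) (W : Submodule F V) : Prop :=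
  (∀ x ∈ W, ∀ y ∈ W, B x y = 0) ∧ ∀ x ∈ W, Q x = 0

theorem isTF_restrict (T : FType σ ε π) (h : IsTF σ B Q ε π) {W : Submodule F V}
    (hW : W ⊓ perp B W = ⊥) : IsTF σ (resB B W) (fun w => Q w) ε π :=
  have h' := (h.isFormed T).restrict hW
  ⟨h'.herm, h'.add, h'.smul, fun x => h.self x⟩

theorem IsoS.inf_perp {W : Submodule F V} (h : IsoS B Q B₁ Q₁ W) (h₁ : Nd σ B₁) :
    W ⊓ perp B W = ⊥ := by
  obtain ⟨e, he, -⟩ := h
  rw [eq_bot_iff]
  rintro x ⟨h1, h2⟩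
  have : e ⟨x, h1⟩ = 0 := h₁.right _ fun y => by
    obtain ⟨y, rfl⟩ := e.surjective y
    exact (he _ _).trans (h2 _ y.2)
  exact congrArg Subtype.val (e.map_eq_zero_iff.1 this)

theorem isoSim_prod {V₁' V₂' : Type*} [AddCommGroup V₁'] [Module F V₁'] [AddCommGroup V₂']
    [Module F V₂'] {B₁' : V₁' →ₛₗ[σ] V₁' →ₗ[F] F} {Q₁' : V₁' → F} {B₂' : V₂' →ₛₗ[σ] V₂' →ₗ[F] F}
    {Q₂' : V₂' → F} {g₁ : End F V₁} {g₂ : End F V₂} {g₁' : End F V₁'} {g₂' : End F V₂'}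
    (h1 : IsoSim B₁ Q₁ g₁ B₁' Q₁' g₁') (h2 : IsoSim B₂ Q₂ g₂ B₂' Q₂' g₂') :
    IsoSim (prodB B₁ B₂) (fun x => Q₁ x.1 + Q₂ x.2) (g₁.prodMap g₂) (prodB B₁' B₂')
      (fun x => Q₁' x.1 + Q₂' x.2) (g₁'.prodMap g₂') := by
  obtain ⟨e, a1, a2, a3⟩ := h1
  obtain ⟨e', b1, b2, b3⟩ := h2
  exact ⟨e.prodCongr e', fun u v => by simp [a1, b1], fun u => by simp [a2, b2],
    fun v => by simp [a3, b3]⟩

theorem isometric_prod {V₁' V₂' : Type*} [AddCommGroup V₁'] [Module F V₁'] [AddCommGroup V₂']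
    [Module F V₂'] {B₁' : V₁' →ₛₗ[σ] V₁' →ₗ[F] F} {Q₁' : V₁' → F} {B₂' : V₂' →ₛₗ[σ] V₂' →ₗ[F] F}
    {Q₂' : V₂' → F} (h1 : Isometric B₁ Q₁ B₁' Q₁') (h2 : Isometric B₂ Q₂ B₂' Q₂') :
    Isometric (prodB B₁ B₂) (fun x => Q₁ x.1 + Q₂ x.2) (prodB B₁' B₂')
      (fun x => Q₁' x.1 + Q₂' x.2) := by
  obtain ⟨e, a1, a2⟩ := h1
  obtain ⟨e', b1, b2⟩ := h2
  exact ⟨e.prodCongr e', fun u v => by simp [a1, b1], fun u => by simp [a2, b2]⟩

theorem IsSum.swap (h : IsSum B₁ Q₁ B₂ Q₂ B Q) : IsSum B₂ Q₂ B₁ Q₁ B Q :=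
  Isometric.trans ⟨LinearEquiv.prodComm F V₂ V₁, fun u v => by simp [add_comm],
    fun u => by simp [add_comm]⟩ h

theorem isoSim_swap (g₁ : End F V₁) (g₂ : End F V₂) :
    IsoSim (prodB B₁ B₂) (fun x => Q₁ x.1 + Q₂ x.2) (g₁.prodMap g₂) (prodB B₂ B₁)
      (fun x => Q₂ x.1 + Q₁ x.2) (g₂.prodMap g₁) :=
  ⟨LinearEquiv.prodComm F V₁ V₂, fun u v => by simp [add_comm], fun u => by simp [add_comm],
    fun _ => rfl⟩

theorem IsoSim.pres {V' : Type*} [AddCommGroup V'] [Module F V'] {B' : V' →ₛₗ[σ] V' →ₗ[F] F}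
    {Q' : V' → F} {g' : End F V'} (h : IsoSim B Q g B' Q' g') (hg : Pres B Q g) : Pres B' Q' g' := by
  obtain ⟨e, h1, h2, h3⟩ := h
  refine ⟨fun x y => ?_, fun x => ?_⟩
  · obtain ⟨x, rfl⟩ := e.surjective x
    obtain ⟨y, rfl⟩ := e.surjective y
    rw [← h3, ← h3, h1, h1, hg.map_B]
  · obtain ⟨x, rfl⟩ := e.surjective x
    rw [← h3, h2, h2, hg.map_Q]

theorem Sim.pow_eq_smul {V' : Type*} [AddCommGroup V'] [Module F V'] {g' : End F V'}
    (h : Sim g g') {r : ℕ} {z : F} (hg : g ^ r = z • 1) : g' ^ r = z • 1 := by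
  obtain ⟨e, he⟩ := h
  rw [← aeval_X_pow_sub_C_eq_zero_iff] at hg ⊢
  ext v
  obtain ⟨v, rfl⟩ := e.surjective v
  rw [← LinearEquiv.coe_coe, ← KSG.aeval_comm_of_comm e.toLinearMap he, hg]
  simp

/-- An invariant subspace from a model. -/
theorem exists_isoS_of_isoSim (h₂ : IsTF σ B₂ Q₂ ε π) {g₁ : End F V₁} {g₂ : End F V₂}
    (h : IsoSim (prodB B₁ B₂) (fun x => Q₁ x.1 + Q₂ x.2) (g₁.prodMap g₂) B Q g) :
    ∃ W, IsoS B Q B₁ Q₁ W ∧ Inv g W := by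
  obtain ⟨e, h1, h2, h3⟩ := h
  refine ⟨LinearMap.range (e.toLinearMap ∘ₗ LinearMap.inl F V₁ V₂), Isometric.symm
    ⟨LinearEquiv.ofInjective _ (e.injective.comp LinearMap.inl_injective),
      fun u v => (h1 _ _).trans (by simp), fun u => (h2 _).trans (by simp [h₂.map_zero])⟩, ?_⟩
  rintro _ ⟨x, rfl⟩
  exact ⟨g₁ x, by simp [← h3]⟩

variable [FiniteDimensional F V]

theorem isoSim_prod_perp (h : IsFormed σ B Q ε π) {W : Submodule F V} (hW : W ⊓ perp B W = ⊥)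
    (hi : Inv g W) (hi' : Inv g (perp B W)) :
    IsoSim (prodB (resB B W) (resB B (perp B W))) (fun x => Q x.1 + Q x.2)
      ((g.restrict hi).prodMap (g.restrict hi')) B Q g :=
  ⟨W.prodEquivOfIsCompl _ (h.isCompl_perp hW), fun u v => by
      change B (u.1 + u.2) (v.1 + v.2) = B u.1 v.1 + B u.2 v.2
      simp only [map_add, LinearMap.add_apply, v.2.2 _ u.1.2, h.refl (u.2.2 _ v.1.2)]
      ring,
    fun u => by
      change Q (u.1 + u.2) = _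
      rw [h.add, u.2.2 _ u.1.2, map_zero, add_zero],
    fun v => by simp [LinearMap.coe_restrict_apply]⟩

theorem isSum_perp (h : IsFormed σ B Q ε π) {W : Submodule F V} (hW : W ⊓ perp B W = ⊥) :
    IsSum (resB B W) (fun w => Q w) (resB B (perp B W)) (fun w => Q w) B Q :=
  (isoSim_prod_perp (g := 1) h hW (fun _ h => h) (fun _ h => h)).isometric

theorem IsSum.isoS_perp [FiniteDimensional F V₁] (T : FType σ ε π) (h : IsTF σ B Q ε π)
    (h₁ : IsTF σ B₁ Q₁ ε π) (h₂ : IsTF σ B₂ Q₂ ε π) (hV : IsSum B₁ Q₁ B₂ Q₂ B Q)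
    {W : Submodule F V} (hW : IsoS B Q B₁ Q₁ W) : IsoS B Q B₂ Q₂ (perp B W) :=
  Isometric.cancel T h₁ (isTF_restrict T h ((h.isFormed T).perp_inf_perp_perp (hW.inf_perp h₁.toNd)))
    h₂ (((isometric_prod hW.symm (Isometric.refl (B := resB B (perp B W)) (Q := fun w => Q w))).trans
      (isSum_perp (h.isFormed T) (hW.inf_perp h₁.toNd))).trans hV.symm)

/-- Invariant subspaces of a given isometry type come from orthogonal sums. -/
theorem exists_isoS_iff_isoSim [FiniteDimensional F V₁] (T : FType σ ε π) (h : IsTF σ B Q ε π)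
    (h₁ : IsTF σ B₁ Q₁ ε π) (h₂ : IsTF σ B₂ Q₂ ε π) (hV : IsSum B₁ Q₁ B₂ Q₂ B Q) (hg : Pres B Q g) :
    (∃ W, IsoS B Q B₁ Q₁ W ∧ Inv g W) ↔ ∃ g₁ g₂, Pres B₁ Q₁ g₁ ∧ Pres B₂ Q₂ g₂ ∧
      IsoSim (prodB B₁ B₂) (fun x => Q₁ x.1 + Q₂ x.2) (g₁.prodMap g₂) B Q g := by
  refine ⟨fun ⟨W, h1, h2⟩ => ?_, fun ⟨g₁, g₂, _, _, h3⟩ => exists_isoS_of_isoSim h₂ h3⟩
  have h3 := hg.perp_mem h.toNd h2
  obtain ⟨g₁, a1, a2⟩ := h1.exists_isoSim (hg.restrict h2)
  obtain ⟨g₂, b1, b2⟩ := (hV.isoS_perp T h h₁ h₂ h1).exists_isoSim (hg.restrict h3)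
  exact ⟨g₁, g₂, a1, b1, (isoSim_prod a2 b2).symm.trans
    (isoSim_prod_perp (h.isFormed T) (h1.inf_perp h₁.toNd) h2 h3)⟩

/-- `s` is the multiset of elementary divisors of an isometry of the given space. -/
def RealIn (B : V →ₛₗ[σ] V →ₗ[F] F) (Q : V → F) (s : Multiset F[X]) : Prop :=
  ∃ g : End F V, Pres B Q g ∧ elemDiv g = s

/-- The class of `g` is determined by its elementary divisors. -/
def SimCl (B : V →ₛₗ[σ] V →ₗ[F] F) (Q : V → F) (g : End F V) : Prop :=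
  ∀ g' : End F V, Pres B Q g' → elemDiv g = elemDiv g' → IsoSim B Q g B Q g'

theorem RealIn.of_isometric [FiniteDimensional F V₁] {s : Multiset F[X]} (h : RealIn B Q s)
    (e : Isometric B Q B₁ Q₁) : RealIn B₁ Q₁ s := by
  obtain ⟨g, h1, rfl⟩ := h
  obtain ⟨g', h2, h3⟩ := e.exists_isoSim h1
  exact ⟨g', h2, h3.sim.elemDiv_eq.symm⟩

theorem RealIn.sum_natDegree {s : Multiset F[X]} (h : RealIn B Q s) :
    (s.map natDegree).sum = finrank F V := by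
  obtain ⟨g, -, rfl⟩ := h
  exact (KSG.finrank_eq_sum_elemDiv g).symm

theorem RealIn.map_dual {s : Multiset F[X]} (h : RealIn B Q s) (hB : Nd σ B) :
    s.map (dual σ) = s := by
  obtain ⟨g, h1, rfl⟩ := h
  exact hB.map_dual_elemDiv h1.map_B

theorem IsSum.realIn [FiniteDimensional F V₁] [FiniteDimensional F V₂] (hV : IsSum B₁ Q₁ B₂ Q₂ B Q)
    {s t : Multiset F[X]} (h1 : RealIn B₁ Q₁ s) (h2 : RealIn B₂ Q₂ t) : RealIn B Q (s + t) := by
  obtain ⟨g₁, a1, rfl⟩ := h1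
  obtain ⟨g₂, b1, rfl⟩ := h2
  exact RealIn.of_isometric ⟨_, a1.prod b1, Wall.elemDiv_prodMap _ _⟩ hV

theorem SimCl.isoSim [FiniteDimensional F V₁] (hs : SimCl B Q g) (e : Isometric B₁ Q₁ B Q)
    {g₁ : End F V₁} (h1 : Pres B₁ Q₁ g₁) (h2 : elemDiv g = elemDiv g₁) : IsoSim B₁ Q₁ g₁ B Q g := by
  obtain ⟨g', a1, a2⟩ := e.exists_isoSim h1
  exact a2.trans (hs g' a1 (h2.trans a2.sim.elemDiv_eq)).symm

/-- **Invariant non-degenerate subspaces.** -/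
theorem exists_isoS_iff [FiniteDimensional F V₁] [FiniteDimensional F V₂] (T : FType σ ε π)
    (h : IsTF σ B Q ε π) (h₁ : IsTF σ B₁ Q₁ ε π) (h₂ : IsTF σ B₂ Q₂ ε π) (hV : IsSum B₁ Q₁ B₂ Q₂ B Q)
    (hg : Pres B Q g) (hs : SimCl B Q g) :
    (∃ W, IsoS B Q B₁ Q₁ W ∧ Inv g W) ↔
      ∃ s₁ s₂, RealIn B₁ Q₁ s₁ ∧ RealIn B₂ Q₂ s₂ ∧ elemDiv g = s₁ + s₂ := by
  rw [exists_isoS_iff_isoSim T h h₁ h₂ hV hg]
  constructor
  · rintro ⟨g₁, g₂, a1, a2, a3⟩
    exact ⟨_, _, ⟨g₁, a1, rfl⟩, ⟨g₂, a2, rfl⟩, by rw [← a3.sim.elemDiv_eq, Wall.elemDiv_prodMap]⟩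
  · rintro ⟨_, _, ⟨g₁, a1, rfl⟩, ⟨g₂, a2, rfl⟩, a3⟩
    exact ⟨g₁, g₂, a1, a2, hs.isoSim hV (a1.prod a2) (by rw [a3, Wall.elemDiv_prodMap])⟩

/-! ### Totally singular subspaces -/

theorem elemDiv_restrict_eq_add {A C U : Submodule F V} (hA : Inv g A) (hC : Inv g C) (hU : Inv g U)
    (h1 : A ⊓ C = ⊥) (h2 : A ⊔ C = U) :
    elemDiv (g.restrict hU) = elemDiv (g.restrict hA) + elemDiv (g.restrict hC) := by
  rw [← Wall.elemDiv_prodMap]
  refine (Sim.elemDiv_eq ⟨LinearEquiv.ofBijective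
    ((Submodule.inclusion (le_sup_left.trans h2.le)).coprod
      (Submodule.inclusion (le_sup_right.trans h2.le))) ⟨?_, ?_⟩, fun x => Subtype.ext ?_⟩).symm
  · rw [injective_iff_map_eq_zero]
    intro x hx
    have h3 : (x.1 : V) + x.2 = 0 := congrArg Subtype.val hx
    have h4 : (x.1 : V) ∈ A ⊓ C := ⟨x.1.2, by rw [eq_neg_of_add_eq_zero_left h3]; exact C.neg_mem x.2.2⟩
    rw [h1, Submodule.mem_bot] at h4
    rw [h4, zero_add] at h3
    exact Prod.ext (Subtype.ext h4) (Subtype.ext h3)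
  · rintro ⟨u, hu⟩
    obtain ⟨a, ha, c, hc, rfl⟩ := Submodule.mem_sup.1 (h2.ge hu)
    exact ⟨(⟨a, ha⟩, ⟨c, hc⟩), rfl⟩
  · exact (map_add g (x.1 : V) x.2).symm

/-- The decomposition attached to an invariant totally isotropic subspace of a semisimple
isometry. -/
theorem exists_decomp_of_isotropic (h : IsFormed σ B Q ε π) (hg : Pres B Q g) {P : F[X]}
    (hP : Squarefree P) (hgP : aeval g P = 0) {W : Submodule F V}
    (hW : ∀ x ∈ W, ∀ y ∈ W, B x y = 0) (hi : Inv g W) :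
    ∃ (Y : Submodule F V) (hY : Inv g Y), Y ≤ perp B W ∧ Y ⊓ perp B Y = ⊥ ∧
      finrank F Y + 2 * finrank F W = finrank F V ∧ elemDiv g =
        (elemDiv (g.restrict hi)).map (dual σ) + elemDiv (g.restrict hi) +
          elemDiv (g.restrict hY) := by
  have hp := hg.perp_mem h.nd hi
  have hle : W ≤ perp B W := fun x hx y hy => hW y hy x hx
  obtain ⟨C, c1, c2⟩ := exists_inv_compl hP hgP hi
  obtain ⟨W', d1, d2⟩ := exists_inv_compl hP hgP hp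
  have hY : Inv g (C ⊓ perp B W) := fun v hv => ⟨c1 v hv.1, hp v hv.2⟩
  have e1 : W ⊓ (C ⊓ perp B W) = ⊥ := by rw [← inf_assoc, c2.inf_eq_bot, bot_inf_eq]
  have e2 : W ⊔ C ⊓ perp B W = perp B W := by
    rw [← sup_inf_assoc_of_le _ hle, c2.sup_eq_top, top_inf_eq]
  have n1 := Submodule.finrank_sup_add_finrank_inf_eq W (C ⊓ perp B W)
  have n2 := h.finrank_add_finrank_perp W
  have n3 := Submodule.finrank_add_eq_of_isCompl d2
  rw [e1, e2, finrank_bot] at n1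
  refine ⟨C ⊓ perp B W, hY, inf_le_right, ?_, by omega, ?_⟩
  · rw [eq_bot_iff, ← e1]
    intro y hy
    refine ⟨?_, hy.1⟩
    rw [← h.perp_perp W]
    intro x hx
    obtain ⟨a, ha, c, hc, rfl⟩ := Submodule.mem_sup.1 (e2.ge hx)
    rw [map_add, LinearMap.add_apply, hy.1.2 a ha, hy.2 c hc, add_zero]
  let φ : W ≃ₗ[F] W' := LinearEquiv.ofFinrankEq _ _ (by omega)
  let B₀ : W →ₛₗ[σ] W →ₗ[F] F := (B.comp (W'.subtype ∘ₗ φ.toLinearMap)).compl₂ W.subtype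
  have h0 : Nd σ B₀ := by
    refine ⟨h.invol, fun x hx => φ.map_eq_zero_iff.1 (Subtype.ext ?_), fun y hy => Subtype.ext ?_⟩
    · have : (φ x : V) ∈ perp B W ⊓ W' := ⟨fun w hw => h.refl (hx ⟨w, hw⟩), (φ x).2⟩
      rwa [d2.inf_eq_bot] at this
    · refine h.nondeg_right _ fun x => ?_
      obtain ⟨a, ha, c, hc, rfl⟩ := Submodule.mem_sup.1 (d2.sup_eq_top.ge (Submodule.mem_top (x := x)))
      obtain ⟨c', hc'⟩ := φ.surjective ⟨c, hc⟩
      obtain rfl : (φ c' : V) = c := congrArg Subtype.val hc'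
      rw [map_add, LinearMap.add_apply, h.refl (ha _ y.2), zero_add]
      exact hy c'
  obtain ⟨k, hk⟩ : ∃ k, g.restrict hi * k = 1 := by
    have := isUnit_aeval_restrict hi (p := X) (by simpa using hg.isUnit h.nd)
    rw [aeval_X] at this
    exact this.exists_right_inv
  have h1 : Sim (h0.adj k) (g.restrict d1) := ⟨φ, fun x => by
    obtain ⟨z, hz⟩ := φ.surjective (g.restrict d1 (φ x))
    rw [← hz]
    congr 1
    refine h0.ext_left fun y => ?_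
    rw [h0.adj_apply]
    change B (φ x) (k y) = B (φ z) y
    rw [hz, ← hg.map_B]
    exact congrArg (fun w : W => B (g (φ x)) w) (LinearMap.congr_fun hk y)⟩
  rw [elemDiv_eq_add_of_isCompl d2 hp d1, elemDiv_restrict_eq_add hi hY hp e1 e2, ← h1.elemDiv_eq,
    h0.elemDiv_adj hk]
  abel

section Hyp

variable {U : Type*} [AddCommGroup U] [Module F U] {B₀ : U →ₛₗ[σ] U →ₗ[F] F}

/-- `(B, Q)` is the orthogonal sum of a hyperbolic space on `U × U` and the second model. -/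
abbrev IsHSum (ε : F) (π : F →+ F) (h₀ : Nd σ B₀) (B₂ : V₂ →ₛₗ[σ] V₂ →ₗ[F] F) (Q₂ : V₂ → F)
    (B : V →ₛₗ[σ] V →ₗ[F] F) (Q : V → F) : Prop :=
  IsSum (hypB ε h₀) (fun x => π (B₀ x.1 x.2)) B₂ Q₂ B Q

omit [FiniteDimensional F V] in
theorem exists_tss_of_isoSim (h₀ : Nd σ B₀) (h₂ : IsTF σ B₂ Q₂ ε π) {a f : End F U} {g₂ : End F V₂}
    (h : IsoSim (prodB (hypB ε h₀) B₂) (fun x => π (B₀ x.1.1 x.1.2) + Q₂ x.2)
      ((a.prodMap f).prodMap g₂) B Q g) :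
    ∃ W : Submodule F V, (finrank F W = finrank F U ∧ TSS B Q W) ∧ Inv g W := by
  obtain ⟨e, h1, h2, h3⟩ := h
  refine ⟨LinearMap.range (e.toLinearMap ∘ₗ LinearMap.inl F _ V₂ ∘ₗ LinearMap.inr F U U),
    ⟨LinearMap.finrank_range_of_inj
      (e.injective.comp (LinearMap.inl_injective.comp LinearMap.inr_injective)), ?_, ?_⟩, ?_⟩
  · rintro _ ⟨x, rfl⟩ _ ⟨y, rfl⟩
    exact (h1 _ _).trans (by simp [hypB_apply])
  · rintro _ ⟨x, rfl⟩
    exact (h2 _).trans (by simp [h₂.map_zero])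
  · rintro _ ⟨x, rfl⟩
    exact ⟨f x, by simp [← h3]⟩

omit [FiniteDimensional F V] in
theorem IsHSum.exists_tss {h₀ : Nd σ B₀} (hV : IsHSum ε π h₀ B₂ Q₂ B Q) (h₂ : IsTF σ B₂ Q₂ ε π) :
    ∃ W : Submodule F V, finrank F W = finrank F U ∧ TSS B Q W := by
  obtain ⟨W, h, -⟩ := exists_tss_of_isoSim (g := 1) (a := 1) (f := 1) (g₂ := 1) h₀ h₂
    (hV.isoSim_smul 1 (by simp) (by simp))
  exact ⟨W, h⟩

variable [FiniteDimensional F U] [FiniteDimensional F V₂]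

omit [FiniteDimensional F V] in
theorem IsHSum.finrank_eq {h₀ : Nd σ B₀} (hV : IsHSum ε π h₀ B₂ Q₂ B Q) :
    finrank F V₂ + 2 * finrank F U = finrank F V := by
  rw [← Isometric.finrank_eq hV, finrank_prod, finrank_prod]; ring

theorem IsHSum.isoS (T : FType σ ε π) {h₀ : Nd σ B₀} (hV : IsHSum ε π h₀ B₂ Q₂ B Q)
    (h : IsTF σ B Q ε π) (h₂ : IsTF σ B₂ Q₂ ε π) {W Y : Submodule F V}
    (hW : finrank F W = finrank F U) (hT : TSS B Q W) (h1 : Y ≤ perp B W) (h2 : Y ⊓ perp B Y = ⊥)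
    (h3 : finrank F Y + 2 * finrank F W = finrank F V) : IsoS B Q B₂ Q₂ Y := by
  have hn := hV.finrank_eq
  obtain ⟨e, e1, e2⟩ := hV
  let j := e.toLinearMap ∘ₗ LinearMap.inl F _ V₂ ∘ₗ LinearMap.inr F U U
  obtain ⟨k, hk⟩ := (h.isFormed T).exists_map_eq_of_totallySingular (W' := LinearMap.range j)
    (hW.trans (LinearMap.finrank_range_of_inj (f := j)
      (e.injective.comp (LinearMap.inl_injective.comp LinearMap.inr_injective))).symm) hT.1 hT.2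
    (by rintro _ ⟨x, rfl⟩ _ ⟨y, rfl⟩; exact (e1 _ _).trans (by simp [hypB_apply]))
    (by rintro _ ⟨x, rfl⟩; exact (e2 _).trans (by simp [h₂.map_zero]))
  have h4 : ∀ y : Y, (e.symm (k.1 y)).1.1 = 0 := fun y => h₀.left _ fun u => by
    obtain ⟨w, hw, hw'⟩ := hk.ge (LinearMap.mem_range_self j u)
    have h5 : B (j u) (k.1 y) = 0 := by
      rw [← hw']
      exact (Isom.map_B k _ _).trans (h1 y.2 w hw)
    rw [← e.apply_symm_apply (k.1 y)] at h5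
    have h6 := (e1 _ _).symm.trans h5
    simpa [hypB_apply, left_ne_zero_of_mul_eq_one T.eps] using h6
  let p : Y →ₗ[F] V₂ := LinearMap.snd F _ V₂ ∘ₗ e.symm.toLinearMap ∘ₗ k.1.toLinearMap ∘ₗ Y.subtype
  have h5 : ∀ y y' : Y, B₂ (p y) (p y') = B y y' := fun y y' => by
    rw [← Isom.map_B k, ← e.apply_symm_apply (k.1 y), ← e.apply_symm_apply (k.1 y'), e1]
    simp [hypB_apply, h4, p]
  have h6 : Function.Injective p := (injective_iff_map_eq_zero p).2 fun y hy => by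
    have : (y : V) ∈ Y ⊓ perp B Y := ⟨y.2, fun x hx => by rw [← h5 ⟨x, hx⟩, hy, map_zero]⟩
    rw [h2] at this
    exact Subtype.ext this
  refine ⟨LinearEquiv.ofBijective p ⟨h6, (LinearMap.injective_iff_surjective_of_finrank_eq_finrank
    (by omega)).1 h6⟩, h5, fun y => ?_⟩
  change Q₂ (p y) = Q y
  rw [← Isom.map_Q k, ← e.apply_symm_apply (k.1 y), e2]
  simp [h4, p]

/-- **Invariant totally singular subspaces.** -/
theorem exists_tss_iff (T : FType σ ε π) {h₀ : Nd σ B₀} (hV : IsHSum ε π h₀ B₂ Q₂ B Q)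
    (h : IsTF σ B Q ε π) (h₂ : IsTF σ B₂ Q₂ ε π) (hg : Pres B Q g) (hs : SimCl B Q g) {P : F[X]}
    (hP : Squarefree P) (hgP : aeval g P = 0) :
    (∃ W : Submodule F V, (finrank F W = finrank F U ∧ TSS B Q W) ∧ Inv g W) ↔
      ∃ ν s₂, (ν.map natDegree).sum = finrank F U ∧ RealIn B₂ Q₂ s₂ ∧
        elemDiv g = ν.map (dual σ) + ν + s₂ := by
  constructor
  · rintro ⟨W, ⟨a1, a2⟩, a3⟩
    obtain ⟨Y, hY, b1, b2, b3, b4⟩ := exists_decomp_of_isotropic (h.isFormed T) hg hP hgP a2.1 a3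
    exact ⟨_, _, (KSG.finrank_eq_sum_elemDiv _).symm.trans a1,
      RealIn.of_isometric ⟨_, hg.restrict hY, rfl⟩ (hV.isoS T h h₂ a1 a2 b1 b2 b3), b4⟩
  · rintro ⟨ν, _, a1, ⟨g₂, a2, rfl⟩, a3⟩
    have hν : ∀ b ∈ ν, b ∈ elemDiv g := fun b hb => by simp [a3, hb]
    obtain ⟨f, rfl⟩ := KSG.exists_elemDiv_eq (V := U)
      (fun b hb => KSG.isPP_of_mem_elemDiv (hν b hb)) a1
    obtain ⟨k, hk⟩ := ((KSG.isUnit_iff_elemDiv f).2 fun b hb =>
      (KSG.isUnit_iff_elemDiv g).1 (hg.isUnit h.toNd) b (hν b hb)).exists_right_inv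
    exact exists_tss_of_isoSim h₀ h₂ (hs.isoSim hV ((pres_hypB h₀ hk).prod a2)
      (by rw [a3, Wall.elemDiv_prodMap, Wall.elemDiv_prodMap, h₀.elemDiv_adj hk]))

end Hyp

theorem simCl_of_pow [Finite F] (h : IsFormed σ B Q ε π) (hg : Pres B Q g) {r : ℕ} (hr : Odd r)
    (h0 : (r : F) ≠ 0) (h1 : g ^ r = 1) : SimCl B Q g := fun _ hg' e => by
  refine h.isoSim_of_fit_one h Isometric.refl hg hg' (KSG.sim_of_elemDiv_eq e)
    (fit_of_squarefree (squarefree_X_pow_sub_C h0 one_ne_zero)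
      ((aeval_X_pow_sub_C_eq_zero_iff _ _ _).2 (by simpa using h1)) _) ?_
  by_cases h2 : (-1 : F) = 1
  · exact Or.inl h2
  · right
    rw [KSG.isUnit_aeval_iff_elemDiv]
    intro b hb
    refine IsCoprime.of_isCoprime_of_dvd_right ?_
      ((pow_eq_smul_one_iff_elemDiv g r 1).1 (by simpa using h1) b hb)
    rw [pow_one, (irreducible_X_sub_C _).coprime_iff_not_dvd, dvd_iff_isRoot]
    simpa [hr.neg_one_pow, sub_eq_zero] using h2

theorem simCl_of_isUnit [Finite F] (h : IsFormed σ B Q ε π) (hg : Pres B Q g)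
    (hu : IsUnit (g * g - 1)) : SimCl B Q g := fun _ hg' e =>
  h.isoSim_of_isUnit h hg hg' (KSG.sim_of_elemDiv_eq e) hu

/-! ### Counting subspaces -/

omit [FiniteDimensional F V] in
theorem card_mul_card_stabS {P : Submodule F V → Prop} {W : Submodule F V}
    (h : ∀ X, P X ↔ ∃ k : Isom B Q, W.map k.1.toLinearMap = X) :
    Nat.card {X // P X} * Nat.card (stabS B Q W) = Nat.card (Isom B Q) := by
  rw [← (stabS B Q W).index_mul_card, Subgroup.index_eq_card]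
  congr 1
  symm
  refine Nat.card_congr (Equiv.ofBijective (Quotient.lift
    (fun k : Isom B Q => (⟨W.map k.1.toLinearMap, (h _).2 ⟨k, rfl⟩⟩ : {X // P X})) ?_) ⟨?_, ?_⟩)
  · intro a b hab
    have hab' : a⁻¹ * b ∈ stabS B Q W := QuotientGroup.leftRel_apply.mp hab
    refine Subtype.ext ?_
    rw [mem_stabS_iff_map_eq] at hab'
    change W.map a.1.toLinearMap = W.map b.1.toLinearMap
    conv_lhs => rw [← hab']
    rw [← Submodule.map_comp]
    congr 1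
    ext v
    exact Isom.apply_inv_apply a _
  · intro a b
    induction a using Quotient.inductionOn with | _ a => ?_
    induction b using Quotient.inductionOn with | _ b => ?_
    intro e
    have e' : W.map a.1.toLinearMap = W.map b.1.toLinearMap := congrArg Subtype.val e
    refine Quotient.sound (QuotientGroup.leftRel_apply.mpr (mem_stabS_iff_map_eq.2 ?_))
    have : (a⁻¹ * b).1.toLinearMap = (a⁻¹).1.toLinearMap ∘ₗ b.1.toLinearMap := rfl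
    rw [this, Submodule.map_comp, ← e', ← Submodule.map_comp]
    convert Submodule.map_id W
    ext v
    exact Isom.inv_apply_apply a v
  · rintro ⟨X, hX⟩
    obtain ⟨k, rfl⟩ := (h X).1 hX
    exact ⟨Quotient.mk _ k, rfl⟩

omit [FiniteDimensional F V] in
theorem Isometric.card_isom (e : Isometric B Q B₁ Q₁) :
    Nat.card (Isom B Q) = Nat.card (Isom B₁ Q₁) := by
  obtain ⟨e, h1, h2⟩ := e
  exact Nat.card_congr (Isom.congr e h1 h2).toEquiv

theorem card_isoS_mul [FiniteDimensional F V₁] (T : FType σ ε π) (h : IsTF σ B Q ε π)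
    (h₁ : IsTF σ B₁ Q₁ ε π) (h₂ : IsTF σ B₂ Q₂ ε π) (hV : IsSum B₁ Q₁ B₂ Q₂ B Q) :
    Nat.card {X // IsoS B Q B₁ Q₁ X} * (Nat.card (Isom B₁ Q₁) * Nat.card (Isom B₂ Q₂)) =
      Nat.card (Isom B Q) := by
  obtain ⟨W, hW, -⟩ := exists_isoS_of_isoSim (g := 1) (g₁ := 1) (g₂ := 1) h₂
    (hV.isoSim_smul 1 (by simp) (by simp))
  rw [← card_mul_card_stabS (W := W) (P := IsoS B Q B₁ Q₁) fun X => ⟨fun hX => ?_, ?_⟩,
    Nat.card_congr ((h.isFormed T).stabSEquivProd (hW.inf_perp h₁.toNd)).toEquiv, Nat.card_prod,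
    Isometric.card_isom hW, Isometric.card_isom (hV.isoS_perp T h h₁ h₂ hW)]
  · obtain ⟨e, e1, e2⟩ := hW.trans hX.symm
    obtain ⟨k, k1, k2, k3⟩ := (h.isFormed T).witt_inj W (X.subtype ∘ₗ e.toLinearMap)
      (X.injective_subtype.comp e.injective) e1 e2
    refine ⟨⟨k, k1, k2⟩, Submodule.eq_of_le_of_finrank_eq ?_ ?_⟩
    · rintro _ ⟨v, hv, rfl⟩
      change k v ∈ X
      rw [k3 ⟨v, hv⟩]
      exact (e ⟨v, hv⟩).2
    · rw [LinearEquiv.finrank_map_eq, e.finrank_eq]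
  · rintro ⟨k, rfl⟩
    exact Isometric.trans (Isometric.symm (B := resB B W) (Q := fun w => Q w)
      ⟨k.1.submoduleMap W, fun u v => Isom.map_B k u v, fun u => Isom.map_Q k u⟩) hW

theorem IsHSum.card_tss_mul [Fintype F] {U : Type*} [AddCommGroup U] [Module F U]
    {B₀ : U →ₛₗ[σ] U →ₗ[F] F} [FiniteDimensional F U] [FiniteDimensional F V₂] (T : FType σ ε π)
    {h₀ : Nd σ B₀} (hV : IsHSum ε π h₀ B₂ Q₂ B Q) (h : IsTF σ B Q ε π) (h₂ : IsTF σ B₂ Q₂ ε π) {m : ℕ}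
    (hm : finrank F U = m) :
    Nat.card {X : Submodule F V // finrank F X = m ∧ TSS B Q X} * qf (Fintype.card F) m *
      Nat.card (Isom B₂ Q₂) * Fintype.card F ^ (m * (finrank F V₂ + m)) =
      Nat.card (Isom B Q) * Nat.card π.range ^ m := by
  obtain ⟨W, a1, a2⟩ := hV.exists_tss h₂
  have hn := hV.finrank_eq
  obtain ⟨Y, b1, b2, b3, b4⟩ := (h.isFormed T).exists_card_fixS_totallySingular a2.1 a2.2
  have b5 := hV.isoS T h h₂ a1 a2 (fun y hy w hw => (h.isFormed T).refl (b1 hw y hy)) b2 b3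
  have c1 := (h.isFormed T).card_totallySingular_mul_card_stabS a2.1 a2.2
  rw [(h.isFormed T).card_stabS_totallySingular a2.1 a2.2, card_linearEquiv (a1.trans hm),
    prod_pow_sub_pow _ le_rfl, a1, hm] at c1
  rw [Isometric.card_isom b5, a1, hm, Nat.card_eq_fintype_card (α := F)] at b4
  have c2 : m * (finrank F V₂ + m) = ∑ j ∈ Finset.range m, (finrank F V - m - j) +
      ∑ j ∈ Finset.range m, j := by
    rw [← Finset.sum_add_distrib, Finset.sum_congr rfl (g := fun _ => finrank F V₂ + m)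
      fun j hj => by have := Finset.mem_range.1 hj; omega]
    simp
  simp only [Nat.sub_self, zero_add] at c1
  rw [Finset.prod_pow_eq_pow_sum] at c1
  rw [← c1, c2, pow_add]
  calc _ = Nat.card {X : Submodule F V // finrank F X = m ∧ TSS B Q X} * qf (Fintype.card F) m *
      (Fintype.card F ^ ∑ j ∈ Finset.range m, j) *
      (Fintype.card F ^ (∑ j ∈ Finset.range m, (finrank F V - m - j)) * Nat.card (Isom B₂ Q₂)) := by
        ring
    _ = _ := by rw [← b4, qf]; ring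

end Cfsg.Agent.Class.Elus
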