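import Cfsg.Agent.Class.Elus.Cap

/-!
# Isometries with square `1` or `-1` in odd characteristic
-/

set_option autoImplicit false

namespace Cfsg.Agent.Class.Elus

open Polynomial Module Wall
open Cfsg.Agent.KSG (Sim IsPP elemDiv cycFac)

variable {F V V₁ V₂ : Type*} [Field F] [AddCommGroup V] [Module F V] [AddCommGroup V₁]
  [Module F V₁] [AddCommGroup V₂] [Module F V₂] {ε : F} {π : F →+ F}
  {B : LinearMap.BilinForm F V} {Q : V → F} {B₁ : LinearMap.BilinForm F V₁} {Q₁ : V₁ → F}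
  {B₂ : LinearMap.BilinForm F V₂} {Q₂ : V₂ → F} {g : End F V} {U : Submodule F V}

theorem isoS_range (h₁ : Nd (RingHom.id F) B₁) (φ : V₁ →ₗ[F] V) (hB : ∀ x y, B (φ x) (φ y) = B₁ x y)
    (hQ : ∀ x, Q (φ x) = Q₁ x) : IsoS B Q B₁ Q₁ (LinearMap.range φ) :=
  Isometric.symm ⟨LinearEquiv.ofInjective φ ((injective_iff_map_eq_zero φ).2 fun x hx =>
    h₁.left x fun y => by rw [← hB, hx, LinearMap.map_zero₂]), hB, hQ⟩

theorem IsTF.map_neg' (h : IsTF (RingHom.id F) B Q ε π) (x : V) : Q (-x) = Q x := by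
  simpa using h.smul (-1) x

theorem IsTF.pres_smul (h : IsTF (RingHom.id F) B Q ε π) (hg : Pres B Q g) {z : F} (hz : z * z = 1) :
    Pres B Q (z • g) :=
  ⟨fun x y => by simp [hg.map_B, ← mul_assoc, hz],
    fun x => by rw [LinearMap.smul_apply, IsTF.smul h, RingHom.id_apply, hz, one_mul, hg.map_Q]⟩

/-- `g` negates `U` and fixes its orthogonal complement. -/
structure NegOn (B : LinearMap.BilinForm F V) (g : End F V) (U : Submodule F V) : Prop where
  nd : U ⊓ perp B U = ⊥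
  neg : ∀ v ∈ U, g v = -v
  fix : ∀ v ∈ perp B U, g v = v

theorem exists_negOn (h2 : (2 : F) ≠ 0) (h : IsFormed (RingHom.id F) B Q ε π) (hg : Pres B Q g)
    (h1 : g * g = 1) : ∃ U, NegOn B g U := by
  have h3 : ∀ v, g (g v) = v := fun v => LinearMap.congr_fun h1 v
  have h4 : ∀ v ∈ perp B (LinearMap.range (1 - g)), g v = v := fun v hv => by
    refine sub_eq_zero.1 (h.nondeg_right _ fun x => ?_)
    have := hv _ ⟨g x, rfl⟩
    rw [LinearMap.sub_apply, End.one_apply, h3, LinearMap.map_sub₂, ← h3 v, hg.map_B, h3] at this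
    rw [map_sub, this]
  have h5 : ∀ v ∈ LinearMap.range (1 - g), g v = -v := by
    rintro _ ⟨v, rfl⟩
    simp [h3]
  refine ⟨_, eq_bot_iff.2 fun v hv => ?_, h5, h4⟩
  have := (h4 v hv.2).symm.trans (h5 v hv.1)
  rwa [eq_neg_iff_add_eq_zero, ← two_smul F, smul_eq_zero_iff_right h2] at this

theorem NegOn.inv_of_le (hU : NegOn B g U) {W : Submodule F V} (h : W ≤ U) : Inv g W :=
  fun v hv => hU.neg v (h hv) ▸ W.neg_mem hv

theorem NegOn.inv_of_le_perp (hU : NegOn B g U) {W : Submodule F V} (h : W ≤ perp B U) : Inv g W :=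
  fun v hv => (hU.fix v (h hv)).symm ▸ hv

theorem Inv.sup {W W' : Submodule F V} (h : Inv g W) (h' : Inv g W') : Inv g (W ⊔ W') := fun v hv => by
  obtain ⟨a, ha, b, hb, rfl⟩ := Submodule.mem_sup.1 hv
  rw [map_add]
  exact Submodule.add_mem_sup (h a ha) (h' b hb)

theorem NegOn.ne_one [FiniteDimensional F V] (hU : NegOn B g U) (h2 : (2 : F) ≠ 0) (h0 : finrank F U ≠ 0) : g ≠ 1 := by
  rintro rfl
  refine h0 (Submodule.finrank_eq_zero.2 (eq_bot_iff.2 fun v hv => ?_))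
  have := hU.neg v hv
  rwa [End.one_apply, eq_neg_iff_add_eq_zero, ← two_smul F, smul_eq_zero_iff_right h2] at this

theorem NegOn.ne_neg_one [FiniteDimensional F V] (hU : NegOn B g U) (h2 : (2 : F) ≠ 0) (h0 : finrank F (perp B U) ≠ 0) :
    g ≠ -1 := by
  rintro rfl
  refine h0 (Submodule.finrank_eq_zero.2 (eq_bot_iff.2 fun v hv => ?_))
  have := hU.fix v hv
  rwa [LinearMap.neg_apply, End.one_apply, neg_eq_iff_add_eq_zero, ← two_smul F,
    smul_eq_zero_iff_right h2] at this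

/-- The rotation `(x, y) ↦ (-y, x)`. -/
def jj (F V : Type*) [Field F] [AddCommGroup V] [Module F V] : End F (V × V) :=
  (-LinearMap.snd F V V).prod (LinearMap.fst F V V)

theorem jj_apply (x : V × V) : jj F V x = (-x.2, x.1) := rfl

theorem jj_mul : jj F V * jj F V = -1 := by ext <;> simp [jj_apply]

theorem IsTF.pres_jj (h : IsTF (RingHom.id F) B Q ε π) :
    Pres (prodB B B) (fun x => Q x.1 + Q x.2) (jj F V) :=
  ⟨fun x y => by simp [jj_apply, add_comm], fun x => by simp [jj_apply, add_comm, IsTF.map_neg' h]⟩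

theorem prodMap_mul_self {g₁ : End F V₁} {g₂ : End F V₂} {z : F} (h₁ : g₁ * g₁ = z • 1)
    (h₂ : g₂ * g₂ = z • 1) : g₁.prodMap g₂ * g₁.prodMap g₂ = z • 1 :=
  LinearMap.ext fun x => Prod.ext (LinearMap.congr_fun h₁ x.1) (LinearMap.congr_fun h₂ x.2)

theorem prodMap_mul_neg {g₁ : End F V₁} {g₂ : End F V₂} (h₁ : g₁ * g₁ = -1)
    (h₂ : g₂ * g₂ = -1) : g₁.prodMap g₂ * g₁.prodMap g₂ = -1 :=
  LinearMap.ext fun x => Prod.ext (LinearMap.congr_fun h₁ x.1) (LinearMap.congr_fun h₂ x.2)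

theorem Sim.mul_eq_neg {g₁ : End F V₁} (h : Sim g g₁) (hg : g * g = -1) : g₁ * g₁ = -1 := by
  simpa [sq] using Sim.pow_eq_smul h (r := 2) (z := -1) (by simpa [sq] using hg)

theorem Sim.mul_eq_one {g₁ : End F V₁} (h : Sim g g₁) (hg : g * g = 1) : g₁ * g₁ = 1 := by
  simpa [sq] using Sim.pow_eq_smul h (r := 2) (z := 1) (by simpa [sq] using hg)

variable [FiniteDimensional F V] [FiniteDimensional F V₁] [FiniteDimensional F V₂]

theorem exists_negOn' (h : IsTF (RingHom.id F) B Q ε π) (T : FType (RingHom.id F) ε π)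
    (hU : U ⊓ perp B U = ⊥) : ∃ g, Pres B Q g ∧ g * g = 1 ∧ NegOn B g U := by
  have h' := h.isFormed T
  have h1 := (IsTF.pres_smul (isTF_restrict T h hU) Pres.one (z := -1) (by simp)).toIsom
    (isTF_restrict T h hU).toNd
  let k := h'.sumHom hU ((IsTF.pres_smul (isTF_restrict T h hU) Pres.one (z := -1) (by simp)).toIsom
    (isTF_restrict T h hU).toNd, 1)
  have h2 : ∀ v ∈ U, k.1 v = -v := fun v hv => (h'.sumHom_apply_left hU _ ⟨v, hv⟩).trans (by
    change (((-1 : F) • (⟨v, hv⟩ : U) : U) : V) = _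
    simp)
  have h3 : ∀ v ∈ perp B U, k.1 v = v := fun v hv => h'.sumHom_apply_right hU _ ⟨v, hv⟩
  refine ⟨k.1.toLinearMap, pres_isom k, LinearMap.ext fun v => ?_, hU, h2, h3⟩
  obtain ⟨x, u, rfl⟩ := h'.exists_add_perp hU v
  simp [h2 _ x.2, h3 _ u.2]

theorem NegOn.finrank_ne (hU : NegOn B g U) (h : IsFormed (RingHom.id F) B Q ε π) (h1 : g ≠ 1) :
    finrank F U ≠ 0 := fun h0 => h1 (LinearMap.ext fun v => by
  obtain ⟨x, u, rfl⟩ := h.exists_add_perp hU.nd v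
  rw [finrank_zero_iff_forall_zero.1 h0 x]
  simp [hU.fix _ u.2])

theorem NegOn.finrank_perp_ne (hU : NegOn B g U) (h : IsFormed (RingHom.id F) B Q ε π)
    (h1 : g ≠ -1) : finrank F (perp B U) ≠ 0 := fun h0 => h1 (LinearMap.ext fun v => by
  obtain ⟨x, u, rfl⟩ := h.exists_add_perp hU.nd v
  rw [finrank_zero_iff_forall_zero.1 h0 u]
  simp [hU.neg _ x.2])

/-- Invariant totally singular subspaces of an involution. -/
theorem NegOn.exists_tss_iff (hU : NegOn B g U) (h2 : (2 : F) ≠ 0)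
    (h : IsFormed (RingHom.id F) B Q ε π) (m : ℕ) :
    (∃ W : Submodule F V, (finrank F W = m ∧ TSS B Q W) ∧ Inv g W) ↔
      ∃ W₁ W₂ : Submodule F V, W₁ ≤ U ∧ W₂ ≤ perp B U ∧ TSS B Q W₁ ∧ TSS B Q W₂ ∧
        finrank F W₁ + finrank F W₂ = m := by
  have key : ∀ W₁ W₂ : Submodule F V, W₁ ≤ U → W₂ ≤ perp B U →
      finrank F (W₁ ⊔ W₂ :) = finrank F W₁ + finrank F W₂ := fun W₁ W₂ a1 a2 => by
    rw [← Submodule.finrank_sup_add_finrank_inf_eq,
      eq_bot_iff.2 ((inf_le_inf a1 a2).trans hU.nd.le), finrank_bot, add_zero]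
  constructor
  · rintro ⟨W, ⟨rfl, a2⟩, a3⟩
    refine ⟨W ⊓ U, W ⊓ perp B U, inf_le_right, inf_le_right,
      ⟨fun x hx y hy => a2.1 x hx.1 y hy.1, fun x hx => a2.2 x hx.1⟩,
      ⟨fun x hx y hy => a2.1 x hx.1 y hy.1, fun x hx => a2.2 x hx.1⟩, ?_⟩
    rw [← key _ _ inf_le_right inf_le_right]
    refine congrArg (fun X : Submodule F V => finrank F X)
      (le_antisymm (sup_le inf_le_left inf_le_left) fun v hv => ?_)
    obtain ⟨x, u, rfl⟩ := h.exists_add_perp hU.nd v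
    have h3 := W.add_mem hv (a3 _ hv)
    rw [map_add, hU.neg _ x.2, hU.fix _ u.2, add_add_add_comm, add_neg_cancel, zero_add,
      ← two_smul F, W.smul_mem_iff h2] at h3
    exact Submodule.add_mem_sup ⟨(W.add_mem_iff_left h3).1 hv, x.2⟩ ⟨h3, u.2⟩
  · rintro ⟨W₁, W₂, a1, a2, a3, a4, rfl⟩
    refine ⟨W₁ ⊔ W₂, ⟨key _ _ a1 a2, fun x hx y hy => ?_, fun x hx => ?_⟩,
      (hU.inv_of_le a1).sup (hU.inv_of_le_perp a2)⟩
    · obtain ⟨a, ha, b, hb, rfl⟩ := Submodule.mem_sup.1 hx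
      obtain ⟨c, hc, d, hd, rfl⟩ := Submodule.mem_sup.1 hy
      simp [a3.1 a ha c hc, a4.1 b hb d hd, a2 hd a (a1 ha), h.refl (a2 hb c (a1 hc))]
    · obtain ⟨a, ha, b, hb, rfl⟩ := Submodule.mem_sup.1 hx
      simp [h.add, a3.2 a ha, a4.2 b hb, a2 hb a (a1 ha)]

omit [FiniteDimensional F V] [FiniteDimensional F V₁] [FiniteDimensional F V₂] in
/-- Invariant non-degenerate subspaces of an involution. -/
theorem NegOn.exists_isoS (hU : NegOn B g U) (h : IsFormed (RingHom.id F) B Q ε π)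
    (h₁ : Nd (RingHom.id F) B₁) {W₁ W₂ : Submodule F V} (a1 : W₁ ≤ U) (a2 : W₂ ≤ perp B U)
    (hV : IsSum (resB B W₁) (fun w => Q w) (resB B W₂) (fun w => Q w) B₁ Q₁) :
    ∃ W, IsoS B Q B₁ Q₁ W ∧ Inv g W := by
  obtain ⟨e, e1, e2⟩ := Isometric.symm hV
  refine ⟨_, isoS_range h₁ (W₁.subtype.coprod W₂.subtype ∘ₗ e.toLinearMap) (fun x y => ?_)
    fun x => ?_, ?_⟩
  · rw [← e1]
    simp [a2 (e y).2.2 _ (a1 (e x).1.2), h.refl (a2 (e x).2.2 _ (a1 (e y).1.2))]
    rfl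
  · rw [← e2]
    simp [h.add, a2 (e x).2.2 _ (a1 (e x).1.2)]
  · rw [LinearMap.range_comp, e.range, Submodule.map_top, LinearMap.range_coprod,
      Submodule.range_subtype, Submodule.range_subtype]
    exact (hU.inv_of_le a1).sup (hU.inv_of_le_perp a2)

theorem even_of_mul_eq_neg (h : ¬ IsSquare (-1 : F)) (hg : g * g = -1) : Even (finrank F V) := by
  by_contra ho
  have := congrArg LinearMap.det hg
  rw [map_mul, ← neg_one_smul F, LinearMap.det_smul, map_one, mul_one,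
    (Nat.not_even_iff_odd.1 ho).neg_one_pow] at this
  exact h ⟨_, this.symm⟩

theorem exists_mul_eq_neg (h : Even (finrank F V) ∨ IsSquare (-1 : F)) :
    ∃ g : End F V, g * g = -1 := by
  rcases h with ⟨d, hd⟩ | ⟨j, hj⟩
  · let e : ((Fin d → F) × (Fin d → F)) ≃ₗ[F] V := LinearEquiv.ofFinrankEq _ _ (by simp [hd])
    exact ⟨e.conj (jj F _), Sim.mul_eq_neg ⟨e, fun v => by simp⟩ jj_mul⟩
  · exact ⟨j • 1, by rw [smul_mul_smul_comm, ← hj, one_mul, neg_one_smul]⟩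

open Classical in
/-- The factors of `X ^ 2 + 1`. -/
noncomputable def sqN (F : Type*) [Field F] : Multiset F[X] :=
  if h : IsSquare (-1 : F) then {X - C h.choose, X - C (-h.choose)} else {X ^ 2 - C (-1)}

theorem elemDiv_of_mul_eq_neg (h2 : (2 : F) ≠ 0) (hB : Nd (RingHom.id F) B)
    (hg : ∀ x y, B (g x) (g y) = B x y) (h1 : g * g = -1) :
    ∃ d, finrank F V = 2 * d ∧ elemDiv g = d • sqN F := by
  classical
  have h3 : g ^ 2 = (-1 : F) • 1 := by simpa [sq] using h1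
  unfold sqN
  split_ifs with h
  · have hj := h.choose_spec
    generalize h.choose = j at hj ⊢
    have h4 : (X ^ 2 - C (-1) : F[X]) = (X - C j) * (X - C (-j)) := by
      rw [hj, map_mul, map_neg]; ring
    have h0 : j ≠ 0 := by rintro rfl; simp at hj
    obtain ⟨a, b, hab⟩ := eq_replicate_add_of_mem (ν := elemDiv g) (a := X - C j) (b := X - C (-j))
      fun c hc => by
        have h5 := (pow_eq_smul_one_iff_elemDiv g 2 (-1)).1 h3 c hc
        have h6 := KSG.isPP_of_mem_elemDiv hc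
        have h7 := h6.irreducible_of_dvd_squarefree
          (squarefree_X_pow_sub_C (by simpa using h2) (by simp)) h5
        rw [h4, h7.prime.dvd_mul] at h5
        exact h5.imp (fun h => eq_of_monic_of_associated h6.monic (monic_X_sub_C _)
          (h7.associated_of_dvd (irreducible_X_sub_C _) h)) fun h => eq_of_monic_of_associated h6.monic
          (monic_X_sub_C _) (h7.associated_of_dvd (irreducible_X_sub_C _) h)
    have h5 := hB.map_dual_elemDiv hg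
    have h6 : j⁻¹ = -j := inv_eq_of_mul_eq_one_right (by linear_combination hj)
    have h7 : X - C j ≠ X - C (-j) := fun e => by
      have := C_injective (sub_right_injective e)
      rw [eq_neg_iff_add_eq_zero, ← two_mul] at this
      exact mul_ne_zero h2 h0 this
    rw [hab, Multiset.map_add, Multiset.map_replicate, Multiset.map_replicate, dual_X_sub_C h0,
      dual_X_sub_C (neg_ne_zero.2 h0), RingHom.id_apply, RingHom.id_apply, inv_neg, h6, neg_neg] at h5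
    have h8 := congrArg (Multiset.count (X - C j)) h5
    simp only [Multiset.count_add, Multiset.count_replicate, if_true, h7.symm, if_false, zero_add,
      add_zero] at h8
    subst h8
    refine ⟨b, ?_, by rw [hab, Multiset.insert_eq_cons, ← Multiset.singleton_add, nsmul_add,
      Multiset.nsmul_singleton, Multiset.nsmul_singleton]⟩
    rw [KSG.finrank_eq_sum_elemDiv g, hab]
    simp [-map_neg, two_mul]
  · have h4 := elemDiv_eq_replicate (f := g) ((X_pow_sub_C_irreducible_iff_of_prime Nat.prime_two).2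
      fun b hb => h ⟨b, by rw [← hb, sq]⟩) (monic_X_pow_sub_C _ two_ne_zero)
      ((aeval_X_pow_sub_C_eq_zero_iff _ _ _).2 h3)
    rw [natDegree_X_pow_sub_C] at h4
    exact ⟨_, (Nat.mul_div_cancel' h4.2).symm, by rw [Multiset.nsmul_singleton, h4.1]⟩

variable [Finite F]

theorem isoSim_of_mul_eq_neg (h2 : (2 : F) ≠ 0) (h : IsFormed (RingHom.id F) B Q ε π)
    (h₁ : IsFormed (RingHom.id F) B₁ Q₁ ε π) {g₁ : End F V₁} (hg : Pres B Q g) (hg₁ : Pres B₁ Q₁ g₁)
    (e : g * g = -1) (e₁ : g₁ * g₁ = -1) (hd : finrank F V = finrank F V₁) :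
    IsoSim B Q g B₁ Q₁ g₁ := by
  obtain ⟨d, a1, a2⟩ := elemDiv_of_mul_eq_neg h2 h.nd hg.map_B e
  obtain ⟨d', b1, b2⟩ := elemDiv_of_mul_eq_neg h2 h₁.nd hg₁.map_B e₁
  obtain rfl : d = d' := by omega
  refine h.isoSim_of_isUnit h₁ hg hg₁ (KSG.sim_of_elemDiv_eq (a2.trans b2.symm)) ?_
  rw [e, ← neg_add', ← two_smul F, ← Algebra.algebraMap_eq_smul_one]
  exact (h2.isUnit.map _).neg

theorem exists_isoS_iff_of_mul_eq_neg (T : FType (RingHom.id F) ε π) (h2 : (2 : F) ≠ 0)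
    (h : IsTF (RingHom.id F) B Q ε π) (h₁ : IsTF (RingHom.id F) B₁ Q₁ ε π)
    (h₂ : IsTF (RingHom.id F) B₂ Q₂ ε π) (hV : IsSum B₁ Q₁ B₂ Q₂ B Q) (hg : Pres B Q g)
    (e : g * g = -1) : (∃ W, IsoS B Q B₁ Q₁ W ∧ Inv g W) ↔
      (∃ g₁, Pres B₁ Q₁ g₁ ∧ g₁ * g₁ = -1) ∧ ∃ g₂, Pres B₂ Q₂ g₂ ∧ g₂ * g₂ = -1 := by
  rw [exists_isoS_iff_isoSim T h h₁ h₂ hV hg]
  constructor
  · rintro ⟨g₁, g₂, a1, a2, a3⟩
    have := Sim.mul_eq_neg a3.symm.sim e
    exact ⟨⟨g₁, a1, LinearMap.ext fun x => congrArg Prod.fst (LinearMap.congr_fun this (x, 0))⟩,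
      g₂, a2, LinearMap.ext fun x => congrArg Prod.snd (LinearMap.congr_fun this (0, x))⟩
  · rintro ⟨⟨g₁, a1, a2⟩, g₂, b1, b2⟩
    exact ⟨g₁, g₂, a1, b1, isoSim_of_mul_eq_neg h2 ((h₁.prod h₂).isFormed T) (h.isFormed T)
      (a1.prod b1) hg (prodMap_mul_neg a2 b2) e hV.finrank_eq⟩

theorem exists_tss_iff_of_mul_eq_neg (T : FType (RingHom.id F) ε π) (h2 : (2 : F) ≠ 0)
    {U : Type*} [AddCommGroup U] [Module F U] [FiniteDimensional F U] {B₀ : LinearMap.BilinForm F U}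
    {h₀ : Nd (RingHom.id F) B₀} (hV : IsHSum ε π h₀ B₂ Q₂ B Q) (h : IsTF (RingHom.id F) B Q ε π)
    (h₂ : IsTF (RingHom.id F) B₂ Q₂ ε π) (hg : Pres B Q g) (e : g * g = -1)
    (e₂ : Even (finrank F U) ∨ IsSquare (-1 : F) → ∃ g₂, Pres B₂ Q₂ g₂ ∧ g₂ * g₂ = -1) :
    (∃ W : Submodule F V, (finrank F W = finrank F U ∧ TSS B Q W) ∧ Inv g W) ↔
      Even (finrank F U) ∨ IsSquare (-1 : F) := by
  constructor
  · rintro ⟨W, ⟨a1, -⟩, a3⟩
    exact or_iff_not_imp_right.2 fun h => a1 ▸ even_of_mul_eq_neg h (g := g.restrict a3)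
      (LinearMap.ext fun x => Subtype.ext (LinearMap.congr_fun e x))
  · intro H
    obtain ⟨f, hf⟩ := exists_mul_eq_neg H
    obtain ⟨g₂, b1, b2⟩ := e₂ H
    have hk : f * -f = 1 := by rw [mul_neg, hf, neg_neg]
    exact exists_tss_of_isoSim h₀ h₂ (isoSim_of_mul_eq_neg h2 (((T.isTF_hypB h₀).prod h₂).isFormed T)
      (h.isFormed T) ((pres_hypB h₀ hk).prod b1) hg (prodMap_mul_neg (prodMap_mul_neg (by
        rw [← h₀.isAnti_adj.mul, neg_mul_neg, hf, h₀.isAnti_adj.neg, h₀.isAnti_adj.one]) hf) b2) e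
      (Isometric.finrank_eq hV))

end Cfsg.Agent.Class.Elus
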