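import Cfsg.Agent.Class.Elus.Char2

/-!
# Non-singular points of orthogonal spaces in characteristic two
-/

set_option autoImplicit false

namespace Cfsg.Agent.Class.Elus

open Polynomial Module Wall
open Cfsg.Agent.KSG (Sim IsPP elemDiv cycFac)

variable {F V : Type*} [Field F] [AddCommGroup V] [Module F V]
  {B : LinearMap.BilinForm F V} {Q : V → F} {g : End F V} {r i : ℕ}

/-- Non-singular points. -/
def NsP (Q : V → F) (W : Submodule F V) : Prop := finrank F W = 1 ∧ ∃ v ∈ W, Q v ≠ 0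

theorem eq_span_of_finrank_eq_one {W : Submodule F V} (h : finrank F W = 1) {v : V} (hv : v ∈ W)
    (h0 : v ≠ 0) : W = F ∙ v := by
  have : FiniteDimensional F W := .of_finrank_eq_succ h
  exact (Submodule.eq_of_le_of_finrank_eq ((Submodule.span_singleton_le_iff_mem _ _).2 hv)
    (by rw [h, finrank_span_singleton h0])).symm

theorem IsOS.card_nsP (h : IsOS B Q) :
    Nat.card {W : Submodule F V // NsP Q W} * Nat.card Fˣ = Nat.card {v // Q v ≠ 0} := by
  rw [← Nat.card_prod]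
  choose f hf1 hf2 using fun W : {W : Submodule F V // NsP Q W} => W.2.2
  have h0 : ∀ v, Q v ≠ 0 → v ≠ 0 := by rintro _ hv rfl; exact hv h.map_zero
  have h1 : ∀ (c : Fˣ) v, Q v ≠ 0 → Q ((c : F) • v) ≠ 0 := fun c v hv => by
    rw [IsOS.smul' h]; simp [hv]
  refine Nat.card_eq_of_bijective (fun x => ⟨(x.2 : F) • f x.1, h1 _ _ (hf2 _)⟩) ⟨?_, ?_⟩
  · rintro ⟨W, c⟩ ⟨W', c'⟩ e
    have e : (c : F) • f W = (c' : F) • f W' := congrArg Subtype.val e
    obtain rfl : W = W' := Subtype.ext ((eq_span_of_finrank_eq_one W.2.1 (W.1.smul_mem _ (hf1 W))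
      (h0 _ (h1 c _ (hf2 W)))).trans (e ▸ eq_span_of_finrank_eq_one W'.2.1
        (W'.1.smul_mem _ (hf1 W')) (h0 _ (h1 c' _ (hf2 W')))).symm)
    rw [Units.ext (smul_left_injective F (h0 _ (hf2 W)) e)]
  · rintro ⟨v, hv⟩
    let W : {W : Submodule F V // NsP Q W} :=
      ⟨F ∙ v, finrank_span_singleton (h0 v hv), v, Submodule.mem_span_singleton_self v, hv⟩
    obtain ⟨c, hc⟩ := Submodule.mem_span_singleton.1 (hf1 W)
    have : c ≠ 0 := by rintro rfl; exact h0 _ (hf2 W) (by rw [← hc, zero_smul])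
    exact ⟨(W, (Units.mk0 c this)⁻¹), Subtype.ext (by simp [← hc, smul_smul, this])⟩

theorem IsOS.exists_nsP_iff (h2 : (2 : F) = 0) (h : IsOS B Q) (hg : Pres B Q g) :
    (∃ W, NsP Q W ∧ Inv g W) ↔ ∃ v, Q v ≠ 0 ∧ g v = v := by
  have h0 : ∀ v, Q v ≠ 0 → v ≠ 0 := by rintro _ hv rfl; exact hv h.map_zero
  constructor
  · rintro ⟨W, ⟨a1, v, a2, a3⟩, a4⟩
    obtain ⟨c, hc⟩ := Submodule.mem_span_singleton.1
      (eq_span_of_finrank_eq_one a1 a2 (h0 v a3) ▸ a4 v a2)
    have := hg.map_Q v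
    rw [← hc, IsOS.smul' h, mul_left_eq_self₀, or_iff_left a3] at this
    obtain rfl : c = 1 := sub_eq_zero.1 (pow_eq_zero_iff two_ne_zero |>.1 (by
      linear_combination this + (1 - c) * h2))
    exact ⟨v, a3, by rw [← hc, one_smul]⟩
  · rintro ⟨v, a1, a2⟩
    refine ⟨F ∙ v, ⟨finrank_span_singleton (h0 v a1), v, Submodule.mem_span_singleton_self v, a1⟩, ?_⟩
    intro w hw
    obtain ⟨c, rfl⟩ := Submodule.mem_span_singleton.1 hw
    rwa [map_smul, a2]

variable [FiniteDimensional F V] [Fintype F]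

theorem Cap.exists_fpf {N : ℕ} (c : Cap B Q r i N) (hr : OddP F r i) (hN : finrank F V ≤ N)
    (hd : cc i ∣ finrank F V) : ∃ g, Pres B Q g ∧ g ^ r = 1 ∧ ∀ v, g v = v → v = 0 := by
  obtain ⟨A, hA⟩ := hd
  obtain ⟨u, a1, a2⟩ := hr.exists_sd A
  rw [mul_comm A, ← hA] at a2
  obtain ⟨g, b1, b2⟩ := (c.iff u a1 a2.le).2 (a2.le.trans hN)
  rw [a2, Nat.sub_self, Multiset.replicate_zero, add_zero] at b2
  refine ⟨g, b1, ?_, fun v hv => ?_⟩
  · simpa using (pow_eq_smul_one_iff_elemDiv g r 1).2 fun b hb => (KSG.dvd_X_pow_sub_one_iff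
      hr.prime hr.ne_zero (KSG.isPP_of_mem_elemDiv hb)).2 (Or.inr (a1.mem b (b2 ▸ hb)))
  · have hu : IsUnit (g * g - 1) := by
      simpa [sq] using (KSG.isUnit_aeval_iff_elemDiv g _).2 fun b hb =>
        isCoprime_of_mem_cycFac hr.prime hr.ne_two hr.ne_zero (a1.mem b (b2 ▸ hb))
    exact LinearMap.ker_eq_bot'.1 ((LinearMap.isUnit_iff_ker_eq_bot _).1 hu) v (by simp [hv])

theorem IsOS.dd_eq_of_dvd (h : IsOS B Q) (hr : OddP F r i) {d : ℕ} (hn : finrank F V = 2 * d)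
    (hN : r ∣ Nat.card {W : Submodule F V // NsP Q W}) :
    cc i ∣ 2 * d ∧ (Plus F Q ↔ i ∣ d) := by
  have h1 := IsOS.card_nsP h
  have : Finite V := Module.finite_of_finite F
  have h3 : Nat.card {v // Q v = 0} + Nat.card {v // Q v ≠ 0} = Nat.card F ^ (2 * d) := by
    classical
    rw [← Nat.card_sum, Nat.card_congr (Equiv.sumCompl _), natCard_eq_pow_finrank (K := F), hn]
  have hq : 1 < Fintype.card F := Fintype.one_lt_card
  have hr' := Fact.mk hr.prime
  have h4 : (Fintype.card F : ZMod r) ≠ 0 := mt (ZMod.natCast_eq_zero_iff _ _).1 hr.not_dvd_card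
  have h5 : (2 : ZMod r) ≠ 0 := fun e => hr.ne_two ((Nat.prime_dvd_prime_iff_eq hr.prime
    Nat.prime_two).1 ((ZMod.natCast_eq_zero_iff 2 r).1 e))
  rw [Nat.card_units, Nat.card_eq_fintype_card (α := F)] at h1
  rw [Nat.card_eq_fintype_card (α := F)] at h3
  obtain ⟨Q, rfl, rfl, hQ⟩ := h.exists_quadraticForm
  rw [cc_dvd_two_mul_iff, hr.ord, orderOf_dvd_iff_pow_eq_one, orderOf_dvd_iff_pow_eq_one]
  obtain ⟨N, hN⟩ := hN
  have key : ∀ s : ℤ, (Fintype.card F : ℤ) * Nat.card {x // Q x = 0} = Fintype.card F ^ (2 * d) +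
      s * (Fintype.card F ^ d * (Fintype.card F - 1)) → (Fintype.card F : ZMod r) ^ d = s := by
    intro s hs
    zify [hq.le] at h1 h3 hN
    have : (Fintype.card F : ℤ) * (r * N) = Fintype.card F ^ d * (Fintype.card F ^ d - s) :=
      mul_right_cancel₀ (b := (Fintype.card F : ℤ) - 1) (by omega) (by
        rw [← hN, mul_assoc, h1]; linear_combination Fintype.card F * h3 - hs)
    have := congrArg (Int.cast : ℤ → ZMod r) this
    simpa [h4, sub_eq_zero] using this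
  by_cases hp : Plus F Q
  · have := key 1 (by simpa using ((Orth.nd_iff Q).2 hQ).card_singular_of_isPlus hp hn)
    rw [pow_mul', this]
    simp [hp]
  · have := key (-1) (by
      simpa [sub_eq_add_neg] using ((Orth.nd_iff Q).2 hQ).card_singular_of_not_isPlus hp hn)
    rw [pow_mul', this]
    refine ⟨by simp, iff_of_false hp fun e => h5 ?_⟩
    push_cast at e
    linear_combination -e

theorem IsOS.elu_nsP (h2 : (2 : F) = 0) (h : IsOS B Q) {d : ℕ} (hn : finrank F V = 2 * d)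
    (hd : 3 ≤ d) [hr : Fact r.Prime] (hN : r ∣ Nat.card {W : Submodule F V // NsP Q W}) :
    Elu B Q r (NsP Q) ↔ r = 2 ∧ ¬ (Even d ∧ Plus F Q) := by
  by_cases hr2 : r = 2
  · subst hr2
    rw [IsOS.elu_two_iff_char h (by omega) h2, and_iff_right rfl]
    constructor
    · rintro H ⟨a1, a2⟩
      obtain ⟨g, b1, b2, b3, b4⟩ := (IsOS.rz_true h2 h d).2 ⟨a1, by rw [wi, if_pos a2]; omega⟩
      obtain ⟨v, c1, c2⟩ := (IsOS.exists_nsP_iff h2 h b1).1
        (H g b1 b2 (mt rk_eq_zero_iff.2 (by omega)) (by rwa [← b3] at a1))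
      refine c1 ((IsOS.alt_iff h b1).1 (b4.2 trivial) v ?_)
      have b5 := LinearMap.finrank_range_add_finrank_ker (1 - g)
      rw [Submodule.eq_of_le_of_finrank_eq (S₁ := LinearMap.range (1 - g))
        (S₂ := LinearMap.ker (1 - g)) ?_ (by
        unfold rk at b3; omega)]
      · simp [c2]
      · rw [LinearMap.range_le_ker_iff, ← End.mul_eq_comp]
        have : (1 - g) * (1 - g) = (2 : F) • (1 - g) + (g * g - 1) := by
          rw [two_smul]; noncomm_ring
        rw [this, h2, b2, zero_smul, sub_self, add_zero]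
    · intro H g a1 a2 _ a4
      rw [IsOS.exists_nsP_iff h2 h a1]
      obtain ⟨Q, rfl, rfl, hQ⟩ := h.exists_quadraticForm
      obtain ⟨k, rfl⟩ := exists_og hQ a1
      refine ((Orth.nd_iff Q).2 hQ).exists_fixed_nonsingular h2
        (Subtype.ext (LinearEquiv.toLinearMap_injective a2)) fun ⟨b1, b2⟩ => H ⟨?_, _, b2, b1⟩
      rwa [show d = finrank F (Orth.mov k) by omega]
  have h3 := Fact.mk Nat.prime_two
  have : CharP F 2 := CharTwo.of_one_ne_zero_of_two_eq_zero one_ne_zero h2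
  have hr := oddP_of (F := F) 2 hr2 hr2 rfl
  obtain ⟨a1, a2⟩ := IsOS.dd_eq_of_dvd h hr hn hN
  obtain ⟨g, b1, b2, b3⟩ := (IsOS.cap h hr).exists_fpf hr (by
    rw [hn, dd, if_neg fun e => e.2 ⟨a1, a2.trans (dvd_half_iff hr.pos a1).symm⟩]; omega) (hn ▸ a1)
  have : Nontrivial V := nontrivial_of_finrank_pos (R := F) (by omega)
  rw [IsOS.elu_iff_odd h (by omega) hr.odd]
  refine iff_of_false (fun H => ?_) (by tauto)
  obtain ⟨v, c1, c2⟩ := (IsOS.exists_nsP_iff h2 h b1).1 (H g b1 b2 (by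
    rintro rfl
    obtain ⟨x, hx⟩ := exists_ne (0 : V)
    exact hx (b3 x rfl)))
  exact c1 (b3 v c2 ▸ h.map_zero)

end Cfsg.Agent.Class.Elus
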