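import Cfsg.Agent.Class.Elus.Cap
import Cfsg.Agent.Class.Orth.Invol2
import Cfsg.Agent.Class.Orth.Plane
import Cfsg.Agent.Class.QF.Disc

/-!
# Orthogonal spaces: sums, orders, and elements of odd prime order fixing subspaces
-/

set_option autoImplicit false

namespace Cfsg.Agent.Class.Elus

open Polynomial Module Wall
open Cfsg.Agent.KSG (Sim IsPP elemDiv cycFac)
open Cfsg.Agent.Class.Orth (SqClass sqClass)

variable {F V V₁ V₂ : Type*} [Field F] [AddCommGroup V] [Module F V] [AddCommGroup V₁]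
  [Module F V₁] [AddCommGroup V₂] [Module F V₂]
  {B : LinearMap.BilinForm F V} {Q : V → F} {B₁ : LinearMap.BilinForm F V₁} {Q₁ : V₁ → F}
  {B₂ : LinearMap.BilinForm F V₂} {Q₂ : V₂ → F} {g : End F V} {r i : ℕ}

theorem IsOS.self_eq (h : IsOS B Q) (x : V) : B x x = 2 * Q x := by
  obtain ⟨c, h1, h2⟩ := h.self x
  rw [h2, h1]; simp [two_mul]

theorem IsOS.add' (h : IsOS B Q) (x y : V) : Q (x + y) = Q x + Q y + B x y := h.add x y

theorem IsOS.smul' (h : IsOS B Q) (a : F) (x : V) : Q (a • x) = a * a * Q x := IsTF.smul h a x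

theorem IsOS.symm' (h : IsOS B Q) (x y : V) : B x y = B y x := by simpa using h.symm y x

theorem IsOS.pres_of_Q (h : IsOS B Q) (hg : ∀ x, Q (g x) = Q x) : Pres B Q g :=
  ⟨fun x y => by
    have := hg (x + y)
    rw [map_add, IsOS.add' h, IsOS.add' h, hg, hg] at this
    exact add_left_cancel this, hg⟩

theorem IsOS.pres_of_B (h2 : (2 : F) ≠ 0) (h : IsOS B Q) (hg : ∀ x y, B (g x) (g y) = B x y) :
    Pres B Q g :=
  ⟨hg, fun x => mul_left_cancel₀ h2 (by rw [← IsOS.self_eq h, ← IsOS.self_eq h, hg])⟩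

theorem IsOS.tss_iff (h : IsOS B Q) {W : Submodule F V} : TSS B Q W ↔ ∀ x ∈ W, Q x = 0 :=
  ⟨fun h => h.2, fun h1 => ⟨fun x hx y hy => by
    have := IsOS.add' h x y
    rwa [h1 _ (W.add_mem hx hy), h1 x hx, h1 y hy, zero_add, zero_add, eq_comm] at this, h1⟩⟩

theorem IsOS.isometric_of_B (h2 : (2 : F) ≠ 0) (h : IsOS B Q) (h₁ : IsOS B₁ Q₁)
    (e : Isometric B (fun _ => 0) B₁ (fun _ => 0)) : Isometric B Q B₁ Q₁ := by
  obtain ⟨e, h1, -⟩ := e
  exact ⟨e, h1, fun u => mul_left_cancel₀ h2 (by rw [← IsOS.self_eq h, ← IsOS.self_eq h₁, h1])⟩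

theorem isOS_plusQF (d : ℕ) : IsOS (QuadraticMap.polarBilin (Orth.plusQF d F)) (Orth.plusQF d F) :=
  isTF_of_quadratic _ ((Orth.nd_iff _).1 (Orth.nd_plusQF d F))

theorem isOS_oddQF (h2 : (2 : F) ≠ 0) (d : ℕ) :
    IsOS (QuadraticMap.polarBilin (Orth.oddQF d F)) (Orth.oddQF d F) :=
  isTF_of_quadratic _ ((Orth.nd_iff _).1 (Orth.nd_oddQF d F h2))

theorem isOS_minusQF [Finite F] (d : ℕ) {a b : F}
    (hab : ∀ z₁ z₂ : F, z₁ ^ 2 + a * z₁ * z₂ + b * z₂ ^ 2 = 0 → z₁ = 0 ∧ z₂ = 0) :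
    IsOS (QuadraticMap.polarBilin (Orth.minusQF d F a b)) (Orth.minusQF d F a b) :=
  isTF_of_quadratic _ ((Orth.nd_iff _).1 (Orth.nd_minusQF d hab))

theorem IsOS.plus_of_finrank_eq_zero (h : IsOS B Q) (h0 : finrank F V = 0) : Plus F Q :=
  ⟨⊥, by simp [h.map_zero], by simp [h0]⟩

theorem finrank_submodule_prod (U₁ : Submodule F V₁) (U₂ : Submodule F V₂) [FiniteDimensional F U₁]
    [FiniteDimensional F U₂] : finrank F (U₁.prod U₂) = finrank F U₁ + finrank F U₂ := by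
  rw [← finrank_prod]
  exact LinearEquiv.finrank_eq
    { toFun := fun x => (⟨x.1.1, x.2.1⟩, ⟨x.1.2, x.2.2⟩)
      invFun := fun x => ⟨(x.1.1, x.2.1), x.1.2, x.2.2⟩
      map_add' := fun _ _ => rfl
      map_smul' := fun _ _ => rfl
      left_inv := fun _ => rfl
      right_inv := fun _ => rfl }

theorem Plus.even (h : Plus F Q) : Even (finrank F V) := by
  obtain ⟨U, -, h⟩ := h
  exact h ▸ even_two_mul _

variable [FiniteDimensional F V] [FiniteDimensional F V₁] [FiniteDimensional F V₂]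

omit [FiniteDimensional F V] in
theorem IsSum.finrank_eq (hV : IsSum B₁ Q₁ B₂ Q₂ B Q) :
    finrank F V₁ + finrank F V₂ = finrank F V := by
  rw [← Isometric.finrank_eq hV, finrank_prod]

omit [FiniteDimensional F V] in
theorem IsSum.plus (hV : IsSum B₁ Q₁ B₂ Q₂ B Q) (h₁ : Plus F Q₁) (h₂ : Plus F Q₂) : Plus F Q := by
  obtain ⟨U₁, a1, a2⟩ := h₁
  obtain ⟨U₂, b1, b2⟩ := h₂
  refine Isometric.plus hV ⟨U₁.prod U₂, fun u hu => by simp [a1 _ hu.1, b1 _ hu.2], ?_⟩
  rw [finrank_prod, ← a2, ← b2, ← mul_add, finrank_submodule_prod]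

theorem IsSum.dsc_eq (hV : IsSum B₁ Q₁ B₂ Q₂ B Q) (h : IsOS B Q) (h₁ : IsOS B₁ Q₁)
    (h₂ : IsOS B₂ Q₂) : dsc B = dsc B₁ * dsc B₂ := by
  rw [← Isometric.dsc_eq hV h.toNd, h₁.toHerm.dsc_prodB h₂.toHerm]

theorem exists_isOS_dsc (h2 : (2 : F) ≠ 0) (h : finrank F V ≠ 0) (s : SqClass F) :
    ∃ (B : LinearMap.BilinForm F V) (Q : V → F), IsOS B Q ∧ dsc B = s := by
  obtain ⟨B, h1, h3⟩ := exists_herm_dsc h s
  exact ⟨B, _, h1.isTF_of_two_ne h2, h3⟩

variable [Finite F]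

theorem IsOS.two_ne_of_odd (h : IsOS B Q) (hn : Odd (finrank F V)) : (2 : F) ≠ 0 := by
  obtain ⟨Q, rfl, rfl, h1⟩ := h.exists_quadraticForm
  obtain ⟨m, hm⟩ := hn
  obtain ⟨-, -, -, h, -⟩ := QF.exists_equiv_odd h1 hm
  exact h

theorem IsOS.even_of_two (h : IsOS B Q) (h2 : (2 : F) = 0) : Even (finrank F V) :=
  (Nat.even_or_odd _).resolve_right fun hn => IsOS.two_ne_of_odd h hn h2

theorem IsOS.isometric_of_dsc (h2 : (2 : F) ≠ 0) (h : IsOS B Q) (h₁ : IsOS B₁ Q₁)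
    (hd : finrank F V = finrank F V₁) (hs : dsc B = dsc B₁) : Isometric B Q B₁ Q₁ :=
  IsOS.isometric_of_B h2 h h₁ (h.toHerm.isometric_of_dsc h2 h₁.toHerm hd hs)

theorem IsOS.plus_iff_dsc (h2 : (2 : F) ≠ 0) (h : IsOS B Q) {d : ℕ} (hn : finrank F V = 2 * d) :
    Plus F Q ↔ dsc B = sqClass (-1 : F) ^ d := by
  obtain ⟨Q, rfl, rfl, h1⟩ := h.exists_quadraticForm
  rw [plus_iff, QF.isPlus_iff_disc h2 h1 hn (finBasis F V), ← Orth.sqClass_pow (by simp), eq_comm,
    dsc, Orth.sqClass_eq_iff_isSquare (by simp) (h.toNd.det_ne_zero _), QF.gramDet]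
  congr! 3
  ext i j
  simp

/-- Every smaller space embeds. -/
theorem IsOS.exists_isSum (h₁ : IsOS B₁ Q₁) (h : IsOS B Q) (hd : finrank F V₁ < finrank F V) :
    ∃ (n : ℕ) (B₂ : LinearMap.BilinForm F (Fin n → F)) (Q₂ : (Fin n → F) → F), IsOS B₂ Q₂ ∧
      IsSum B₁ Q₁ B₂ Q₂ B Q := by
  by_cases h2 : (2 : F) = 0
  · exact h₁.exists_compl h (IsOS.even_of_two h₁ h2) (IsOS.even_of_two h h2) hd
  obtain ⟨B₂, Q₂, h₂, e⟩ := exists_isOS_dsc (V := Fin (finrank F V - finrank F V₁) → F) h2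
    (by simp; omega) (dsc B₁ * dsc B)
  refine ⟨_, B₂, Q₂, h₂, IsOS.isometric_of_dsc h2 (h₁.prod h₂) h (by simp; omega) ?_⟩
  rw [h₁.toHerm.dsc_prodB h₂.toHerm, e, ← mul_assoc, Orth.sqClass_mul_self, one_mul]

omit [FiniteDimensional F V] in
theorem IsSum.plus_of_plus (hV : IsSum B₁ Q₁ B₂ Q₂ B Q) (h₁ : IsOS B₁ Q₁) (h₂ : IsOS B₂ Q₂)
    (p : Plus F Q) (p₁ : Plus F Q₁) : Plus F Q₂ := by
  have e1 := hV.finrank_eq
  obtain ⟨d, hd⟩ : Even (finrank F V₂) := by
    have := Plus.even p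
    rwa [← e1, Nat.even_add, iff_true_left (Plus.even p₁)] at this
  refine (Isometric.cancel fType_orth h₁ (isOS_plusQF d) h₂ (IsOS.isometric_of_plus_iff
    (h₁.prod (isOS_plusQF d)) (h₁.prod h₂) (by simp [hd]) ?_ (iff_of_true ?_ ?_))).plus
    (Orth.isPlus_plusQF d)
  · rw [finrank_prod]; exact (Plus.even p₁).add (by simp)
  · exact IsSum.plus (B₁ := B₁) (B₂ := 0) Isometric.refl p₁ (Orth.isPlus_plusQF d)
  · exact (Isometric.symm hV).plus p

omit [FiniteDimensional F V] in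
theorem IsSum.plus_iff (hV : IsSum B₁ Q₁ B₂ Q₂ B Q) (h₁ : IsOS B₁ Q₁) (h₂ : IsOS B₂ Q₂)
    (e₁ : Even (finrank F V₁)) (e₂ : Even (finrank F V₂)) :
    Plus F Q ↔ (Plus F Q₁ ↔ Plus F Q₂) := by
  by_cases p₁ : Plus F Q₁
  · exact ⟨fun p => iff_of_true p₁ (hV.plus_of_plus h₁ h₂ p p₁), fun p => hV.plus p₁ (p.1 p₁)⟩
  by_cases p₂ : Plus F Q₂
  · exact iff_of_false (fun p => p₁ (hV.swap.plus_of_plus h₂ h₁ p p₂)) (by tauto)
  refine iff_of_true ?_ (by tauto)
  obtain ⟨d, hd⟩ := e₁.add e₂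
  have h0 : finrank F V₂ ≠ 0 := fun e => p₂ (IsOS.plus_of_finrank_eq_zero h₂ e)
  obtain ⟨n, B₃, Q₃, h₃, hP⟩ := IsOS.exists_isSum h₁ (isOS_plusQF d) (by simp; omega)
  have e3 := hP.finrank_eq
  have e4 : finrank F V₂ = finrank F (Fin n → F) := by simp at e3 ⊢; omega
  exact (((Isometric.symm hP).trans (isometric_prod Isometric.refl (IsOS.isometric_of_plus_iff h₃ h₂
    e4.symm (e4 ▸ e₂) (iff_of_false (fun p => p₁ (hP.swap.plus_of_plus h₃ h₁
      (Orth.isPlus_plusQF d) p)) p₂)))).trans hV).plus (Orth.isPlus_plusQF d)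

/-! ### Orders -/

open Classical in
/-- The `p'`-part of the order of an orthogonal group, up to the factor `2`. -/
noncomputable def oR (q n : ℕ) (pl : Prop) : ℕ :=
  qf2 q ((n - 1) / 2) * if Even n then (if pl then q ^ (n / 2) - 1 else q ^ (n / 2) + 1) else 1

omit [FiniteDimensional F V] [Finite F] in
theorem card_isom_smul {c : F} (hc : c ≠ 0) :
    Nat.card (Isom (c • B) fun x => c * Q x) = Nat.card (Isom B Q) := by
  congr 2
  ext g
  exact ⟨fun h => ⟨fun x y => mul_left_cancel₀ hc (h.1 x y), fun x => mul_left_cancel₀ hc (h.2 x)⟩,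
    fun h => ⟨fun x y => congrArg (c * ·) (h.1 x y), fun x => congrArg (c * ·) (h.2 x)⟩⟩

theorem IsOS.card_isom (h : IsOS B Q) (hn : finrank F V ≠ 0) : Nat.card (Isom B Q) =
    2 * Nat.card F ^ ((finrank F V - 1) / 2 * (finrank F V / 2)) *
      oR (Nat.card F) (finrank F V) (Plus F Q) := by
  rcases (finrank F V).even_or_odd' with ⟨d, hd | hd⟩
  · obtain ⟨k, rfl⟩ : ∃ k, d = k + 1 := ⟨d - 1, by omega⟩
    obtain ⟨Q, rfl, rfl, h1⟩ := h.exists_quadraticForm
    rw [← Orth.OG_eq_Isom, hd, oR, if_pos (even_two_mul _), show (2 * (k + 1) - 1) / 2 = k by omega,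
      show 2 * (k + 1) / 2 = k + 1 by omega]
    split_ifs with hp
    · obtain ⟨e, he⟩ := ((Orth.nd_iff Q).2 h1).exists_equiv_plusQF hp hd
      rw [Orth.card_OG_congr e he, Orth.card_OG_plusQF, qf2]; ring
    · obtain ⟨ζ, hζ⟩ := QF.exists_aniso (F := F)
      obtain ⟨e, he⟩ := ((Orth.nd_iff Q).2 h1).exists_equiv_minusQF hp hd hζ
      rw [Orth.card_OG_congr e he, Orth.card_OG_minusQF hζ, qf2]; ring
  · obtain ⟨c, hc, e⟩ := h.exists_isometric_oddQF hd
    rw [← card_isom_smul hc, Isometric.card_isom e, ← Orth.OG_eq_Isom,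
      Orth.card_OG_oddQF (IsOS.two_ne_of_odd h ⟨d, hd⟩), hd, oR, if_neg (by simp),
      show (2 * d + 1 - 1) / 2 = d by omega, show (2 * d + 1) / 2 = d by omega, qf2]
    ring

theorem coprime_pow_sub_one {q k : ℕ} (hq : 0 < q) (hk : k ≠ 0) : (q ^ k - 1).Coprime q := by
  refine Nat.Coprime.of_dvd_right (dvd_pow_self q hk) ?_
  rw [Nat.coprime_self_sub_left (Nat.one_le_pow _ _ hq)]
  simp

theorem oR_coprime {q n : ℕ} (hq : 0 < q) (hn : n ≠ 0) (pl : Prop) : (oR q n pl).Coprime q := by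
  refine Nat.Coprime.mul_left (Nat.Coprime.prod_left fun j _ => coprime_pow_sub_one hq (by omega)) ?_
  split_ifs with h1 h2
  · exact coprime_pow_sub_one hq (by obtain ⟨k, rfl⟩ := h1; omega)
  · refine Nat.Coprime.of_dvd_right (dvd_pow_self q (show n / 2 ≠ 0 by obtain ⟨k, rfl⟩ := h1; omega)) ?_
    simp
  · simp

open Classical in
/-- Half the maximal dimension of the moved space of an element of order `r`. -/
noncomputable def dd (i n : ℕ) (pl : Prop) : ℕ :=
  if Even n ∧ ¬ (cc i ∣ n ∧ (pl ↔ Odd i ∨ Even (n / cc i))) then n / 2 - 1 else n / 2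

open Classical in
/-- The maximal number of blocks of an element of order `r`. -/
noncomputable def bl (i n : ℕ) (pl : Prop) : ℕ :=
  if n % cc i = 0 ∧ ¬ (pl ↔ Odd i ∨ Even (n / cc i)) then n / cc i - 1 else n / cc i

theorem two_mul_dd_div (hi : 0 < i) (n : ℕ) (pl : Prop) : 2 * dd i n pl / cc i = bl i n pl := by
  have hc := cc_pos hi
  obtain ⟨c, hc'⟩ := even_cc i
  have h1 := Nat.div_add_mod n (cc i)
  have h2 := Nat.mod_lt n hc
  have h3 : cc i * (n / cc i) = 2 * (c * (n / cc i)) := by rw [hc']; ring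
  unfold dd bl
  split_ifs with a1 a2 a2 <;> rw [Nat.dvd_iff_mod_eq_zero, Nat.even_iff] at a1
  · rcases Nat.eq_zero_or_pos (n / cc i) with e | e
    · rw [e, mul_zero] at h1
      simp [show n = 0 by omega]
    · obtain ⟨k, hk⟩ : ∃ k, n / cc i = k + 1 := ⟨n / cc i - 1, by omega⟩
      rw [hk, mul_add_one] at h1
      rw [hk, Nat.add_sub_cancel]
      exact Nat.div_eq_of_lt_le (by rw [mul_comm k]; omega) (by rw [mul_comm _ (cc i), mul_add_one]; omega)
  · have : n % cc i ≠ 0 := by tauto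
    exact Nat.div_eq_of_lt_le (by rw [mul_comm (n / cc i)]; omega)
      (by rw [mul_comm _ (cc i), mul_add_one]; omega)
  · exfalso
    refine a1 ⟨by omega, by tauto⟩
  · exact Nat.div_eq_of_lt_le (by rw [mul_comm (n / cc i)]; omega)
      (by rw [mul_comm _ (cc i), mul_add_one]; omega)

theorem dvd_half_iff {i k : ℕ} (hi : 0 < i) (h : cc i ∣ 2 * k) :
    Odd i ∨ Even (2 * k / cc i) ↔ i ∣ k := by
  rcases i.even_or_odd with h1 | h1
  · rw [cc_of_even h1] at h ⊢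
    obtain ⟨A, hA⟩ := h
    rw [or_iff_right (Nat.not_odd_iff_even.2 h1), hA, Nat.mul_div_cancel_left _ hi]
    exact ⟨fun ⟨a, ha⟩ => ⟨a, by rw [ha, mul_add] at hA; omega⟩, fun ⟨a, ha⟩ =>
      ⟨a, Nat.eq_of_mul_eq_mul_left hi (by rw [← hA, ha]; ring)⟩⟩
  · rw [cc_of_odd h1, Nat.mul_dvd_mul_iff_left two_pos] at h
    exact iff_of_true (Or.inl h1) h

omit [Finite F] in
theorem OddP.factorization_oR [Fintype F] (hr : OddP F r i) {n : ℕ} (hn : n ≠ 0) (pl : Prop) :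
    (oR (Fintype.card F) n pl).factorization r =
      (qf2 (Fintype.card F) (dd i n pl)).factorization r := by
  have hq := Fintype.one_lt_card (α := F)
  rcases n.even_or_odd' with ⟨d, rfl | rfl⟩
  swap
  · rw [oR, dd, if_neg (by simp), if_neg (by simp), mul_one, show (2 * d + 1 - 1) / 2 = d by omega,
      show (2 * d + 1) / 2 = d by omega]
  obtain ⟨k, rfl⟩ : ∃ k, d = k + 1 := ⟨d - 1, by omega⟩
  have h0 : 1 < Fintype.card F ^ (k + 1) := Nat.one_lt_pow (by omega) hq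
  have h1 := hr.dvd_iff (k + 1)
  have h2 := hr.dvd_iff (2 * (k + 1))
  have h3 : Fintype.card F ^ (2 * (k + 1)) - 1 =
      (Fintype.card F ^ (k + 1) + 1) * (Fintype.card F ^ (k + 1) - 1) := by
    rw [pow_mul', ← Nat.sq_sub_sq, one_pow]
  have h4 : ¬ (r ∣ Fintype.card F ^ (k + 1) + 1 ∧ r ∣ Fintype.card F ^ (k + 1) - 1) := fun h => by
    have := Nat.dvd_sub h.1 h.2
    rw [show Fintype.card F ^ (k + 1) + 1 - (Fintype.card F ^ (k + 1) - 1) = 2 by omega] at this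
    exact hr.ne_two ((Nat.prime_dvd_prime_iff_eq hr.prime Nat.prime_two).1 this)
  rw [h3, hr.prime.dvd_mul, ← cc_dvd_two_mul_iff] at h2
  have h5 := dvd_half_iff (k := k + 1) hr.pos
  have p1 := (qf2_pos hq k).ne'
  have p2 : Fintype.card F ^ (k + 1) - 1 ≠ 0 := by omega
  have p3 : Fintype.card F ^ (k + 1) + 1 ≠ 0 := by omega
  rw [oR, dd, if_pos (even_two_mul _), show (2 * (k + 1) - 1) / 2 = k by omega,
    show 2 * (k + 1) / 2 = k + 1 by omega]
  split_ifs with a1 a2 a2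
  · rw [Nat.add_sub_cancel, Nat.factorization_mul p1 p2, Finsupp.add_apply,
      Nat.factorization_eq_zero_of_not_dvd (n := _ - 1) (by tauto), add_zero]
  · have := even_two_mul (k + 1)
    rw [qf2_succ, h3, Nat.factorization_mul p1 p2, Nat.factorization_mul p1 (mul_ne_zero p3 p2),
      Nat.factorization_mul p3 p2, Finsupp.add_apply, Finsupp.add_apply, Finsupp.add_apply,
      Nat.factorization_eq_zero_of_not_dvd (n := _ + 1) (by tauto), zero_add]
  · rw [Nat.add_sub_cancel, Nat.factorization_mul p1 p3, Finsupp.add_apply,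
      Nat.factorization_eq_zero_of_not_dvd (n := _ + 1) (by tauto), add_zero]
  · have := even_two_mul (k + 1)
    rw [qf2_succ, h3, Nat.factorization_mul p1 p3, Nat.factorization_mul p1 (mul_ne_zero p3 p2),
      Nat.factorization_mul p3 p2, Finsupp.add_apply, Finsupp.add_apply, Finsupp.add_apply,
      Nat.factorization_eq_zero_of_not_dvd (n := _ - 1) (by tauto), add_zero]

theorem oR_pos {q n : ℕ} (hq : 1 < q) (hn : n ≠ 0) (pl : Prop) : 0 < oR q n pl := by
  refine Nat.mul_pos (qf2_pos hq _) ?_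
  split_ifs with h1 h2
  · exact Nat.sub_pos_of_lt (Nat.one_lt_pow (by obtain ⟨k, rfl⟩ := h1; omega) hq)
  all_goals positivity

omit [Finite F] in
theorem OddP.not_dvd_card [Fintype F] (hr : OddP F r i) : ¬ r ∣ Fintype.card F := fun h => by
  obtain ⟨p, hp, n, hpp, hn⟩ := FiniteField.card' F
  have h1 : r ∣ p := hr.prime.dvd_of_dvd_pow (hn ▸ h)
  rw [Nat.prime_dvd_prime_iff_eq hr.prime hpp] at h1
  exact hr.ne_zero (h1 ▸ CharP.cast_eq_zero F p)

omit [Finite F] in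
theorem IsOS.factorization_card [Fintype F] (h : IsOS B Q) (hr : OddP F r i) (hn : finrank F V ≠ 0) :
    (Nat.card (Isom B Q)).factorization r =
      (qf2 (Fintype.card F) (dd i (finrank F V) (Plus F Q))).factorization r := by
  have hq := Fintype.one_lt_card (α := F)
  rw [IsOS.card_isom h hn, Nat.card_eq_fintype_card, Nat.factorization_mul (by positivity)
    (oR_pos hq hn _).ne', Finsupp.add_apply, hr.factorization_oR hn,
    Nat.factorization_eq_zero_of_not_dvd, zero_add]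
  rw [hr.prime.dvd_mul, Nat.prime_dvd_prime_iff_eq hr.prime Nat.prime_two]
  exact fun h => h.elim hr.ne_two fun h => hr.not_dvd_card (hr.prime.dvd_of_dvd_pow h)

omit [Finite F] in
theorem IsOS.cap [Fintype F] (h : IsOS B Q) (hr : OddP F r i) :
    Cap B Q r i (2 * dd i (finrank F V) (Plus F Q)) := by
  refine ⟨by unfold dd; split_ifs <;> omega, fun u hu hn => ?_⟩
  obtain ⟨n, B₀, Q₀, g, k1, k2, rfl⟩ :=
    fType_orth.real_of_cycFac hr.prime hr.ne_two hr.ne_zero hu.mem hu.dual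
  have h3 := (KSG.finrank_eq_sum_elemDiv g).trans (sum_natDegree_of_cycFac hr.prime hr.ne_zero hu.mem)
  have h4 := even_card_mul hr.prime hr.ne_two hr.ne_zero hu.mem hu.dual
  rw [← hr.ord] at h3 h4
  rcases hn.eq_or_lt with e | e
  swap
  · refine iff_of_true ?_ ?_
    · obtain ⟨n', B₂, Q₂, h₂, hV⟩ := IsOS.exists_isSum k1 h (h3 ▸ e)
      have := hV.realIn ⟨g, k2, rfl⟩ ⟨1, Pres.one, rfl⟩
      rwa [elemDiv_one, show finrank F (Fin n' → F) = finrank F V - Multiset.card (elemDiv g) * i by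
        rw [← hV.finrank_eq, h3]; omega] at this
    · rw [Nat.even_iff] at h4
      unfold dd
      split_ifs with a1
      · have := Nat.even_iff.1 a1.1
        omega
      · omega
  obtain ⟨A, hA, -⟩ := hr.exists_split hu
  have h5 : Odd i ∨ Even (finrank F V / cc i) ↔ Odd i ∨ Even (Multiset.card (elemDiv g)) := by
    rcases i.even_or_odd with hi | hi
    · rw [cc_of_even hi, ← e, Nat.mul_div_cancel _ hr.pos]
    · simp [hi]
  have h6 : RealIn B Q (elemDiv g) ↔ (Plus F Q ↔ Odd i ∨ Even (Multiset.card (elemDiv g))) := by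
    have h7 := IsOS.plus_iff_of_cycFac k1 k2 hr.prime hr.ne_two hr.ne_zero hu.mem
    rw [← hr.ord] at h7
    constructor
    · rintro ⟨g', a1, a2⟩
      rw [← a2, hr.ord]
      exact h.plus_iff_of_cycFac a1 hr.prime hr.ne_two hr.ne_zero (a2 ▸ hu.mem)
    · intro h8
      exact RealIn.of_isometric ⟨g, k2, rfl⟩ (IsOS.isometric_of_plus_iff k1 h (h3.trans e) (h3 ▸ h4)
        (h7.trans h8.symm))
  rw [e, Nat.sub_self, Multiset.replicate_zero, add_zero, h6, ← h5, dd]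
  rw [e] at h4 hA
  have h9 : cc i ∣ finrank F V := ⟨A, by rw [hA, mul_comm]⟩
  split_ifs with a1
  · refine iff_of_false (by tauto) fun h0 => a1.2 ⟨h9, ?_⟩
    have h0 : finrank F V = 0 := by omega
    exact iff_of_true (IsOS.plus_of_finrank_eq_zero h h0) (Or.inr (by simp [h0]))
  · exact iff_of_true (by tauto) (by obtain ⟨k, hk⟩ := h4; omega)

theorem bl_congr {n : ℕ} {pl pl' : Prop} (h : Even n → (pl ↔ pl')) : bl i n pl = bl i n pl' := by
  classical
  unfold bl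
  refine if_congr (and_congr_right fun h0 => ?_) rfl rfl
  rw [h ((even_cc i).two_dvd.trans (Nat.dvd_of_mod_eq_zero h0) |> even_iff_two_dvd.2)]

theorem IsOS.card_isom_ne_zero (h : IsOS B Q) (hn : finrank F V ≠ 0) : Nat.card (Isom B Q) ≠ 0 := by
  have hq : 1 < Nat.card F := Finite.one_lt_card
  have := oR_pos hq hn (Plus F Q)
  rw [IsOS.card_isom h hn]
  positivity

omit [Finite F] in
/-- **Non-degenerate subspaces of orthogonal spaces**, `r` odd. -/
theorem IsOS.forall_isoS [Fintype F] (h : IsOS B Q) (h₁ : IsOS B₁ Q₁) (hr : OddP F r i) {n m : ℕ}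
    (hn : finrank F V = n) (hm : finrank F V₁ = m) (h0 : m ≠ 0) (hlt : m < n) (he : Even m ∨ Even n)
    {pl pl₁ : Prop} (hp : Plus F Q ↔ pl) (hp₁ : Plus F Q₁ ↔ pl₁)
    (hN : r ∣ Nat.card {X // IsoS B Q B₁ Q₁ X}) :
    bl i m pl₁ < bl i n pl ∧ bl i (n - m) (pl ↔ pl₁) < bl i n pl ∧
      ((∀ g, Pres B Q g → g ^ r = 1 → g ≠ 1 → ∃ W, IsoS B Q B₁ Q₁ W ∧ Inv g W) ↔
        bl i n pl ≤ bl i m pl₁ + bl i (n - m) (pl ↔ pl₁)) := by
  subst hn hm
  obtain rfl := propext hp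
  obtain rfl := propext hp₁
  obtain ⟨n', B₂, Q₂, h₂, hV⟩ := IsOS.exists_isSum h₁ h hlt
  have e1 := hV.finrank_eq
  have e2 : bl i (finrank F V - finrank F V₁) (Plus F Q ↔ Plus F Q₁) =
      bl i (finrank F (Fin n' → F)) (Plus F Q₂) := by
    rw [← e1, Nat.add_sub_cancel_left]
    refine bl_congr fun e => ?_
    rw [hV.plus_iff h₁ h₂ (he.elim id fun e' => by rwa [← e1, Nat.even_add, iff_true_right e] at e') e]
    tauto
  have e3 := card_isoS_mul fType_orth h h₁ h₂ hV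
  have e4 := IsOS.card_isom_ne_zero h (by omega)
  rw [e2, forall_isoS_iff fType_orth hr h h₁ h₂ hV (IsOS.cap h hr) (IsOS.cap h₁ hr) (IsOS.cap h₂ hr)]
  simp only [← two_mul_dd_div hr.pos]
  exact ⟨hr.div_lt_of_dvd e4 (IsOS.factorization_card h₁ hr h0)
    (IsOS.factorization_card h hr (by omega)) ⟨_, by rw [← e3, mul_assoc]⟩ hN,
    hr.div_lt_of_dvd e4 (IsOS.factorization_card h₂ hr (by omega))
    (IsOS.factorization_card h hr (by omega)) ⟨_, by rw [← e3, mul_assoc, mul_comm (Nat.card (Isom B₂ Q₂))]⟩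
    hN, trivial⟩

theorem IsOS.exists_isHSum (h : IsOS B Q) {m : ℕ} (hm : 2 * m < finrank F V) :
    ∃ (B₀ : LinearMap.BilinForm F (Fin m → F)) (h₀ : Nd (RingHom.id F) B₀) (n : ℕ)
      (B₂ : LinearMap.BilinForm F (Fin n → F)) (Q₂ : (Fin n → F) → F), IsOS B₂ Q₂ ∧
      IsHSum 1 (AddMonoidHom.id F) h₀ B₂ Q₂ B Q ∧ (Plus F Q₂ ↔ Plus F Q) := by
  obtain ⟨B₀, h₀⟩ := exists_nd (σ := RingHom.id F) (fun _ => rfl) (Fin m → F)
  obtain ⟨n, B₂, Q₂, h₂, hV⟩ := IsOS.exists_isSum (fType_orth.isTF_hypB h₀) h (by simp; omega)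
  exact ⟨B₀, h₀, n, B₂, Q₂, h₂, hV, hV.plus (plus_hypB B₀), fun p =>
    hV.plus_of_plus (fType_orth.isTF_hypB h₀) h₂ p (plus_hypB B₀)⟩

omit [Finite F] in
theorem card_range_id : Nat.card (AddMonoidHom.id F).range = Nat.card F := by
  rw [AddMonoidHom.range_eq_top.2 Function.surjective_id, AddSubgroup.card_top]

omit [Finite F] in
theorem IsOS.coprime_card_tss [Fintype F] (h : IsOS B Q) {m : ℕ} (hm : 2 * m < finrank F V) :
    (Nat.card {X : Submodule F V // finrank F X = m ∧ ∀ x ∈ X, Q x = 0}).Coprime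
      (Fintype.card F) := by
  obtain ⟨B₀, h₀, n, B₂, Q₂, h₂, hV, -⟩ := IsOS.exists_isHSum h hm
  have e1 := hV.finrank_eq
  have e2 := hV.card_tss_mul fType_orth h h₂ (m := m) (by simp)
  rw [finrank_fin_fun, finrank_fin_fun] at e1
  simp only [IsOS.tss_iff h] at e2
  rw [IsOS.card_isom h (by omega), IsOS.card_isom h₂ (by simp; omega), card_range_id,
    Nat.card_eq_fintype_card (α := F), finrank_fin_fun] at e2
  have e3 : (n - 1) / 2 * (n / 2) + m * (n + m) = (finrank F V - 1) / 2 * (finrank F V / 2) + m := by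
    rw [← e1]
    rcases n.even_or_odd' with ⟨d, rfl | rfl⟩
    · obtain ⟨k, rfl⟩ : ∃ k, d = k + 1 := ⟨d - 1, by omega⟩
      rw [show (2 * (k + 1) - 1) / 2 = k by omega, show 2 * (k + 1) / 2 = k + 1 by omega,
        show (2 * (k + 1) + 2 * m - 1) / 2 = k + m by omega,
        show (2 * (k + 1) + 2 * m) / 2 = k + 1 + m by omega]
      ring
    · rw [show (2 * d + 1 - 1) / 2 = d by omega, show (2 * d + 1) / 2 = d by omega,
        show (2 * d + 1 + 2 * m - 1) / 2 = d + m by omega,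
        show (2 * d + 1 + 2 * m) / 2 = d + m by omega]
      ring
  refine Nat.Coprime.of_dvd_left ⟨qf (Fintype.card F) m * oR (Fintype.card F) n (Plus F Q₂),
    mul_left_cancel₀ (a := 2 * Fintype.card F ^ ((n - 1) / 2 * (n / 2) + m * (n + m)))
      (by have := Fintype.card_pos (α := F); positivity) ?_⟩
    (oR_coprime Fintype.card_pos (n := finrank F V) (by omega) (Plus F Q))
  conv_lhs => rw [e3]
  rw [pow_add, pow_add]
  linarith

omit [Finite F] in
/-- **Totally singular subspaces of orthogonal spaces**, `r` odd. -/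
theorem IsOS.forall_tss [Fintype F] (h : IsOS B Q) (hr : OddP F r i) {n m : ℕ}
    (hn : finrank F V = n) (hm : 2 * m < n) {pl : Prop} (hp : Plus F Q ↔ pl)
    (hN : r ∣ Nat.card {X : Submodule F V // finrank F X = m ∧ ∀ x ∈ X, Q x = 0}) :
    bl i (n - 2 * m) pl < bl i n pl ∧
      ((∀ g, Pres B Q g → g ^ r = 1 → g ≠ 1 →
        ∃ W : Submodule F V, (finrank F W = m ∧ ∀ x ∈ W, Q x = 0) ∧ Inv g W) ↔
        (Odd i ∧ bl i n pl ≤ m / i + bl i (n - 2 * m) pl) ∨ (Even i ∧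
          (r - 1) / i ≤ bl i (n - 2 * m) pl ∧ bl i n pl ≤ bl i (n - 2 * m) pl + 2 * (m / i))) := by
  subst hn
  obtain rfl := propext hp
  obtain ⟨B₀, h₀, n, B₂, Q₂, h₂, hV, hp⟩ := IsOS.exists_isHSum h hm
  have e1 := hV.finrank_eq
  have e2 := hV.card_tss_mul fType_orth h h₂ (m := m) (by simp)
  have e3 := finrank_fin_fun F (n := m)
  rw [e3] at e1
  simp only [IsOS.tss_iff h] at e2
  have e4 := IsOS.card_isom_ne_zero h (by omega)
  have e5 : Nat.card (AddMonoidHom.id F).range ^ m ≠ 0 := by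
    rw [card_range_id]; exact pow_ne_zero _ Nat.card_pos.ne'
  have e6 := hr.div_lt_of_dvd (mul_ne_zero e4 e5) (IsOS.factorization_card h₂ hr (by omega))
    (by rw [Nat.factorization_mul e4 e5, Finsupp.add_apply, IsOS.factorization_card h hr (by omega),
      Nat.factorization_eq_zero_of_not_dvd (n := _ ^ m), add_zero]
        rw [card_range_id, Nat.card_eq_fintype_card]
        exact fun h => hr.not_dvd_card (hr.prime.dvd_of_dvd_pow h))
    ⟨_, by rw [← e2, mul_right_comm _ (qf _ _), mul_assoc, mul_assoc]⟩ hN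
  rw [show finrank F V - 2 * m = finrank F (Fin n → F) by omega, ← bl_congr fun _ => hp]
  simp only [← two_mul_dd_div hr.pos, ← IsOS.tss_iff h]
  refine ⟨e6, ?_⟩
  rcases i.even_or_odd with hi | hi
  · rw [cc_of_even hi] at e6 ⊢
    have := forall_tss_iff_even fType_orth hr hi hV h h₂ (IsOS.cap h hr) (IsOS.cap h₂ hr) e6
    rw [e3] at this
    simp [this, hi, Nat.not_odd_iff_even.2 hi]
  · have := forall_tss_iff_odd fType_orth hr hi hV h h₂ (IsOS.cap h hr) (IsOS.cap h₂ hr)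
    rw [e3] at this
    simp [this, hi, Nat.not_even_iff_odd.2 hi]

end Cfsg.Agent.Class.Elus
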