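import Cfsg.Agent.Class.Elus.Orth1
import Cfsg.Prelude.Def_GeometricClasses

/-!
# Elements of `Ω` of prime order modulo scalars fixing subspaces: reductions
-/

set_option autoImplicit false

namespace Cfsg.Agent.Class.Elus

open Polynomial Module Wall
open Cfsg.Agent.KSG (Sim IsPP elemDiv cycFac)
open Cfsg.Agent.Class.Orth (SqClass sqClass)

variable {F V V₁ V₂ : Type*} [Field F] [AddCommGroup V] [Module F V] [AddCommGroup V₁]
  [Module F V₁] [AddCommGroup V₂] [Module F V₂]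
  {B : LinearMap.BilinForm F V} {Q : V → F} {B₁ : LinearMap.BilinForm F V₁} {Q₁ : V₁ → F}
  {B₂ : LinearMap.BilinForm F V₂} {Q₂ : V₂ → F} {g : End F V} {r i : ℕ}

/-- `g` lies in the commutator subgroup of the isometry group. -/
def InOm (B : LinearMap.BilinForm F V) (Q : V → F) (g : End F V) : Prop :=
  ∃ k ∈ commutator (Isom B Q), k.1.toLinearMap = g

/-- Every element of `Ω` of order `r` modulo scalars fixes a subspace of type `P`. -/
def Elu (B : LinearMap.BilinForm F V) (Q : V → F) (r : ℕ) (P : Submodule F V → Prop) : Prop :=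
  ∀ g, InOm B Q g → (∃ z : F, g ^ r = z • 1) → (∀ z : F, g ≠ z • 1) → ∃ W, P W ∧ Inv g W

theorem InOm.pres (h : InOm B Q g) : Pres B Q g := by
  obtain ⟨k, -, rfl⟩ := h
  exact pres_isom k

theorem InOm.pow (h : InOm B Q g) (n : ℕ) : InOm B Q (g ^ n) := by
  obtain ⟨k, hk, rfl⟩ := h
  refine ⟨k ^ n, pow_mem hk n, ?_⟩
  induction n with
  | zero => rfl
  | succ n ih => rw [pow_succ, pow_succ, ← ih]; rfl

theorem inOm_iff_og {Q : QuadraticForm F V} (k : Orth.OG Q) :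
    InOm (QuadraticMap.polarBilin Q) Q k.1.toLinearMap ↔ k ∈ commutator (Orth.OG Q) := by
  rw [← Orth.mem_commutator_equiv (Orth.ogEquiv Q)]
  refine ⟨fun ⟨k', h1, h2⟩ => ?_, fun h => ⟨_, h, rfl⟩⟩
  rwa [show Orth.ogEquiv Q k = k' from Subtype.ext (LinearEquiv.toLinearMap_injective h2.symm)]

theorem elu_congr {P P' : Submodule F V → Prop} (h : ∀ W, P W ↔ P' W) :
    Elu B Q r P ↔ Elu B Q r P' := by
  rw [funext fun W => propext (h W)]

section Mat

variable {ι : Type} [Fintype ι] [DecidableEq ι]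

theorem forall_omegaGL_iff (Q : QuadraticForm F (ι → F)) {q : (ι → F) → F} (h : ∀ v, Q v = q v)
    (Φ : End F (ι → F) → Prop) :
    (∀ x : GL ι F, x ∈ Geo.omegaGL q → Φ (Matrix.toLin' (x : Matrix ι ι F))) ↔
      ∀ g, InOm (QuadraticMap.polarBilin Q) Q g → Φ g := by
  constructor
  · rintro H _ ⟨k, hk, rfl⟩
    obtain ⟨k, rfl⟩ := (Orth.ogEquiv Q).surjective k
    obtain ⟨x, rfl⟩ := (Orth.isoEquiv Q q h).surjective k
    rw [Orth.mem_commutator_equiv, Orth.mem_commutator_equiv] at hk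
    exact H x.1 ⟨x, hk, rfl⟩
  · rintro H _ ⟨x, hx, rfl⟩
    exact H _ ((inOm_iff_og (Orth.isoEquiv Q q h x)).2 ((Orth.mem_Omega_iff Q q h x).1 hx))

theorem elu_iff (Q : QuadraticForm F (ι → F)) {q : (ι → F) → F} (h : ∀ v, Q v = q v) (r : ℕ)
    (P : Submodule F (ι → F) → Prop) :
    (∀ x : GL ι F, x ∈ Geo.omegaGL q →
      (∃ z : F, ((x ^ r : GL ι F) : Matrix ι ι F) = z • (1 : Matrix ι ι F)) →
      (∀ z : F, (x : Matrix ι ι F) ≠ z • (1 : Matrix ι ι F)) →
      ∃ W, P W ∧ W.map (Matrix.toLin' (x : Matrix ι ι F)) ≤ W) ↔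
    Elu (QuadraticMap.polarBilin Q) Q r P := by
  rw [Elu, ← forall_omegaGL_iff Q h]
  simp only [toLin'_pow_eq_smul_one_iff, Ne, toLin'_eq_smul_one_iff, inv_iff_map_le,
    Units.val_pow_eq_pow_val]

theorem elu_iff_orderOf (Q : QuadraticForm F (ι → F)) {q : (ι → F) → F} (h : ∀ v, Q v = q v)
    (hs : ∀ z : F, InOm (QuadraticMap.polarBilin Q) Q (z • 1) → z = 1) [hr : Fact r.Prime]
    (P : Submodule F (ι → F) → Prop) :
    (∀ x : GL ι F, x ∈ Geo.omegaGL q → orderOf x = r →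
      ∃ W, P W ∧ W.map (Matrix.toLin' (x : Matrix ι ι F)) ≤ W) ↔
    Elu (QuadraticMap.polarBilin Q) Q r P := by
  have key : ∀ g, InOm (QuadraticMap.polarBilin Q) Q g →
      (((∃ z : F, g ^ r = z • 1) ∧ ∀ z : F, g ≠ z • 1) ↔ g ^ r = 1 ∧ g ≠ 1) := fun g hg => by
    constructor
    · rintro ⟨⟨z, h1⟩, h2⟩
      exact ⟨by rw [h1, hs z (h1 ▸ hg.pow r), one_smul], by simpa using h2 1⟩
    · rintro ⟨h1, h2⟩
      exact ⟨⟨1, by simpa using h1⟩, fun z e => h2 (by rw [e, hs z (e ▸ hg), one_smul])⟩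
  refine Iff.trans ?_ (forall₂_congr fun g hg => by rw [← and_imp, key g hg]).symm
  rw [← forall_omegaGL_iff Q h]
  refine forall₂_congr fun x _ => ?_
  simp only [inv_iff_map_le, orderOf_eq_prime_iff]
  rw [← one_smul F (1 : End F (ι → F)), Ne, Ne, toLin'_pow_eq_smul_one_iff, toLin'_eq_smul_one_iff,
    one_smul, ← Units.val_pow_eq_pow_val, Units.val_eq_one, Units.val_eq_one]

omit [Fintype ι] [DecidableEq ι] in
theorem isNondegenerateOn_iff (Q : QuadraticForm F (ι → F)) {q : (ι → F) → F} (h : ∀ v, Q v = q v)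
    (W : Submodule F (ι → F)) : Geo.IsNondegenerateOn (QuadraticMap.polar q) W ↔
      W ⊓ perp (QuadraticMap.polarBilin Q) W = ⊥ := by
  obtain rfl : q = Q := funext fun v => (h v).symm
  rw [eq_bot_iff]
  constructor
  · rintro H w ⟨h1, h2⟩
    by_contra h3
    obtain ⟨⟨x, a1, a2⟩, -⟩ := H w h1 h3
    exact a2 (h2 x a1)
  · intro H w h1 h2
    have : ∃ x ∈ W, QuadraticMap.polar Q x w ≠ 0 := by
      by_contra h3
      push Not at h3
      exact h2 (H ⟨h1, h3⟩)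
    exact ⟨this, by simpa only [QuadraticMap.polar_comm Q w] using this⟩

end Mat

theorem plus_restrict_iff (W : Submodule F V) : Plus F (fun w : W => Q w) ↔
    ∃ U, U ≤ W ∧ (∀ u ∈ U, Q u = 0) ∧ 2 * finrank F U = finrank F W := by
  constructor
  · rintro ⟨U, h1, h2⟩
    refine ⟨U.map W.subtype, W.map_subtype_le U, ?_, by rwa [Submodule.finrank_map_subtype_eq]⟩
    rintro _ ⟨u, hu, rfl⟩
    exact h1 u hu
  · rintro ⟨U, h1, h2, h3⟩
    exact ⟨U.comap W.subtype, fun u hu => h2 _ hu,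
      by rwa [(Submodule.comapSubtypeEquivOfLe h1).finrank_eq]⟩

theorem IsOS.isometric_of_Q (h : IsOS B Q) (h₁ : IsOS B₁ Q₁) (e : V ≃ₗ[F] V₁)
    (he : ∀ v, Q₁ (e v) = Q v) : Isometric B Q B₁ Q₁ :=
  ⟨e, fun x y => by
    have := he (x + y)
    rw [map_add, IsOS.add' h, IsOS.add' h₁, he, he] at this
    exact add_left_cancel this, he⟩

theorem Inv.smul {W : Submodule F V} (h : Inv g W) (c : F) : Inv (c • g) W :=
  fun v hv => W.smul_mem c (h v hv)

theorem mul_self_eq_one_of_pres [Nontrivial V] (hB : Nd (RingHom.id F) B) {z : F}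
    (h : Pres B Q (z • 1)) : z * z = 1 := by
  obtain ⟨x, hx⟩ := exists_ne (0 : V)
  by_contra h1
  refine hx (hB.left x fun y => ?_)
  have := h.map_B x y
  simp only [LinearMap.smul_apply, End.one_apply, map_smul, smul_eq_mul] at this
  exact (mul_eq_zero.1 (by linear_combination this)).resolve_left (sub_ne_zero.2 h1)

theorem IsOS.pres_smul (h : IsOS B Q) (hg : Pres B Q g) {z : F} (hz : z * z = 1) :
    Pres B Q (z • g) :=
  IsOS.pres_of_Q h fun x => by rw [LinearMap.smul_apply, IsOS.smul' h, hz, one_mul, hg.map_Q]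

variable [FiniteDimensional F V] [FiniteDimensional F V₁] [FiniteDimensional F V₂]

theorem exists_og {Q : QuadraticForm F V} (hQ : (QuadraticMap.polarBilin Q).Nondegenerate)
    (hg : Pres (QuadraticMap.polarBilin Q) Q g) : ∃ k : Orth.OG Q, k.1.toLinearMap = g :=
  ⟨(Orth.ogEquiv Q).symm (hg.toIsom (isTF_of_quadratic Q hQ).toNd), rfl⟩

omit [FiniteDimensional F V] in
theorem og_pow {Q : QuadraticForm F V} (k : Orth.OG Q) (n : ℕ) :
    (k ^ n).1.toLinearMap = k.1.toLinearMap ^ n := by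
  induction n with
  | zero => rfl
  | succ n ih => rw [pow_succ, pow_succ, ← ih]; rfl

variable [Finite F]

theorem IsOS.isoS_iff (h : IsOS B Q) (h₁ : IsOS B₁ Q₁) (he : Even (finrank F V₁))
    (W : Submodule F V) : IsoS B Q B₁ Q₁ W ↔ finrank F W = finrank F V₁ ∧ W ⊓ perp B W = ⊥ ∧
      (Plus F (fun w : W => Q w) ↔ Plus F Q₁) := by
  refine ⟨fun e => ⟨e.finrank_eq, e.inf_perp h₁.toNd, e.plus_iff⟩, fun ⟨a1, a2, a3⟩ => ?_⟩
  exact IsOS.isometric_of_plus_iff (isTF_restrict fType_orth h a2) h₁ a1 (a1 ▸ he) a3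

omit [FiniteDimensional F V] [Finite F] in
theorem IsOS.isoS_iff_equiv (h : IsOS B Q) {W₀ : Submodule F V} (h₀ : W₀ ⊓ perp B W₀ = ⊥)
    (W : Submodule F V) : IsoS B Q (resB B W₀) (fun w => Q w) W ↔
      finrank F W = finrank F W₀ ∧ W ⊓ perp B W = ⊥ ∧ ∃ e : W ≃ₗ[F] W₀, ∀ w : W, Q (e w) = Q w :=
  ⟨fun e => ⟨e.finrank_eq, e.inf_perp (isTF_restrict fType_orth h h₀).toNd,
    e.imp fun _ h => h.2⟩, fun ⟨_, a2, e, he⟩ => IsOS.isometric_of_Q
      (isTF_restrict fType_orth h a2) (isTF_restrict fType_orth h h₀) e he⟩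

theorem exists_isOS_plus_iff {m : ℕ} (h0 : m ≠ 0) (hm : Even m) (pl : Prop) :
    ∃ (B : LinearMap.BilinForm F (Fin m → F)) (Q : (Fin m → F) → F), IsOS B Q ∧ (Plus F Q ↔ pl) := by
  obtain ⟨k, hk⟩ : ∃ k, m = 2 * k + 2 := by obtain ⟨a, ha⟩ := hm; exact ⟨a - 1, by omega⟩
  by_cases hp : pl
  · let e : (Fin m → F) ≃ₗ[F] (Fin (k + 1) ⊕ Fin (k + 1) → F) :=
      LinearEquiv.ofFinrankEq _ _ (by simp; omega)
    exact ⟨_, _, (isOS_plusQF (k + 1)).comp_equiv e, iff_of_true (Isometric.plus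
      (Isometric.symm (B := 0) (B' := 0) ⟨e, fun _ _ => rfl, fun _ => rfl⟩) (Orth.isPlus_plusQF _))
      hp⟩
  · obtain ⟨ζ, hζ⟩ := QF.exists_aniso (F := F)
    let e : (Fin m → F) ≃ₗ[F] ((Fin k ⊕ Fin k) ⊕ Fin 2 → F) :=
      LinearEquiv.ofFinrankEq _ _ (by simp; omega)
    exact ⟨_, _, (isOS_minusQF k hζ).comp_equiv e, iff_of_false (fun h => Orth.not_isPlus_minusQF k hζ
      (Isometric.plus (B := 0) (B' := 0) ⟨e, fun _ _ => rfl, fun _ => rfl⟩ h)) hp⟩

theorem IsOS.inOm_of_odd (h : IsOS B Q) (h4 : (2 : F) ≠ 0 ∨ finrank F V ≠ 4) (hg : Pres B Q g)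
    (hr : Odd r) (h1 : g ^ r = 1) : InOm B Q g := by
  obtain ⟨Q, rfl, rfl, hQ⟩ := h.exists_quadraticForm
  obtain ⟨k, rfl⟩ := exists_og hQ hg
  have hQ' := (Orth.nd_iff Q).2 hQ
  have hR : Orth.ReflGen Q := h4.elim hQ'.reflGen_odd fun h => hQ'.reflGen (Or.inr h)
  have h2 : k ^ r = 1 := Subtype.ext (LinearEquiv.toLinearMap_injective ((og_pow k r).trans h1))
  obtain ⟨j, rfl⟩ := hr
  rw [inOm_iff_og, Orth.mem_commutator_iff hQ' hR]
  constructor
  · have := congrArg (Orth.dickson hQ' hR) h2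
    rwa [map_pow, pow_succ, pow_mul, sq, Int.units_mul_self, one_pow, one_mul, map_one] at this
  · have := congrArg (Orth.spinor hQ' hR) h2
    rwa [map_pow, pow_succ, pow_mul, sq, Orth.sqClass_mul_self, one_pow, one_mul, map_one] at this

theorem IsOS.elu_iff_odd (h : IsOS B Q) (h4 : 5 ≤ finrank F V) (hr : Odd r)
    (P : Submodule F V → Prop) :
    Elu B Q r P ↔ ∀ g, Pres B Q g → g ^ r = 1 → g ≠ 1 → ∃ W, P W ∧ Inv g W := by
  have : Nontrivial V := nontrivial_of_finrank_pos (R := F) (by omega)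
  obtain ⟨j, hj⟩ := id hr
  constructor
  · intro H g h1 h2 h3
    refine H g (IsOS.inOm_of_odd h (Or.inr (by omega)) h1 hr h2) ⟨1, by simpa using h2⟩ ?_
    rintro z rfl
    rw [_root_.smul_pow, one_pow, hj, pow_succ, pow_mul, sq, mul_self_eq_one_of_pres h.toNd h1,
      one_pow, one_mul] at h2
    exact h3 h2
  · rintro H g h1 ⟨z, h2⟩ h3
    have hz := mul_self_eq_one_of_pres h.toNd (h2 ▸ h1.pres.pow r)
    obtain ⟨W, a1, a2⟩ := H (z • g) (IsOS.pres_smul h h1.pres hz) (by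
      rw [_root_.smul_pow, h2, smul_smul, hj, pow_succ, pow_mul, sq, hz, one_pow, one_mul, hz,
        one_smul]) fun e => h3 z (by rw [← e, smul_smul, hz, one_smul])
    exact ⟨W, a1, by simpa [smul_smul, hz] using a2.smul z⟩

theorem IsOS.eq_one_of_inOm (h : IsOS B Q) (hn : Odd (finrank F V)) {z : F} (hz : InOm B Q (z • 1)) :
    z = 1 := by
  have : Nontrivial V := nontrivial_of_finrank_pos (R := F) hn.pos
  have h2 := IsOS.two_ne_of_odd h hn
  refine (mul_self_eq_one_iff.1 (mul_self_eq_one_of_pres h.toNd hz.pres)).resolve_right ?_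
  rintro rfl
  obtain ⟨Q, rfl, rfl, hQ⟩ := h.exists_quadraticForm
  have hQ' := (Orth.nd_iff Q).2 hQ
  have : (Orth.negOne Q).1.toLinearMap = (-1 : F) • 1 := by ext; simp [Orth.negOne_apply]
  rw [← this, inOm_iff_og,
    Orth.negOne_mem_commutator_iff hQ' (hQ'.reflGen_odd h2) h2 (finBasis F V)] at hz
  exact Nat.not_even_iff_odd.2 hn hz.1

omit [FiniteDimensional F V] [Finite F] in
theorem IsOS.elu_two_iff [Nontrivial V] (h : IsOS B Q) (h2 : (2 : F) ≠ 0) (P : Submodule F V → Prop) :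
    Elu B Q 2 P ↔ (∀ g, InOm B Q g → g * g = 1 → g ≠ 1 → g ≠ -1 → ∃ W, P W ∧ Inv g W) ∧
      ∀ g, InOm B Q g → g * g = -1 → ∃ W, P W ∧ Inv g W := by
  constructor
  · refine fun H => ⟨fun g h1 h3 h4 h5 => H g h1 ⟨1, by simpa [sq] using h3⟩ ?_,
      fun g h1 h3 => H g h1 ⟨-1, by simpa [sq] using h3⟩ ?_⟩
    · rintro z rfl
      rcases mul_self_eq_one_iff.1 (mul_self_eq_one_of_pres h.toNd h1.pres) with rfl | rfl
      · simp at h4
      · simp at h5
    · rintro z rfl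
      rw [smul_mul_smul_comm, mul_self_eq_one_of_pres h.toNd h1.pres, one_smul, one_mul,
        eq_neg_iff_add_eq_zero, ← two_smul F, smul_eq_zero] at h3
      exact h3.elim h2 one_ne_zero
  · rintro ⟨H1, H2⟩ g h1 ⟨z, h3⟩ h4
    rcases mul_self_eq_one_iff.1 (mul_self_eq_one_of_pres h.toNd (h3 ▸ h1.pres.pow 2)) with rfl | rfl
    · exact H1 g h1 (by simpa [sq] using h3) (by simpa using h4 1) (by simpa using h4 (-1))
    · exact H2 g h1 (by simpa [sq] using h3)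

theorem IsOS.elu_two_iff_char (h : IsOS B Q) (h4 : 5 ≤ finrank F V) (h2 : (2 : F) = 0)
    (P : Submodule F V → Prop) :
    Elu B Q 2 P ↔ ∀ g, Pres B Q g → g * g = 1 → g ≠ 1 →
      Even (finrank F (LinearMap.range (1 - g))) → ∃ W, P W ∧ Inv g W := by
  have : Nontrivial V := nontrivial_of_finrank_pos (R := F) (by omega)
  have h5 : ∀ z : F, Pres B Q (z • 1) → z = 1 := fun z hz =>
    (mul_self_eq_one_iff.1 (mul_self_eq_one_of_pres h.toNd hz)).elim id fun e => by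
      rw [e]; linear_combination -h2
  have h6 : ∀ g, Pres B Q g → (InOm B Q g ↔ Even (finrank F (LinearMap.range (1 - g)))) := by
    intro g hg
    obtain ⟨Q, rfl, rfl, hQ⟩ := h.exists_quadraticForm
    obtain ⟨k, rfl⟩ := exists_og hQ hg
    have hQ' := (Orth.nd_iff Q).2 hQ
    rw [inOm_iff_og, Orth.mem_commutator_iff_even hQ' (hQ'.reflGen (Or.inr (by omega))) h2]
    rfl
  constructor
  · intro H g h1 h3 a4 a5
    refine H g ((h6 g h1).2 a5) ⟨1, by simpa [sq] using h3⟩ ?_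
    rintro z rfl
    exact a4 (by rw [h5 z h1, one_smul])
  · rintro H g h1 ⟨z, h3⟩ a4
    obtain rfl := h5 z (h3 ▸ h1.pres.pow 2)
    exact H g h1.pres (by simpa [sq] using h3) (by simpa using a4 1) ((h6 g h1.pres).1 h1)

end Cfsg.Agent.Class.Elus
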