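import Cfsg.Agent.Class.Elus.Orth2
import Cfsg.Agent.Class.Elus.Invol

/-!
# Involutions of `PΩ` in odd characteristic fixing subspaces
-/

set_option autoImplicit false

namespace Cfsg.Agent.Class.Elus

open Polynomial Module Wall
open Cfsg.Agent.KSG (Sim IsPP elemDiv cycFac)
open Cfsg.Agent.Class.Orth (SqClass sqClass)

variable {F V V₁ V₂ : Type*} [Field F] [AddCommGroup V] [Module F V] [AddCommGroup V₁]
  [Module F V₁] [AddCommGroup V₂] [Module F V₂]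
  {B : LinearMap.BilinForm F V} {Q : V → F} {B₁ : LinearMap.BilinForm F V₁} {Q₁ : V₁ → F}
  {B₂ : LinearMap.BilinForm F V₂} {Q₂ : V₂ → F} {g : End F V} {U : Submodule F V}
  [FiniteDimensional F V] [FiniteDimensional F V₁] [FiniteDimensional F V₂]

theorem det_one_sub_jj : LinearMap.det (1 - jj F V) = 2 ^ finrank F V := by
  have e : LinearMap.toMatrix ((finBasis F V).prod (finBasis F V)) ((finBasis F V).prod (finBasis F V))
      (1 - jj F V) = Matrix.fromBlocks 1 1 (-1) 1 := by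
    ext (i | i) (j | j) <;> simp [LinearMap.toMatrix_apply, jj_apply, Matrix.one_apply, Finsupp.single_apply, eq_comm]
  rw [← LinearMap.det_toMatrix ((finBasis F V).prod (finBasis F V)), e,
    Matrix.det_fromBlocks_one₁₁, neg_mul, one_mul, sub_neg_eq_add, ← two_smul F, Matrix.det_smul]
  simp

theorem exists_isOS (h2 : (2 : F) ≠ 0) (d : ℕ) :
    ∃ (B₀ : LinearMap.BilinForm F (Fin d → F)) (Q₀ : (Fin d → F) → F), IsOS B₀ Q₀ := by
  rcases eq_or_ne d 0 with rfl | h0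
  · exact ⟨0, 0, ⟨⟨fun _ => rfl, fun x _ => Subsingleton.elim _ _, fun x _ => Subsingleton.elim _ _⟩,
      by simp⟩, by simp, by simp, fun _ => ⟨0, by simp⟩⟩
  · obtain ⟨B₀, Q₀, h₀, -⟩ := exists_isOS_dsc (V := Fin d → F) h2 (by simpa using h0) 1
    exact ⟨B₀, Q₀, h₀⟩

variable [Finite F]

theorem IsOS.exists_le_isoS (h : IsOS B Q) (h₁ : IsOS B₁ Q₁) (hU : U ⊓ perp B U = ⊥)
    (hd : finrank F V₁ < finrank F U) : ∃ W ≤ U, IsoS B Q B₁ Q₁ W := by
  obtain ⟨n, B₂, Q₂, h₂, e, e1, e2⟩ := IsOS.exists_isSum h₁ (isTF_restrict fType_orth h hU) hd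
  refine ⟨_, ?_, isoS_range h₁.toNd (U.subtype ∘ₗ e.toLinearMap ∘ₗ LinearMap.inl F _ _)
    (fun x y => (e1 _ _).trans (by simp)) fun x => (e2 _).trans (by simp [h₂.map_zero])⟩
  rintro _ ⟨x, rfl⟩
  exact Subtype.prop _

theorem IsOS.exists_le_nondeg (h2 : (2 : F) ≠ 0) (h : IsOS B Q) (hU : U ⊓ perp B U = ⊥) {u : ℕ}
    (hu : u ≤ finrank F U) : ∃ W ≤ U, W ⊓ perp B W = ⊥ ∧ finrank F W = u := by
  rcases hu.eq_or_lt with e | e
  · exact ⟨U, le_rfl, hU, e.symm⟩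
  rcases eq_or_ne u 0 with rfl | h0
  · exact ⟨⊥, bot_le, bot_inf_eq _, finrank_bot _ _⟩
  obtain ⟨B₁, Q₁, h₁, -⟩ := exists_isOS_dsc (V := Fin u → F) h2 (by simpa using h0) 1
  obtain ⟨W, a1, a2⟩ := IsOS.exists_le_isoS h h₁ hU (by simpa using e)
  exact ⟨W, a1, a2.inf_perp h₁.toNd, a2.finrank_eq.trans (by simp)⟩

theorem NegOn.exists_isoS_of_two_le (hU : NegOn B g U) (h2 : (2 : F) ≠ 0) (h : IsOS B Q)
    (h₁ : IsOS B₁ Q₁) (hu : 2 ≤ finrank F U) (h0 : finrank F V₁ ≠ 0)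
    (hm : finrank F V₁ < finrank F V) : ∃ W, IsoS B Q B₁ Q₁ W ∧ Inv g W := by
  have h' := h.isFormed fType_orth
  have e1 := h'.finrank_add_finrank_perp U
  obtain ⟨W₂, a1, a2, a3⟩ := IsOS.exists_le_nondeg h2 h (h'.perp_inf_perp_perp hU.nd)
    (min_le_left _ (finrank F V₁ - 1))
  obtain ⟨n, B₃, Q₃, h₃, hV⟩ := IsOS.exists_isSum (isTF_restrict fType_orth h a2) h₁ (by omega)
  have e2 := hV.finrank_eq
  obtain ⟨W₁, b1, b2⟩ := IsOS.exists_le_isoS h h₃ hU.nd (by omega)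
  exact hU.exists_isoS h' h₁.toNd b1 a1 ((isometric_prod b2
    (Isometric.refl (B := resB B W₂) (Q := fun w => Q w))).trans hV.swap)

theorem NegOn.inOm_iff (hU : NegOn B g U) (h2 : (2 : F) ≠ 0) (h : IsOS B Q) (hg : Pres B Q g) :
    InOm B Q g ↔ Even (finrank F U) ∧ dsc (resB B U) = 1 := by
  have h' := h.isFormed fType_orth
  have h3 := (isTF_restrict fType_orth h hU.nd).toNd.det_ne_zero (finBasis F U)
  obtain ⟨Q, rfl, rfl, hQ⟩ := h.exists_quadraticForm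
  obtain ⟨k, rfl⟩ := exists_og hQ hg
  have hQ' := (Orth.nd_iff Q).2 hQ
  rw [inOm_iff_og, Orth.mem_commutator_iff_of_neg hQ' (hQ'.reflGen_odd h2) h2 k
    (fun i => (finBasis F U i : V)) ((finBasis F U).linearIndependent.map' U.subtype U.ker_subtype)
    (fun i => hU.neg _ (Subtype.prop _)), dsc, Orth.sqClass_eq_one_iff h3, Fintype.card_fin]
  · congr! 3
    ext i j
    simp
    rfl
  · intro x
    obtain ⟨a, b, rfl⟩ := h'.exists_add_perp hU.nd x
    have e1 : k.1 (a + b) = -a + b := by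
      rw [map_add]; exact congrArg₂ (· + ·) (hU.neg _ a.2) (hU.fix _ b.2)
    rw [e1, show Set.range (fun i => (finBasis F U i : V)) = U.subtype '' Set.range (finBasis F U) by
      rw [← Set.range_comp]; rfl, ← Submodule.map_span, Basis.span_eq, Submodule.map_subtype_top,
      add_sub_add_right_eq_sub]
    exact U.sub_mem a.2 (U.neg_mem a.2)

theorem IsOS.exists_tss_iff (h : IsOS B Q) (hU : U ⊓ perp B U = ⊥) (k : ℕ) :
    (∃ W ≤ U, TSS B Q W ∧ finrank F W = k) ↔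
      2 * k < finrank F U ∨ (2 * k = finrank F U ∧ Plus F fun w : U => Q w) := by
  have hU' := isTF_restrict fType_orth h hU
  constructor
  · rintro ⟨W, a1, a2, rfl⟩
    have a3 : 2 * finrank F W ≤ finrank F U := by
      obtain ⟨Q', e1, e2, e3⟩ := hU'.exists_quadraticForm
      rw [← (Submodule.comapSubtypeEquivOfLe a1).finrank_eq]
      exact QF.two_mul_finrank_le e3 _ fun u hu => (congrFun e1 u).trans (a2.2 _ hu)
    exact a3.lt_or_eq.imp_right fun e => ⟨e, (plus_restrict_iff U).2 ⟨W, a1, a2.2, e⟩⟩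
  · rintro (H | ⟨H1, H2⟩)
    · obtain ⟨B₀, h₀, n, B₂, Q₂, h₂, hV, -⟩ := IsOS.exists_isHSum hU' H
      obtain ⟨W, a1, a2⟩ := hV.exists_tss h₂
      refine ⟨W.map U.subtype, U.map_subtype_le W, (IsOS.tss_iff h).2 ?_, by
        rw [Submodule.finrank_map_subtype_eq, a1, finrank_fin_fun]⟩
      rintro _ ⟨x, hx, rfl⟩
      exact a2.2 x hx
    · obtain ⟨W, a1, a2, a3⟩ := (plus_restrict_iff U).1 H2
      exact ⟨W, a1, (IsOS.tss_iff h).2 a2, by omega⟩

theorem IsOS.exists_mul_eq_neg_iff (h2 : (2 : F) ≠ 0) (h : IsOS B Q) :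
    (∃ g, Pres B Q g ∧ g * g = -1) ↔ Even (finrank F V) ∧ dsc B = 1 := by
  constructor
  · rintro ⟨g, a1, a2⟩
    obtain ⟨d, hd, -⟩ := elemDiv_of_mul_eq_neg h2 h.toNd a1.map_B a2
    obtain ⟨B₀, Q₀, h₀⟩ := exists_isOS h2 d
    refine ⟨hd ▸ even_two_mul d, ?_⟩
    rw [IsSum.dsc_eq (isoSim_of_mul_eq_neg h2 ((h₀.prod h₀).isFormed fType_orth) (h.isFormed fType_orth)
      (IsTF.pres_jj h₀) a1 jj_mul a2 (by simp [hd, two_mul])).isometric h h₀ h₀,
      Orth.sqClass_mul_self]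
  · rintro ⟨⟨d, hd⟩, a2⟩
    obtain ⟨B₀, Q₀, h₀⟩ := exists_isOS h2 d
    obtain ⟨g, b1, b2⟩ := (IsOS.isometric_of_dsc h2 (h₀.prod h₀) h (by simp [hd]) (by
      rw [h₀.toHerm.dsc_prodB h₀.toHerm, a2, Orth.sqClass_mul_self])).exists_isoSim (IsTF.pres_jj h₀)
    exact ⟨g, b1, Sim.mul_eq_neg b2.sim jj_mul⟩

theorem IsOS.inOm_iff_of_mul_eq_neg (h2 : (2 : F) ≠ 0) (h : IsOS B Q) (hg : Pres B Q g)
    (e : g * g = -1) : InOm B Q g ↔ IsSquare ((2 : F) ^ (finrank F V / 2)) := by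
  obtain ⟨⟨d, hd⟩, a2⟩ := (IsOS.exists_mul_eq_neg_iff h2 h).1 ⟨g, hg, e⟩
  have h3 : LinearMap.det (1 - g) = 2 ^ d := by
    obtain ⟨B₀, Q₀, h₀⟩ := exists_isOS h2 d
    have := ((isoSim_of_mul_eq_neg h2 ((h₀.prod h₀).isFormed fType_orth) (h.isFormed fType_orth)
      (IsTF.pres_jj h₀) hg jj_mul e (by simp [hd])).sim.aeval (1 - X)).det
    simpa [det_one_sub_jj] using this.symm
  have h4 := h.toNd.det_ne_zero (finBasis F V)
  obtain ⟨Q, rfl, rfl, hQ⟩ := h.exists_quadraticForm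
  obtain ⟨k, rfl⟩ := exists_og hQ hg
  have hQ' := (Orth.nd_iff Q).2 hQ
  have hi := (End.isUnit_iff _).1 ((LinearMap.isUnit_iff_isUnit_det (1 - k.1.toLinearMap)).2
    (h3 ▸ (pow_ne_zero _ h2).isUnit))
  have li : LinearIndependent F fun i => finBasis F V i - k.1 (finBasis F V i) :=
    (finBasis F V).linearIndependent.map' (1 - k.1.toLinearMap) (LinearMap.ker_eq_bot.2 hi.1)
  obtain ⟨b1, b2⟩ := Orth.isWallDisc_of_family k (finBasis F V) li fun x => by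
    rw [li.span_eq_top_of_card_eq_finrank' (by simp)]; trivial
  have b3 : (Matrix.of fun i j => QuadraticMap.polar Q (finBasis F V i)
      (finBasis F V j - k.1 (finBasis F V j))).det = (LinearMap.BilinForm.toMatrix (finBasis F V)
        (QuadraticMap.polarBilin Q)).det * 2 ^ d := by
    rw [← h3, ← LinearMap.det_toMatrix (finBasis F V), ← Matrix.det_mul,
      ← LinearMap.BilinForm.toMatrix_compRight]
    congr 1
    ext i j
    simp [LinearMap.BilinForm.toMatrix_apply]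
  rw [inOm_iff_og, Orth.mem_commutator_iff hQ' (hQ'.reflGen_odd h2), Orth.dickson_eq_one_iff, b1,
    b2.spinor_eq hQ', b3, Orth.sqClass_mul h4 (pow_ne_zero _ h2), ← dsc, a2, one_mul,
    Orth.sqClass_eq_one_iff (pow_ne_zero _ h2), Fintype.card_fin, hd, show (d + d) / 2 = d by omega]
  exact and_iff_right ⟨d, rfl⟩

theorem IsOS.forall_mul_eq_neg (h2 : (2 : F) ≠ 0) (h : IsOS B Q) {Φ : End F V → Prop} {c : Prop}
    (H : ∀ g, Pres B Q g → g * g = -1 → (Φ g ↔ c)) : (∀ g, InOm B Q g → g * g = -1 → Φ g) ↔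
      (Even (finrank F V) ∧ dsc B = 1 ∧ IsSquare ((2 : F) ^ (finrank F V / 2)) → c) := by
  constructor
  · rintro H1 ⟨a1, a2, a3⟩
    obtain ⟨g, b1, b2⟩ := (IsOS.exists_mul_eq_neg_iff h2 h).2 ⟨a1, a2⟩
    exact (H g b1 b2).1 (H1 g ((IsOS.inOm_iff_of_mul_eq_neg h2 h b1 b2).2 a3) b2)
  · intro H1 g a1 a2
    have := (IsOS.exists_mul_eq_neg_iff h2 h).1 ⟨g, a1.pres, a2⟩
    exact (H g a1.pres a2).2
      (H1 ⟨this.1, this.2, (IsOS.inOm_iff_of_mul_eq_neg h2 h a1.pres a2).1 a1⟩)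

theorem IsOS.elu_two_isoS (h2 : (2 : F) ≠ 0) (h : IsOS B Q) (h₁ : IsOS B₁ Q₁)
    (h0 : finrank F V₁ ≠ 0) (hm : finrank F V₁ < finrank F V) :
    Elu B Q 2 (IsoS B Q B₁ Q₁) ↔ (Even (finrank F V) ∧ dsc B = 1 ∧
      IsSquare ((2 : F) ^ (finrank F V / 2)) → Even (finrank F V₁) ∧ dsc B₁ = 1) := by
  have : Nontrivial V := nontrivial_of_finrank_pos (R := F) (by omega)
  rw [IsOS.elu_two_iff h h2, IsOS.forall_mul_eq_neg h2 h, and_iff_right]
  · intro g a1 a2 a3 _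
    obtain ⟨U, hU⟩ := exists_negOn h2 (h.isFormed fType_orth) a1.pres a2
    have b1 := hU.finrank_ne (h.isFormed fType_orth) a3
    obtain ⟨k, hk⟩ := ((hU.inOm_iff h2 h a1.pres).1 a1).1
    exact hU.exists_isoS_of_two_le h2 h h₁ (by omega) h0 hm
  · intro g a1 a2
    obtain ⟨n, B₂, Q₂, h₂, hV⟩ := IsOS.exists_isSum h₁ h hm
    obtain ⟨b1, b2⟩ := (IsOS.exists_mul_eq_neg_iff h2 h).1 ⟨g, a1, a2⟩
    rw [exists_isoS_iff_of_mul_eq_neg fType_orth h2 h h₁ h₂ hV a1 a2,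
      IsOS.exists_mul_eq_neg_iff h2 h₁, IsOS.exists_mul_eq_neg_iff h2 h₂, and_iff_left_iff_imp]
    rintro ⟨c1, c2⟩
    rw [hV.dsc_eq h h₁ h₂, c2, one_mul] at b2
    rw [← hV.finrank_eq, Nat.even_add] at b1
    exact ⟨b1.1 c1, b2⟩

omit [Finite F] in
theorem sqClass_neg_one_pow [Fintype F] (h2 : (2 : F) ≠ 0) (d : ℕ) :
    sqClass (-1 : F) ^ d = 1 ↔ Even d ∨ Fintype.card F % 4 = 1 := by
  have := Orth.card_mod_two_of_two_ne_zero h2
  rw [← Orth.sqClass_pow (by simp), Orth.sqClass_eq_one_iff (by simp), QF.isSquare_neg_one_pow]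
  exact or_congr_right (by omega)

omit [Finite F] in
theorem isSquare_neg_one_iff' [Fintype F] (h2 : (2 : F) ≠ 0) :
    IsSquare (-1 : F) ↔ Fintype.card F % 4 = 1 := by
  have := Orth.card_mod_two_of_two_ne_zero h2
  rw [FiniteField.isSquare_neg_one_iff]
  omega

omit [Finite F] in
theorem isSquare_two_pow_iff [Fintype F] (h2 : (2 : F) ≠ 0) (d : ℕ) :
    IsSquare ((2 : F) ^ d) ↔ Even d ∨ Fintype.card F % 8 = 1 ∨ Fintype.card F % 8 = 7 := by
  have := Orth.card_mod_two_of_two_ne_zero h2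
  rcases d.even_or_odd with h | ⟨k, rfl⟩
  · exact iff_of_true (h.isSquare_pow _) (Or.inl h)
  · rw [pow_succ, pow_mul', QF.isSquare_sq_mul (pow_ne_zero _ h2), FiniteField.isSquare_two_iff,
      or_iff_right (by simp)]
    omega

omit [Finite F] in
theorem IsOS.dsc_eq_one_iff [Fintype F] (h2 : (2 : F) ≠ 0) (h : IsOS B Q) {d : ℕ}
    (hn : finrank F V = 2 * d) : dsc B = 1 ↔ (Plus F Q ↔ Even d ∨ Fintype.card F % 4 = 1) := by
  rw [IsOS.plus_iff_dsc h2 h hn, ← sqClass_neg_one_pow h2]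
  by_cases a1 : dsc B = 1 <;> by_cases a2 : sqClass (-1 : F) ^ d = 1
  · simp [a1, a2]
  · simp [a1, a2, Ne.symm a2]
  · simp [a1, a2]
  · simp [a2, Orth.sqClass_eq_of_ne_one a1 a2]

omit [Finite F] in
theorem IsOS.elu_two_tss [Fintype F] (h2 : (2 : F) ≠ 0) (h : IsOS B Q) {m : ℕ} (h0 : m ≠ 0)
    (hm : 2 * m < finrank F V) :
    Elu B Q 2 (fun W => finrank F W = m ∧ ∀ x ∈ W, Q x = 0) ↔
      (Fintype.card F % 4 = 1 ∨ 2 * m + 2 < finrank F V ∨
        (2 * m + 2 = finrank F V ∧ ¬ Plus F Q)) ∧ (Even (finrank F V) ∧ dsc B = 1 ∧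
      IsSquare ((2 : F) ^ (finrank F V / 2)) → Even m ∨ Fintype.card F % 4 = 1) := by
  have : Nontrivial V := nontrivial_of_finrank_pos (R := F) (by omega)
  have h' := h.isFormed fType_orth
  rw [IsOS.elu_two_iff h h2, IsOS.forall_mul_eq_neg h2 h]
  swap
  · intro g a1 a2
    obtain ⟨B₀, h₀, n, B₂, Q₂, h₂, hV, -⟩ := IsOS.exists_isHSum h hm
    obtain ⟨b1, b2⟩ := (IsOS.exists_mul_eq_neg_iff h2 h).1 ⟨g, a1, a2⟩
    have := exists_tss_iff_of_mul_eq_neg fType_orth h2 hV h h₂ a1 a2 fun H => by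
      rw [isSquare_neg_one_iff' h2, finrank_fin_fun, ← sqClass_neg_one_pow h2] at H
      rw [IsSum.dsc_eq hV h (fType_orth.isTF_hypB h₀) h₂, (IsOS.plus_iff_dsc h2
        (fType_orth.isTF_hypB h₀) (d := m) (by simp [two_mul])).1 (plus_hypB B₀), H, one_mul] at b2
      rw [← hV.finrank_eq, Nat.even_add] at b1
      exact (IsOS.exists_mul_eq_neg_iff h2 h₂).2 ⟨b1.2 (even_two_mul _), b2⟩
    rwa [isSquare_neg_one_iff' h2, finrank_fin_fun, funext fun W => propext (IsOS.tss_iff h (W := W))]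
      at this
  refine and_congr_left' ?_
  have key : ∀ g U, NegOn B g U → ∀ k, finrank F U = 2 * k → dsc (resB B U) = 1 →
      ((∃ W : Submodule F V, (finrank F W = m ∧ ∀ x ∈ W, Q x = 0) ∧ Inv g W) ↔ ∃ a b, a + b = m ∧
        (a < k ∨ (a = k ∧ (Even k ∨ Fintype.card F % 4 = 1))) ∧ (2 * b + 2 * k < finrank F V ∨
        (2 * b + 2 * k = finrank F V ∧ (Plus F Q ↔ Even k ∨ Fintype.card F % 4 = 1)))) := by
    intro g U hU k hk hd
    have e1 := h'.finrank_add_finrank_perp U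
    have c1 := isTF_restrict fType_orth h hU.nd
    have c2 := isTF_restrict fType_orth h (h'.perp_inf_perp_perp hU.nd)
    have e2 := (IsOS.dsc_eq_one_iff h2 c1 hk).1 hd
    have e3 := (isSum_perp h' hU.nd).plus_iff c1 c2 (hk ▸ even_two_mul k)
    have e4 : ∀ a, (∃ W ≤ U, TSS B Q W ∧ finrank F W = a) ↔
        a < k ∨ (a = k ∧ (Even k ∨ Fintype.card F % 4 = 1)) := fun a => by
      rw [IsOS.exists_tss_iff h hU.nd, e2, hk]
      exact or_congr (by omega) (and_congr_left' (by omega))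
    have e5 : ∀ b, (∃ W ≤ perp B U, TSS B Q W ∧ finrank F W = b) ↔ 2 * b + 2 * k < finrank F V ∨
        (2 * b + 2 * k = finrank F V ∧ (Plus F Q ↔ Even k ∨ Fintype.card F % 4 = 1)) := fun b => by
      rw [IsOS.exists_tss_iff h (h'.perp_inf_perp_perp hU.nd)]
      refine or_congr (by omega) ⟨fun c => ⟨by omega, ?_⟩, fun c => ⟨by omega, ?_⟩⟩
      · rw [e3 (c.1 ▸ even_two_mul b), e2, iff_true_intro c.2, iff_true]
      · have := e3 ⟨b, by omega⟩
        tauto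
    simp only [← IsOS.tss_iff h, hU.exists_tss_iff h2 h', ← e4, ← e5]
    exact ⟨fun ⟨W₁, W₂, a1, a2, a3, a4, a5⟩ => ⟨_, _, a5, ⟨W₁, a1, a3, rfl⟩, W₂, a2, a4, rfl⟩,
      fun ⟨_, _, a5, ⟨W₁, a1, a3, a6⟩, W₂, a2, a4, a7⟩ =>
        ⟨W₁, W₂, a1, a2, a3, a4, by rw [a6, a7, a5]⟩⟩
  constructor
  · intro H
    obtain ⟨B₁, Q₁, h₁, e⟩ := exists_isOS_dsc (V := Fin 2 → F) h2 (by simp) 1
    obtain ⟨U, -, a2⟩ := IsOS.exists_le_isoS (U := ⊤) h h₁ (by rw [h'.perp_top, inf_bot_eq])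
      (by simp; omega)
    obtain ⟨g, b1, b2, hU⟩ := exists_negOn' h fType_orth (a2.inf_perp h₁.toNd)
    have e1 := h'.finrank_add_finrank_perp U
    have e2 : finrank F U = 2 * 1 := a2.finrank_eq.trans (by simp)
    have e3 := (a2.dsc_eq h₁.toNd).trans e
    obtain ⟨a, b, c1, c2, c3⟩ := (key g U hU 1 e2 e3).1 (H g ((hU.inOm_iff h2 h b1).2
      ⟨e2 ▸ even_two_mul 1, e3⟩) b2 (hU.ne_one h2 (by omega)) (hU.ne_neg_one h2 (by omega)))
    by_cases hq : Fintype.card F % 4 = 1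
    · exact Or.inl hq
    simp only [Nat.not_even_one, hq, or_self, and_false, or_false, iff_false] at c2 c3
    exact Or.inr (c3.imp (by omega) fun c => ⟨by omega, c.2⟩)
  · intro H g a1 a2 a3 a4
    obtain ⟨U, hU⟩ := exists_negOn h2 h' a1.pres a2
    have b1 := hU.finrank_ne h' a3
    have b2 := hU.finrank_perp_ne h' a4
    have e1 := h'.finrank_add_finrank_perp U
    obtain ⟨⟨k, hk⟩, hd⟩ := (hU.inOm_iff h2 h a1.pres).1 a1
    rw [key g U hU k (by omega) hd]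
    by_cases c1 : Even k ∨ Fintype.card F % 4 = 1
    · refine ⟨min m k, m - min m k, by omega, by simp only [c1, and_true]; omega, Or.inl (by omega)⟩
    · refine ⟨min m (k - 1), m - min m (k - 1), by omega, by omega, ?_⟩
      simp only [c1, iff_false]
      rcases H with H | H | H
      · exact absurd (Or.inr H) c1
      · exact Or.inl (by omega)
      · simp only [H.2, not_false_eq_true, and_true]; omega

end Cfsg.Agent.Class.Elus
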