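import Cfsg.Agent.Class.Elus.Orth3

/-!
# Dictionary and arithmetic for the elusive actions of orthogonal groups
-/

set_option autoImplicit false

namespace Cfsg.Agent.Class.Elus

open Polynomial Module Wall

variable {F V₁ : Type*} [Field F] [AddCommGroup V₁] [Module F V₁]
  {B₁ : LinearMap.BilinForm F V₁} {Q₁ : V₁ → F} {ι : Type} {r i : ℕ}

theorem oddP_of [Fintype F] (p : ℕ) [hp : Fact p.Prime] [CharP F p] [hr : Fact r.Prime] (h2 : r ≠ 2)
    (h : r ≠ p) (hi : i = orderOf (Fintype.card F : ZMod r)) : OddP F r i :=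
  ⟨hr.out, h2, fun e => h ((Nat.prime_dvd_prime_iff_eq hp.out hr.out).1
    ((CharP.cast_eq_zero_iff F p r).1 e)).symm, hi⟩

theorem two_ne_zero_iff_char (F : Type*) [Field F] (p : ℕ) [hp : Fact p.Prime] [CharP F p] :
    (2 : F) ≠ 0 ↔ p ≠ 2 := by
  rw [Ne, Ne, ← Nat.cast_two, CharP.cast_eq_zero_iff F p,
    Nat.prime_dvd_prime_iff_eq hp.out Nat.prime_two]

theorem char_dvd_card (F : Type*) [Field F] [Fintype F] (p : ℕ) [CharP F p] : p ∣ Fintype.card F :=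
  (CharP.cast_eq_zero_iff F p _).1 (FiniteField.cast_card_eq_zero F)

theorem ne_char_of_coprime [Fintype F] (p : ℕ) [CharP F p] [hr : Fact r.Prime] {N : ℕ}
    (h : N.Coprime (Fintype.card F)) (hN : r ∣ N) : r ≠ p := by
  rintro rfl
  exact hr.out.one_lt.ne' (Nat.eq_one_of_dvd_coprimes h hN (char_dvd_card F r))

theorem isPlusTypeOn_iff (Q : QuadraticForm F (ι → F)) {q : (ι → F) → F} (h : ∀ v, Q v = q v)
    (W : Submodule F (ι → F)) : Geo.IsPlusTypeOn q W ↔ Plus F fun w : W => Q w := by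
  obtain rfl : q = Q := funext fun v => (h v).symm
  exact (plus_restrict_iff W).symm

variable [Fintype ι] [Finite F] [FiniteDimensional F V₁]

theorem plusType_iff {Q : QuadraticForm F (ι → F)} {q : (ι → F) → F} (h : ∀ v, Q v = q v)
    (hQ : IsOS (QuadraticMap.polarBilin Q) Q) (h₁ : IsOS B₁ Q₁) {m : ℕ} (hm : finrank F V₁ = m)
    (hp : Plus F Q₁) (W : Submodule F (ι → F)) : (finrank F W = m ∧
      Geo.IsNondegenerateOn (QuadraticMap.polar q) W ∧ Geo.IsPlusTypeOn q W) ↔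
      IsoS (QuadraticMap.polarBilin Q) Q B₁ Q₁ W := by
  rw [IsOS.isoS_iff hQ h₁ (Plus.even hp), isNondegenerateOn_iff Q h, isPlusTypeOn_iff Q h, hm,
    iff_true_intro hp, iff_true]

theorem minusType_iff {Q : QuadraticForm F (ι → F)} {q : (ι → F) → F} (h : ∀ v, Q v = q v)
    (hQ : IsOS (QuadraticMap.polarBilin Q) Q) (h₁ : IsOS B₁ Q₁) {m : ℕ} (hm : finrank F V₁ = m)
    (he : Even m) (hp : ¬ Plus F Q₁) (W : Submodule F (ι → F)) : (finrank F W = m ∧
      Geo.IsNondegenerateOn (QuadraticMap.polar q) W ∧ ¬ Geo.IsPlusTypeOn q W) ↔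
      IsoS (QuadraticMap.polarBilin Q) Q B₁ Q₁ W := by
  rw [IsOS.isoS_iff hQ h₁ (hm ▸ he), isNondegenerateOn_iff Q h, isPlusTypeOn_iff Q h, hm,
    iff_false_intro hp, iff_false]

omit [Fintype ι] [Finite F] in
theorem isomType_iff {Q : QuadraticForm F (ι → F)} {q : (ι → F) → F} (h : ∀ v, Q v = q v)
    (hQ : IsOS (QuadraticMap.polarBilin Q) Q) {m : ℕ} {W₀ : Submodule F (ι → F)}
    (h₀ : finrank F W₀ = m ∧ Geo.IsNondegenerateOn (QuadraticMap.polar q) W₀)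
    (W : Submodule F (ι → F)) : (finrank F W = m ∧
      Geo.IsNondegenerateOn (QuadraticMap.polar q) W ∧ Geo.AreIsometricFor q W W₀) ↔
      IsoS (QuadraticMap.polarBilin Q) Q (resB (QuadraticMap.polarBilin Q) W₀) (fun w => Q w) W := by
  rw [IsOS.isoS_iff_equiv hQ ((isNondegenerateOn_iff Q h _).1 h₀.2), isNondegenerateOn_iff Q h, h₀.1]
  obtain rfl : q = Q := funext fun v => (h v).symm
  rfl

theorem sub_div_mod {c n m : ℕ} (hc : 0 < c) (h : m ≤ n) :
    ((n - m) / c + m / c = n / c ∧ (n - m) % c + m % c = n % c) ∨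
      ((n - m) / c + m / c + 1 = n / c ∧ (n - m) % c + m % c = n % c + c) := by
  have h1 := Nat.add_div (a := n - m) (b := m) hc
  have h2 := Nat.add_mod_add_ite (n - m) m c
  rw [Nat.sub_add_cancel h] at h1 h2
  split_ifs at h1 h2 <;> omega

theorem two_mul_div_mod {c : ℕ} (hc : 0 < c) (m : ℕ) :
    (2 * m / c = 2 * (m / c) ∧ 2 * m % c = 2 * (m % c)) ∨
      (2 * m / c = 2 * (m / c) + 1 ∧ 2 * m % c + c = 2 * (m % c)) := by
  have h1 := Nat.add_div (a := m) (b := m) hc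
  have h2 := Nat.add_mod_add_ite m m c
  rw [← two_mul] at h1 h2
  split_ifs at h1 h2 <;> omega

theorem add_sub_div {c n m : ℕ} (hc : 0 < c) (h : m % c = n % c) :
    (n + m - 2 * (n % c)) / c = n / c + m / c := by
  have h1 := Nat.div_add_mod n c
  have h2 := Nat.div_add_mod m c
  rw [show n + m - 2 * (n % c) = c * (n / c + m / c) by rw [mul_add]; omega,
    Nat.mul_div_cancel_left _ hc]

theorem bl_of_odd (hi : Odd i) (n : ℕ) (pl : Prop) :
    (n % (2 * i) = 0 ∧ ¬ pl ∧ bl i n pl = n / (2 * i) - 1) ∨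
      ((n % (2 * i) ≠ 0 ∨ pl) ∧ bl i n pl = n / (2 * i)) := by
  unfold bl
  rw [cc_of_odd hi]
  split_ifs <;> tauto

theorem bl_of_even (hi : Even i) (n : ℕ) (pl : Prop) :
    (n % i = 0 ∧ ¬ (pl ↔ n / i % 2 = 0) ∧ bl i n pl = n / i - 1) ∨
      ((n % i ≠ 0 ∨ (pl ↔ n / i % 2 = 0)) ∧ bl i n pl = n / i) := by
  have := Nat.not_odd_iff_even.2 hi
  unfold bl
  rw [cc_of_even hi, ← Nat.even_iff]
  split_ifs <;> tauto

/-- Facts on quotients and remainders, for `omega`. -/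
theorem div_mod_facts {c : ℕ} (hc : 0 < c) (he : 2 ∣ c) (n : ℕ) :
    0 ≤ n / c ∧ n % c < c ∧ n % c % 2 = n % 2 ∧ ((c ≤ n ∧ 1 ≤ n / c) ∨ (n < c ∧ n / c = 0 ∧ n % c = n)) := by
  refine ⟨Nat.zero_le _, Nat.mod_lt _ hc, Nat.mod_mod_of_dvd _ he, ?_⟩
  rcases le_or_gt c n with h | h
  · exact Or.inl ⟨h, (Nat.one_le_div_iff hc).2 h⟩
  · exact Or.inr ⟨h, Nat.div_eq_of_lt h, Nat.mod_eq_of_lt h⟩

end Cfsg.Agent.Class.Elus
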