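import Cfsg.Agent.Class.Elus.Unip
import Cfsg.Agent.Class.Parabolic

/-!
# Elements of prime order modulo scalars in symplectic groups fixing subspaces
-/

set_option autoImplicit false

namespace Cfsg.Agent.Class.Elus

open Polynomial Module Wall
open Cfsg.Agent.KSG (Sim IsPP elemDiv cycFac)
open Cfsg.Agent.Class.Orth (SqClass sqClass)

variable {F V V₁ V₂ : Type*} [Field F] [AddCommGroup V] [Module F V] [AddCommGroup V₁]
  [Module F V₁] [AddCommGroup V₂] [Module F V₂] {ε : F} {π : F →+ F}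
  {B : LinearMap.BilinForm F V} {Q : V → F} {B₁ : LinearMap.BilinForm F V₁} {Q₁ : V₁ → F}
  {B₂ : LinearMap.BilinForm F V₂} {Q₂ : V₂ → F} {g : End F V} {r i : ℕ} {U : Submodule F V}

/-- Every isometry of order `r` modulo scalars has the property `Φ`. -/
def EluP (B : LinearMap.BilinForm F V) (Q : V → F) (r : ℕ) (Φ : End F V → Prop) : Prop :=
  ∀ g, Pres B Q g → (∃ z : F, g ^ r = z • 1) → (∀ z : F, g ≠ z • 1) → Φ g

section Gen

variable [Nontrivial V] {Φ : End F V → Prop}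

theorem eluP_iff_odd (h : IsTF (RingHom.id F) B Q ε π) (hr : Odd r)
    (hΦ : ∀ g (z : F), Φ g → Φ (z • g)) :
    EluP B Q r Φ ↔ ∀ g, Pres B Q g → g ^ r = 1 → g ≠ 1 → Φ g := by
  obtain ⟨j, hj⟩ := id hr
  constructor
  · intro H g h1 h2 h3
    refine H g h1 ⟨1, by simpa using h2⟩ ?_
    rintro z rfl
    rw [_root_.smul_pow, one_pow, hj, pow_succ, pow_mul, sq, mul_self_eq_one_of_pres h.toNd h1,
      one_pow, one_mul] at h2
    exact h3 h2
  · rintro H g h1 ⟨z, h2⟩ h3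
    have hz := mul_self_eq_one_of_pres h.toNd (h2 ▸ h1.pow r)
    simpa [smul_smul, hz] using hΦ _ z (H (z • g) (IsTF.pres_smul h h1 hz) (by
      rw [_root_.smul_pow, h2, smul_smul, hj, pow_succ, pow_mul, sq, hz, one_pow, one_mul, hz,
        one_smul]) fun e => h3 z (by rw [← e, smul_smul, hz, one_smul]))

theorem eluP_two_iff (h : Nd (RingHom.id F) B) (h2 : (2 : F) ≠ 0) :
    EluP B Q 2 Φ ↔ (∀ g, Pres B Q g → g * g = 1 → g ≠ 1 → g ≠ -1 → Φ g) ∧
      ∀ g, Pres B Q g → g * g = -1 → Φ g := by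
  constructor
  · refine fun H => ⟨fun g h1 h3 h4 h5 => H g h1 ⟨1, by simpa [sq] using h3⟩ ?_,
      fun g h1 h3 => H g h1 ⟨-1, by simpa [sq] using h3⟩ ?_⟩
    · rintro z rfl
      rcases mul_self_eq_one_iff.1 (mul_self_eq_one_of_pres h h1) with rfl | rfl
      · simp at h4
      · simp at h5
    · rintro z rfl
      rw [smul_mul_smul_comm, mul_self_eq_one_of_pres h h1, one_smul, one_mul,
        eq_neg_iff_add_eq_zero, ← two_smul F, smul_eq_zero] at h3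
      exact h3.elim h2 one_ne_zero
  · rintro ⟨H1, H2⟩ g h1 ⟨z, h3⟩ h4
    rcases mul_self_eq_one_iff.1 (mul_self_eq_one_of_pres h (h3 ▸ h1.pow 2)) with rfl | rfl
    · exact H1 g h1 (by simpa [sq] using h3) (by simpa using h4 1) (by simpa using h4 (-1))
    · exact H2 g h1 (by simpa [sq] using h3)

theorem eluP_two_iff_char (h : Nd (RingHom.id F) B) (h2 : (2 : F) = 0) :
    EluP B Q 2 Φ ↔ ∀ g, Pres B Q g → g * g = 1 → g ≠ 1 → Φ g := by
  have h5 : ∀ z : F, Pres B Q (z • 1) → z = 1 := fun z hz =>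
    (mul_self_eq_one_iff.1 (mul_self_eq_one_of_pres h hz)).elim id fun e => by
      rw [e]; linear_combination -h2
  constructor
  · intro H g h1 h3 a4
    refine H g h1 ⟨1, by simpa [sq] using h3⟩ ?_
    rintro z rfl
    exact a4 (by rw [h5 z h1, one_smul])
  · rintro H g h1 ⟨z, h3⟩ a4
    obtain rfl := h5 z (h3 ▸ h1.pow 2)
    exact H g h1 (by simpa [sq] using h3) (by simpa using a4 1)

end Gen

theorem exists_inv_smul {P : Submodule F V → Prop} (g : End F V) (z : F)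
    (h : ∃ W, P W ∧ Inv g W) : ∃ W, P W ∧ Inv (z • g) W := h.imp fun _ h => ⟨h.1, h.2.smul z⟩

theorem forall_sp_iff {d : ℕ} (Φ : End F (Fin d ⊕ Fin d → F) → Prop) :
    (∀ x : Matrix.symplecticGroup (Fin d) F, Φ (Matrix.toLin' x.1)) ↔
      ∀ g, Pres (sympB d F) (fun _ => 0) g → Φ g :=
  ⟨fun H g hg => by
    obtain ⟨x, hx⟩ := (spEquiv d F).surjective (hg.toIsom (isSympSpace_sympB d F).nd)
    rw [← hg.toIsom_toLinearMap (isSympSpace_sympB d F).nd, ← hx]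
    exact H x, fun H x => H _ (pres_isom (spEquiv d F x))⟩

theorem eluP_sp_iff {d : ℕ} (r : ℕ) (Φ : End F (Fin d ⊕ Fin d → F) → Prop) :
    (∀ x : Matrix.symplecticGroup (Fin d) F, (∃ z : F, (x ^ r).1 = z • 1) → (∀ z : F, x.1 ≠ z • 1) →
      Φ (Matrix.toLin' x.1)) ↔ EluP (sympB d F) (fun _ => 0) r Φ := by
  rw [EluP, ← forall_sp_iff]
  simp only [toLin'_pow_eq_smul_one_iff, Ne, toLin'_eq_smul_one_iff, SubmonoidClass.coe_pow]

/-- Symplectic spaces. -/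
abbrev IsSS (B : LinearMap.BilinForm F V) (Q : V → F) : Prop := IsTF (RingHom.id F) B Q (-1) 0

theorem isSS_sympB (d : ℕ) : IsSS (sympB d F) fun _ => 0 := (isSympSpace_sympB d F).isTF

theorem finrank_symp (d : ℕ) : finrank F (Fin d ⊕ Fin d → F) = 2 * d := by simp [two_mul]

theorem IsSS.eq_zero (h : IsSS B Q) : Q = fun _ => 0 := funext fun x => (h.self x).choose_spec.1

theorem IsSS.pres (h : IsSS B Q) (hg : ∀ x y, B (g x) (g y) = B x y) : Pres B Q g :=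
  ⟨hg, fun _ => by simp [IsSS.eq_zero h]⟩

theorem IsSS.tss_iff (h : IsSS B Q) {W : Submodule F V} : TSS B Q W ↔ ∀ x ∈ W, ∀ y ∈ W, B x y = 0 :=
  and_iff_left fun _ _ => by simp [IsSS.eq_zero h]

theorem IsSS.inf_perp_iff (h : IsSS B Q) (W : Submodule F V) :
    W ⊓ perp B W = ⊥ ↔ ∀ u ∈ W, u ≠ 0 → ∃ v ∈ W, B u v ≠ 0 := by
  rw [eq_bot_iff]
  refine ⟨fun H u h1 h2 => ?_, fun H u ⟨h1, h2⟩ => ?_⟩
  · by_contra! h3
    exact h2 (H ⟨h1, fun v hv => (h.isFormed fType_sp).refl (h3 v hv)⟩)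
  · by_contra h3
    obtain ⟨v, a1, a2⟩ := H u h1 h3
    exact a2 ((h.isFormed fType_sp).refl (h2 v a1))

theorem exists_sq_neg_sympB (d : ℕ) : ∃ g, Pres (sympB d F) (fun _ => 0) g ∧ g * g = -1 ∧
    (∀ v, (∀ i, v (.inl i) = 0) → ∀ i, g v (.inr i) = 0) ∧
    ∀ v, (∀ i, v (.inr i) = 0) → ∀ i, g v (.inl i) = 0 :=
  ⟨_, pres_isom (spEquiv d F ⟨_, SymplecticGroup.J_mem _ _⟩), by
    change Matrix.toLin' (Matrix.J _ _) * Matrix.toLin' (Matrix.J _ _) = _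
    rw [End.mul_eq_comp, ← Matrix.toLin'_mul, Matrix.J_squared, map_neg, Matrix.toLin'_one]; rfl,
    fun v hv i => by simp [spEquiv_apply, Matrix.J, Matrix.fromBlocks_mulVec, hv],
    fun v hv i => by simp [spEquiv_apply, Matrix.J, Matrix.fromBlocks_mulVec, Matrix.neg_mulVec, hv]⟩

variable [FiniteDimensional F V] [FiniteDimensional F V₁] [FiniteDimensional F V₂]

theorem IsSS.even (h : IsSS B Q) : Even (finrank F V) := h.isSympSpace.even_finrank

theorem IsSS.isometric (h : IsSS B Q) (h₁ : IsSS B₁ Q₁) (hd : finrank F V = finrank F V₁) :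
    Isometric B Q B₁ Q₁ := by
  obtain rfl := IsSS.eq_zero h
  obtain rfl := IsSS.eq_zero h₁
  exact h.isSympSpace.isometric h₁.isSympSpace hd

theorem IsSS.isSum (h₁ : IsSS B₁ Q₁) (h₂ : IsSS B₂ Q₂) (h : IsSS B Q)
    (hd : finrank F V₁ + finrank F V₂ = finrank F V) : IsSum B₁ Q₁ B₂ Q₂ B Q :=
  IsSS.isometric (h₁.prod h₂) h (by rw [finrank_prod, hd])

theorem IsSS.isoS_iff (h : IsSS B Q) (h₁ : IsSS B₁ Q₁) (W : Submodule F V) :
    IsoS B Q B₁ Q₁ W ↔ finrank F W = finrank F V₁ ∧ ∀ u ∈ W, u ≠ 0 → ∃ v ∈ W, B u v ≠ 0 := by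
  rw [← IsSS.inf_perp_iff h]
  exact ⟨fun e => ⟨e.finrank_eq, e.inf_perp h₁.toNd⟩,
    fun e => IsSS.isometric (isTF_restrict fType_sp h e.2) h₁ e.1⟩

theorem IsSS.exists_isHSum (h : IsSS B Q) {m l : ℕ} (hn : finrank F V = 2 * (m + l)) :
    ∃ (B₀ : LinearMap.BilinForm F (Fin m → F)) (h₀ : Nd (RingHom.id F) B₀),
      IsHSum (-1) 0 h₀ (sympB l F) (fun _ => 0) B Q := by
  obtain ⟨B₀, h₀⟩ := exists_nd (σ := RingHom.id F) (fun _ => rfl) (Fin m → F)
  exact ⟨B₀, h₀, IsSS.isSum (fType_sp.isTF_hypB h₀) (isSS_sympB l) h (by simp; omega)⟩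

theorem IsSS.exists_mul_eq_neg (h : IsSS B Q) : ∃ g, Pres B Q g ∧ g * g = -1 := by
  obtain ⟨d, hd⟩ := IsSS.even h
  obtain ⟨g, a1, a2, -⟩ := exists_sq_neg_sympB (F := F) d
  obtain ⟨g', b1, b2⟩ := (IsSS.isometric (isSS_sympB d) h (by simp [hd])).exists_isoSim a1
  exact ⟨g', b1, Sim.mul_eq_neg b2.sim a2⟩

theorem IsSS.exists_le_isoS (h : IsSS B Q) (h₁ : IsSS B₁ Q₁) (hU : U ⊓ perp B U = ⊥)
    (hd : finrank F V₁ ≤ finrank F U) : ∃ W ≤ U, IsoS B Q B₁ Q₁ W := by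
  have hU' := isTF_restrict fType_sp h hU
  have e1 := Nat.even_iff.1 (IsSS.even hU')
  have e2 := Nat.even_iff.1 (IsSS.even h₁)
  obtain ⟨e, e1, e2⟩ := IsSS.isSum h₁ (isSS_sympB ((finrank F U - finrank F V₁) / 2)) hU'
    (by rw [finrank_symp]; omega)
  refine ⟨_, ?_, isoS_range h₁.toNd (U.subtype ∘ₗ e.toLinearMap ∘ₗ LinearMap.inl F _ _)
    (fun x y => (e1 _ _).trans (by simp)) fun x => (e2 _).trans (by simp)⟩
  rintro _ ⟨x, rfl⟩
  exact Subtype.prop _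

theorem IsSS.exists_le_tss (h : IsSS B Q) (hU : U ⊓ perp B U = ⊥) {k : ℕ}
    (hk : 2 * k ≤ finrank F U) : ∃ W ≤ U, TSS B Q W ∧ finrank F W = k := by
  have hU' := isTF_restrict fType_sp h hU
  have e1 := Nat.even_iff.1 (IsSS.even hU')
  obtain ⟨B₀, h₀, hV⟩ := IsSS.exists_isHSum hU' (m := k) (l := finrank F U / 2 - k) (by omega)
  obtain ⟨W, a1, a2⟩ := hV.exists_tss (isSS_sympB _)
  refine ⟨W.map U.subtype, U.map_subtype_le W, (IsSS.tss_iff h).2 ?_, by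
    rw [Submodule.finrank_map_subtype_eq, a1, finrank_fin_fun]⟩
  rintro _ ⟨x, hx, rfl⟩ _ ⟨y, hy, rfl⟩
  exact a2.1 x hx y hy

theorem NegOn.exists_isoS_sp (hU : NegOn B g U) (h : IsSS B Q) (h₁ : IsSS B₁ Q₁)
    (hm : finrank F V₁ ≤ finrank F V) : ∃ W, IsoS B Q B₁ Q₁ W ∧ Inv g W := by
  have h' := h.isFormed fType_sp
  have e1 := h'.finrank_add_finrank_perp U
  have e2 := Nat.even_iff.1 (IsSS.even (isTF_restrict fType_sp h hU.nd))
  have e3 := Nat.even_iff.1 (IsSS.even h₁)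
  obtain ⟨W₁, a1, a2⟩ := IsSS.exists_le_isoS h (isSS_sympB (min (finrank F U) (finrank F V₁) / 2))
    hU.nd (by rw [finrank_symp]; omega)
  obtain ⟨W₂, b1, b2⟩ := IsSS.exists_le_isoS h
    (isSS_sympB ((finrank F V₁ - min (finrank F U) (finrank F V₁)) / 2))
    (h'.perp_inf_perp_perp hU.nd) (by rw [finrank_symp]; omega)
  exact hU.exists_isoS h' h₁.toNd a1 b1 ((isometric_prod a2 b2).trans
    (IsSS.isSum (isSS_sympB _) (isSS_sympB _) h₁ (by rw [finrank_symp, finrank_symp]; omega)))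

theorem IsSS.rz_true (h2 : (2 : F) = 0) (h : IsSS B Q) (s : ℕ) :
    Rz B Q s True ↔ Even s ∧ s ≤ finrank F V / 2 := by
  have h' := h.isFormed fType_sp
  refine ⟨fun H => ⟨H.even h', by have := H.two_mul_le h2 h'; omega⟩, fun ⟨a1, a2⟩ => ?_⟩
  obtain ⟨W, -, b1, rfl⟩ := IsSS.exists_le_tss (U := ⊤) h (by rw [h'.perp_top, inf_bot_eq]) (k := s)
    (by rw [finrank_top]; omega)
  exact rz_of_tss h2 h' (by linear_combination -h2) b1 a1

theorem IsSS.rz_false (h2 : (2 : F) = 0) (h : IsSS B Q) (s : ℕ) (h1 : 1 ≤ s)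
    (hs : 2 * s ≤ finrank F V) : Rz B Q s False := by
  have h' := h.isFormed fType_sp
  obtain ⟨W, -, b1, rfl⟩ := IsSS.exists_le_tss (U := ⊤) h (by rw [h'.perp_top, inf_bot_eq]) (k := s)
    (by rw [finrank_top]; omega)
  obtain ⟨t, a1, a2, a3⟩ := WallF.exists_invol_not_alt h' h2 (by linear_combination -h2) (by simp) h1
    (fun i => (finBasis F W i : V)) ((finBasis F W).linearIndependent.map' W.subtype W.ker_subtype)
    (fun i j => b1.1 _ (Subtype.prop _) _ (Subtype.prop _)) fun i => by simp [IsSS.eq_zero h]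
  exact ⟨_, pres_isom t, congrArg (fun x => x.1.toLinearMap) a1, a2, iff_false_intro a3⟩

theorem IsSS.even_count (h : IsSS B Q) (hg : Pres B Q g) {μ : Multiset ℕ}
    (hμ : elemDiv g = ub F μ) (e : ℕ) (he : Odd e) : Even (μ.count e) := by
  rw [← count_ub (F := F), ← hμ]
  exact h.isSympSpace.even_count hg.map_B (one_mul 1) he

theorem IsSS.realIn (h : IsSS B Q) {s : Multiset F[X]} (hs : Real (RingHom.id F) (-1) 0 s)
    (hn : (s.map natDegree).sum = finrank F V) : RealIn B Q s := by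
  obtain ⟨n, B₀, Q₀, g, a1, a2, rfl⟩ := hs
  exact RealIn.of_isometric ⟨g, a2, rfl⟩
    (IsSS.isometric a1 h ((KSG.finrank_eq_sum_elemDiv g).trans hn))

variable [Fintype F]

theorem IsSS.card_isom (h : IsSS B Q) {d : ℕ} (hn : finrank F V = 2 * d) :
    Nat.card (Isom B Q) = Fintype.card F ^ d ^ 2 * qf2 (Fintype.card F) d := by
  obtain rfl := IsSS.eq_zero h
  exact h.isSympSpace.card_isom hn

theorem IsSS.card_isom_ne_zero (h : IsSS B Q) : Nat.card (Isom B Q) ≠ 0 := by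
  obtain ⟨d, hd⟩ := IsSS.even h
  have := qf2_pos (Fintype.one_lt_card (α := F)) d
  rw [IsSS.card_isom h (d := d) (by omega)]
  positivity

theorem IsSS.factorization_card (h : IsSS B Q) (hr : OddP F r i) {d : ℕ} (hn : finrank F V = 2 * d) :
    (Nat.card (Isom B Q)).factorization r = (qf2 (Fintype.card F) d).factorization r := by
  rw [IsSS.card_isom h hn, Nat.factorization_mul (by positivity)
    (qf2_pos Fintype.one_lt_card _).ne', Finsupp.add_apply, Nat.factorization_eq_zero_of_not_dvd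
    fun e => hr.not_dvd_card (hr.prime.dvd_of_dvd_pow e), zero_add]

theorem IsSS.cap (h : IsSS B Q) (hr : OddP F r i) : Cap B Q r i (finrank F V) := by
  refine ⟨le_rfl, fun u hu hn => iff_of_true ?_ hn⟩
  have h4 := even_card_mul hr.prime hr.ne_two hr.ne_zero hu.mem hu.dual
  have h5 := IsSS.even h
  rw [← hr.ord, Nat.even_iff] at h4
  rw [Nat.even_iff] at h5
  exact IsSS.realIn h ((fType_sp.real_of_cycFac hr.prime hr.ne_two hr.ne_zero hu.mem hu.dual).add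
    (fType_sp.real_replicate (Nat.even_iff.2 (by omega)))) (by rw [hr.sum_natDegree hu.mem]; omega)

theorem IsSS.forall_isoS (h : IsSS B Q) (h₁ : IsSS B₁ Q₁) (hr : OddP F r i) {n m : ℕ}
    (hn : finrank F V = n) (hm : finrank F V₁ = m) (hle : m ≤ n)
    (hN : r ∣ Nat.card {X // IsoS B Q B₁ Q₁ X}) :
    m / cc i < n / cc i ∧ (n - m) / cc i < n / cc i ∧
      ((∀ g, Pres B Q g → g ^ r = 1 → g ≠ 1 → ∃ W, IsoS B Q B₁ Q₁ W ∧ Inv g W) ↔
        n / cc i ≤ m / cc i + (n - m) / cc i) := by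
  obtain ⟨a, ha⟩ := IsSS.even h₁
  obtain ⟨d, hd⟩ := IsSS.even h
  have h₂ := isSS_sympB (F := F) (d - a)
  have hV := IsSS.isSum h₁ h₂ h (by rw [finrank_symp]; omega)
  have e3 := card_isoS_mul fType_sp h h₁ h₂ hV
  rw [forall_isoS_iff fType_sp hr h h₁ h₂ hV (IsSS.cap h hr) (IsSS.cap h₁ hr) (IsSS.cap h₂ hr),
    finrank_symp, hn, hm, show n - m = 2 * (d - a) by omega]
  rw [show n = 2 * d by omega, show m = 2 * a by omega]
  exact ⟨hr.div_lt_of_dvd (IsSS.card_isom_ne_zero h) (IsSS.factorization_card h₁ hr (by omega))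
    (IsSS.factorization_card h hr (by omega)) ⟨_, by rw [← e3, mul_assoc]⟩ hN,
    hr.div_lt_of_dvd (IsSS.card_isom_ne_zero h) (IsSS.factorization_card h₂ hr (finrank_symp _))
    (IsSS.factorization_card h hr (by omega))
    ⟨_, by rw [← e3, mul_assoc, mul_comm (Nat.card (Isom (sympB _ F) _))]⟩ hN, Iff.rfl⟩

theorem IsSS.card_tss_mul (h : IsSS B Q) {m l : ℕ} (hn : finrank F V = 2 * (m + l)) :
    Nat.card {X : Submodule F V // finrank F X = m ∧ TSS B Q X} * qf (Fintype.card F) m *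
      qf2 (Fintype.card F) l = qf2 (Fintype.card F) (m + l) := by
  obtain ⟨B₀, h₀, hV⟩ := IsSS.exists_isHSum h hn
  have e2 := hV.card_tss_mul fType_sp h (isSS_sympB l) (m := m) (by simp)
  rw [IsSS.card_isom h hn, IsSS.card_isom (isSS_sympB l) (finrank_symp l), card_range_zero_hom,
    finrank_symp, show (m + l) ^ 2 = l ^ 2 + m * (2 * l + m) by ring, pow_add, one_pow] at e2
  refine mul_left_cancel₀ (a := Fintype.card F ^ l ^ 2 * Fintype.card F ^ (m * (2 * l + m)))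
    (by positivity) ?_
  linarith

theorem qf2_coprime {q : ℕ} (hq : 0 < q) (d : ℕ) : (qf2 q d).Coprime q :=
  Nat.Coprime.prod_left fun j _ => coprime_pow_sub_one hq (by omega)

theorem IsSS.forall_tss (h : IsSS B Q) (hr : OddP F r i) {m l : ℕ} (hn : finrank F V = 2 * (m + l))
    (hN : r ∣ Nat.card {X : Submodule F V // finrank F X = m ∧ TSS B Q X}) :
    2 * l / cc i < 2 * (m + l) / cc i ∧ ((∀ g, Pres B Q g → g ^ r = 1 → g ≠ 1 →
        ∃ W : Submodule F V, (finrank F W = m ∧ TSS B Q W) ∧ Inv g W) ↔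
        (Odd i ∧ 2 * (m + l) / cc i ≤ m / i + 2 * l / cc i) ∨ (Even i ∧
          (r - 1) / i ≤ 2 * l / cc i ∧ 2 * (m + l) / cc i ≤ 2 * l / cc i + 2 * (m / i))) := by
  obtain ⟨B₀, h₀, hV⟩ := IsSS.exists_isHSum h hn
  have e6 := hr.div_lt_of_dvd (D := m + l) (D' := l) (qf2_pos Fintype.one_lt_card _).ne' rfl rfl
    ⟨_, by rw [← IsSS.card_tss_mul h hn, mul_right_comm]⟩ hN
  have c₁ := hn ▸ IsSS.cap h hr
  have c₂ := finrank_symp (F := F) l ▸ IsSS.cap (isSS_sympB l) hr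
  refine ⟨e6, ?_⟩
  rcases i.even_or_odd with hi | hi
  · rw [cc_of_even hi] at e6 ⊢
    have := forall_tss_iff_even fType_sp hr hi hV h (isSS_sympB l) c₁ c₂ e6
    rw [finrank_fin_fun] at this
    simp [this, hi, Nat.not_odd_iff_even.2 hi]
  · have := forall_tss_iff_odd fType_sp hr hi hV h (isSS_sympB l) c₁ c₂
    rw [finrank_fin_fun] at this
    simp [this, hi, Nat.not_even_iff_odd.2 hi]

theorem IsSS.eluP_two_tss [Nontrivial V] (h2 : (2 : F) ≠ 0) (h : IsSS B Q) {m l : ℕ}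
    (hn : finrank F V = 2 * (m + l)) :
    EluP B Q 2 (fun g => ∃ W : Submodule F V, (finrank F W = m ∧ TSS B Q W) ∧ Inv g W) ↔
      Even m ∨ Fintype.card F % 4 = 1 := by
  have h' := h.isFormed fType_sp
  obtain ⟨B₀, h₀, hV⟩ := IsSS.exists_isHSum h hn
  have key := fun g a1 a2 => exists_tss_iff_of_mul_eq_neg (g := g) fType_sp h2 hV h (isSS_sympB l)
    a1 a2 fun _ => IsSS.exists_mul_eq_neg (isSS_sympB l)
  rw [isSquare_neg_one_iff' h2, finrank_fin_fun] at key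
  obtain ⟨g, a1, a2⟩ := IsSS.exists_mul_eq_neg h
  rw [eluP_two_iff h.toNd h2]
  refine ⟨fun H => (key g a1 a2).1 (H.2 g a1 a2), fun H => ⟨fun g b1 b2 _ _ => ?_,
    fun g b1 b2 => (key g b1 b2).2 H⟩⟩
  obtain ⟨U, hU⟩ := exists_negOn h2 h' b1 b2
  have e1 := h'.finrank_add_finrank_perp U
  have e2 := Nat.even_iff.1 (IsSS.even (isTF_restrict fType_sp h hU.nd))
  obtain ⟨W₁, c1, c2, c3⟩ := IsSS.exists_le_tss h hU.nd (k := min m (finrank F U / 2)) (by omega)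
  obtain ⟨W₂, d1, d2, d3⟩ := IsSS.exists_le_tss h (h'.perp_inf_perp_perp hU.nd)
    (k := m - min m (finrank F U / 2)) (by omega)
  exact (hU.exists_tss_iff h2 h' m).2 ⟨W₁, W₂, c1, d1, c2, d2, by omega⟩

theorem IsSS.exists_isoS_of_sq (h2 : (2 : F) ≠ 0) (h : IsSS B Q) (h₁ : IsSS B₁ Q₁)
    (hm : finrank F V₁ ≤ finrank F V) (hg : Pres B Q g) (e : g * g = 1 ∨ g * g = -1) :
    ∃ W, IsoS B Q B₁ Q₁ W ∧ Inv g W := by
  rcases e with e | e
  · obtain ⟨U, hU⟩ := exists_negOn h2 (h.isFormed fType_sp) hg e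
    exact hU.exists_isoS_sp h h₁ hm
  · have e1 := Nat.even_iff.1 (IsSS.even h)
    have e2 := Nat.even_iff.1 (IsSS.even h₁)
    have h₂ := isSS_sympB (F := F) ((finrank F V - finrank F V₁) / 2)
    exact (exists_isoS_iff_of_mul_eq_neg fType_sp h2 h h₁ h₂ (IsSS.isSum h₁ h₂ h
      (by rw [finrank_symp]; omega)) hg e).2 ⟨IsSS.exists_mul_eq_neg h₁, IsSS.exists_mul_eq_neg h₂⟩

theorem IsSS.forall_invol_isoS (h2 : (2 : F) = 0) (h : IsSS B Q) (h₁ : IsSS B₁ Q₁) {d a : ℕ}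
    (hn : finrank F V = 2 * d) (hm : finrank F V₁ = 2 * a) (hle : a ≤ d) :
    (∀ g, Pres B Q g → g * g = 1 → g ≠ 1 → ∃ W, IsoS B Q B₁ Q₁ W ∧ Inv g W) ↔ Odd d ∨ Even a := by
  have h₂ := isSS_sympB (F := F) (d - a)
  have := forall_invol_isoS_iff fType_sp h2 h h₁ h₂ (IsSS.isSum h₁ h₂ h (by rw [finrank_symp]; omega))
    (IsSS.even h₁) (IsSS.even h₂) (IsSS.rz_true h2 h) (IsSS.rz_true h2 h₁) (IsSS.rz_true h2 h₂)
    (IsSS.rz_false h2 h₁) (IsSS.rz_false h2 h₂) (R := fun _ => True) fun _ _ => trivial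
  simp only [true_imp_iff] at this
  rw [this, finrank_symp, hn, hm, Nat.odd_iff, Nat.even_iff]
  omega

theorem IsSS.realIn_ub (h : IsSS B Q) {μ : Multiset ℕ} (h0 : 0 ∉ μ)
    (hv : ∀ e, Odd e → Even (μ.count e)) (hs : μ.sum = finrank F V) : RealIn B Q (ub F μ) :=
  IsSS.realIn h (real_sp (isPP_ub h0) not_X_dvd_ub map_dual_ub
    fun _ e _ he => even_count_ub (hv e he) h0) (by rw [map_natDegree_ub, hs])

theorem IsSS.exists_sg (h2 : (2 : F) ≠ 0) (h : IsSS B Q) {μ : Multiset ℕ} (h0 : 0 ∉ μ)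
    (hv : ∀ e, Odd e → Even (μ.count e)) (hs : μ.sum = finrank F V) (s : ℕ → SqClass F) :
    ∃ g, Pres B Q g ∧ elemDiv g = ub F μ ∧ ∀ e, Even e → e ∈ μ → sg B g 1 e = s e := by
  obtain ⟨g, a1, a2⟩ := IsSS.realIn_ub h h0 hv hs
  obtain ⟨B', b1, b2, b3⟩ := h.toHerm.exists_sg h2 a1.map_B (one_mul 1)
    (isNilpotent_of_elemDiv_eq a2) s
  have b4 := (b1.isSympSpace h2).isTF
  obtain ⟨g', c1, c2⟩ := (IsSS.isometric b4 h rfl).exists_isoSim (IsSS.pres b4 b2)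
  refine ⟨g', c1, c2.sim.elemDiv_eq.symm.trans a2, fun e he hm => ?_⟩
  have : e ≠ 0 := fun e => h0 (e ▸ hm)
  rw [← c2.sg_eq h.toHerm c1.map_B (one_mul 1),
    b3 e ((neg_one_pow_mul_neg_one h2 this).2 he) (a2 ▸ (mem_ub this).2 ⟨rfl, hm⟩)]

theorem IsSS.forall_unip (h2 : (2 : F) ≠ 0) (h : IsSS B Q) (h₁ : IsSS B₁ Q₁) {p : ℕ} [Fact p.Prime]
    [CharP F p] (hm : finrank F V₁ ≤ finrank F V) :
    (∀ g, Pres B Q g → g ^ p = 1 → g ≠ 1 → ∃ W, IsoS B Q B₁ Q₁ W ∧ Inv g W) ↔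
      ∀ μ : Multiset ℕ, (∀ e ∈ μ, 0 < e ∧ e ≤ p) → (∀ e, Odd e → Even (μ.count e)) →
        μ.sum = finrank F V → ∃ ν ≤ μ, ν.sum = finrank F V₁ ∧ ∀ e, Odd e → Even (ν.count e) := by
  have e1 := Nat.even_iff.1 (IsSS.even h)
  have e2 := Nat.even_iff.1 (IsSS.even h₁)
  have h₂ := isSS_sympB (F := F) ((finrank F V - finrank F V₁) / 2)
  have hV := IsSS.isSum h₁ h₂ h (by rw [finrank_symp]; omega)
  constructor
  · intro H μ hμ hv hs
    by_cases h1 : ∀ e ∈ μ, e = 1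
    · obtain ⟨k, rfl⟩ : ∃ k, μ = Multiset.replicate k 1 := ⟨_, Multiset.eq_replicate_of_mem h1⟩
      refine ⟨Multiset.replicate (finrank F V₁) 1, (Multiset.replicate_le_replicate _).2 ?_, by simp,
        fun e he => ?_⟩
      · simp at hs; omega
      · rw [Multiset.count_replicate, Nat.even_iff]; split_ifs <;> omega
    push Not at h1
    obtain ⟨e, he, h1⟩ := h1
    obtain ⟨g, a1, a2⟩ := IsSS.realIn_ub h (fun h => (hμ 0 h).1.ne rfl) hv hs
    obtain ⟨g₁, g₂, ν₁, ν₂, b1, -, -, rfl, b5, -⟩ := exists_split_of_isoS fType_sp h h₁ h₂ hV a1 a2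
      (H g a1 (pow_char_eq_one_iff.2 ⟨_, a2, fun e he => (hμ e he).2⟩)
        (ne_one_of_elemDiv_eq a2 he h1))
    exact ⟨ν₁, Multiset.le_add_right _ _, sum_of_elemDiv_eq b5, IsSS.even_count h₁ b1 b5⟩
  · intro H g a1 a2 _
    classical
    obtain ⟨μ, b1, b2⟩ := pow_char_eq_one_iff.1 a2
    have b3 := zero_notMem_of_elemDiv_eq b1
    have b4 := IsSS.even_count h a1 b1
    have b5 := sum_of_elemDiv_eq b1
    obtain ⟨ν, c1, c2, c3⟩ := H μ (fun e he => ⟨Nat.pos_of_ne_zero fun h => b3 (h ▸ he), b2 e he⟩) b4 b5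
    obtain ⟨ν', rfl⟩ := Multiset.le_iff_exists_add.1 c1
    obtain ⟨g₁, d1, d2, d3⟩ := IsSS.exists_sg h2 h₁ (fun h => b3 (by simp [h])) c3 c2 (sg B g 1)
    obtain ⟨g₂, f1, f2, f3⟩ := IsSS.exists_sg h2 h₂ (μ := ν') (fun h => b3 (by simp [h]))
      (fun e he => by simpa [Nat.even_add, c3 e he] using b4 e he)
      (by rw [Multiset.sum_add] at b5; rw [finrank_symp]; omega)
      fun e => if e ∈ ν then 1 else sg B g 1 e
    refine exists_isoS_of_isoSim h₂ (((h₁.prod h₂).isFormed fType_sp).isoSim_of_sg h2 (by simp)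
      (h.isFormed fType_sp) (d1.prod f1) a1 (KSG.sim_of_elemDiv_eq (by
        rw [Wall.elemDiv_prodMap, d2, f2, b1, ub_add])) fun c e hc he => ?_)
    rw [h₁.toHerm.sg_prod h₂.toHerm d1.map_B f1.map_B hc]
    rcases eq_or_ne e 0 with rfl | h0
    · simp only [sg_eq_one hc (one_notMem_elemDiv _ c), mul_one]
    have k1 : ∀ {ν : Multiset ℕ}, ¬ (c = 1 ∧ e ∈ ν) → (X - C c) ^ e ∉ ub F ν :=
      fun h => mt (mem_ub h0).1 h
    rw [neg_one_pow_mul_neg_one h2 h0] at he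
    by_cases hc1 : c = 1
    swap
    · rw [sg_eq_one hc (d2 ▸ k1 (by tauto)), sg_eq_one hc (f2 ▸ k1 (by tauto)),
        sg_eq_one hc (b1 ▸ k1 (by tauto)), mul_one]
    subst hc1
    by_cases m1 : e ∈ ν <;> by_cases m2 : e ∈ ν'
    · rw [d3 e he m1, f3 e he m2, if_pos m1, mul_one]
    · rw [d3 e he m1, sg_eq_one (g := g₂) hc (f2 ▸ k1 (by tauto)), mul_one]
    · rw [f3 e he m2, if_neg m1, sg_eq_one (g := g₁) hc (d2 ▸ k1 (by tauto)), one_mul]
    · rw [sg_eq_one hc (d2 ▸ k1 (by tauto)), sg_eq_one hc (f2 ▸ k1 (by tauto)),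
        sg_eq_one hc (b1 ▸ k1 (by simp [m1, m2])), mul_one]

end Cfsg.Agent.Class.Elus
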