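import Cfsg.Agent.Class.Elus.Symp
import Cfsg.Agent.Class.Elus.Dec2

/-!
# Symplectic groups: orthogonal decompositions and pairs of complementary Lagrangians
-/

set_option autoImplicit false

namespace Cfsg.Agent.Class.Elus

open Polynomial Module Wall
open Cfsg.Agent.KSG (Sim IsPP elemDiv cycFac)

variable {F V V₁ V₂ : Type*} [Field F] [AddCommGroup V] [Module F V] [AddCommGroup V₁]
  [Module F V₁] [AddCommGroup V₂] [Module F V₂] {σ : F →+* F} {r i a t : ℕ}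

section Dec

variable {B : V →ₛₗ[σ] V →ₗ[F] F} {Q : V → F} {B₁ : V₁ →ₛₗ[σ] V₁ →ₗ[F] F} {Q₁ : V₁ → F}
  {B₂ : V₂ →ₛₗ[σ] V₂ →ₗ[F] F} {g : End F V} {g₁ : End F V₁} {g₂ : End F V₂}

/-- Orthogonality. -/
abbrev Ort (B : V →ₛₗ[σ] V →ₗ[F] F) : V → V → Prop := fun u v => B u v = 0

theorem HasDec.of_isoSim (h : HasDec (Ort B₁) g₁ a t) (e : IsoSim B₁ Q₁ g₁ B Q g) :
    HasDec (Ort B) g a t := by
  obtain ⟨ι, _, D, s, h1, h2, h3, h4, h5⟩ := h
  obtain ⟨e, e1, -, e3⟩ := e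
  refine ⟨ι, _, fun i => (D i).map e.toLinearMap, s, h1,
    fun i => (LinearEquiv.finrank_map_eq e _).trans (h2 i),
    by rw [← Submodule.map_iSup, h3, Submodule.map_top, e.range], ?_, ?_⟩
  · rintro i _ ⟨v, hv, rfl⟩
    exact ⟨_, h4 i v hv, e3 v⟩
  · rintro i j hij _ ⟨u, hu, rfl⟩ _ ⟨v, hv, rfl⟩
    exact (e1 u v).trans (h5 i j hij u hu v hv)

theorem HasDec.prod {t' : ℕ} (h : HasDec (Ort B₁) g₁ a t) (h' : HasDec (Ort B₂) g₂ a t') :
    HasDec (Ort (prodB B₁ B₂)) (g₁.prodMap g₂) a (t' + t) := by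
  obtain ⟨ι, _, D, s, h1, h2, h3, h4, h5⟩ := h
  obtain ⟨ι', _, D', s', h1', h2', h3', h4', h5'⟩ := h'
  refine ⟨ι ⊕ ι', inferInstance, Sum.elim (fun i => (D i).map (LinearMap.inl F V₁ V₂))
    (fun i => (D' i).map (LinearMap.inr F V₁ V₂)), s.sumCongr s', by simp [h1, h1', add_comm], ?_, ?_, ?_, ?_⟩
  · rintro (i | i)
    · exact (Submodule.equivMapOfInjective _ LinearMap.inl_injective _).finrank_eq.symm.trans (h2 i)
    · exact (Submodule.equivMapOfInjective _ LinearMap.inr_injective _).finrank_eq.symm.trans (h2' i)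
  · rw [iSup_sum]
    simp only [Sum.elim_inl, Sum.elim_inr]
    rw [← Submodule.map_iSup, ← Submodule.map_iSup, h3, h3', Submodule.map_top, Submodule.map_top,
      LinearMap.sup_range_inl_inr]
  · rintro (i | i) _ ⟨v, hv, rfl⟩
    · exact ⟨_, h4 i v hv, by simp⟩
    · exact ⟨_, h4' i v hv, by simp⟩
  · rintro (i | i) (j | j) hij _ ⟨u, hu, rfl⟩ _ ⟨v, hv, rfl⟩
    · simpa [Ort] using h5 i j (fun e => hij (e ▸ rfl)) u hu v hv
    · simp [Ort]
    · simp [Ort]
    · simpa [Ort] using h5' i j (fun e => hij (e ▸ rfl)) u hu v hv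

theorem hasDec_jj : HasDec (Ort (prodB B B)) (jj F V) (finrank F V) 2 := by
  refine ⟨Bool, inferInstance, fun b => bif b then LinearMap.range (LinearMap.inl F V V) else
    LinearMap.range (LinearMap.inr F V V), Equiv.boolNot, rfl, ?_, ?_, ?_, ?_⟩
  · rintro (_ | _)
    exacts [LinearMap.finrank_range_of_inj LinearMap.inr_injective,
      LinearMap.finrank_range_of_inj LinearMap.inl_injective]
  · rw [iSup_bool_eq]; exact LinearMap.sup_range_inl_inr
  · rintro (_ | _) _ ⟨v, rfl⟩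
    exacts [⟨-v, by simp [jj_apply]⟩, ⟨v, by simp [jj_apply]⟩]
  · rintro (_ | _) (_ | _) h _ ⟨u, rfl⟩ _ ⟨v, rfl⟩ <;> simp_all [Ort]

theorem eq_zero_of_dec {ι : Type*} {D : ι → Submodule F V} (h : Nd σ B) (h1 : iSup D = ⊤)
    (h2 : ∀ i j, i ≠ j → ∀ u ∈ D i, ∀ v ∈ D j, B u v = 0) {j : ι} {u : V} (hu : u ∈ D j)
    (h0 : ∀ v ∈ D j, B u v = 0) : u = 0 := h.left u fun y => by
  refine Submodule.iSup_induction D (motive := fun y => B u y = 0) (h1.ge (Submodule.mem_top (x := y)))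
    (fun i v hv => ?_) (map_zero _) fun x y hx hy => by rw [map_add, hx, hy, add_zero]
  rcases eq_or_ne j i with rfl | e
  exacts [h0 v hv, h2 j i e u hu v hv]

theorem pres_of_dec {ι : Type*} {D : ι → Submodule F V} (h1 : iSup D = ⊤) {f : V →ₗ[F] V₁}
    (h2 : ∀ i j, ∀ u ∈ D i, ∀ v ∈ D j, B₁ (f u) (f v) = B u v) (x y : V) :
    B₁ (f x) (f y) = B x y := by
  refine Submodule.iSup_induction D (motive := fun x => B₁ (f x) (f y) = B x y)
    (h1.ge (Submodule.mem_top (x := x))) (fun i u hu => ?_) (by simp)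
    fun x y hx hy => by simp [hx, hy]
  exact Submodule.iSup_induction D (motive := fun y => B₁ (f u) (f y) = B u y)
    (h1.ge (Submodule.mem_top (x := y))) (fun j v hv => h2 i j u hu v hv) (by simp)
    fun x y hx hy => by simp [hx, hy]

end Dec

variable {B : LinearMap.BilinForm F V} {Q : V → F} {B₁ : LinearMap.BilinForm F V₁} {Q₁ : V₁ → F}
  {B₂ : LinearMap.BilinForm F V₂} {Q₂ : V₂ → F} {g : End F V}

theorem hasDec_sp_zero (b : ℕ) (g : End F (Fin (b * 0) ⊕ Fin (b * 0) → F)) :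
    HasDec (Ort (sympB (b * 0) F)) g a 0 :=
  have : IsEmpty (Fin (b * 0)) := inferInstanceAs (IsEmpty (Fin 0))
  HasDec.zero _ _ _

theorem hasDec_sp_one {b : ℕ} (g : End F (Fin b ⊕ Fin b → F)) : HasDec (Ort (sympB b F)) g (2 * b) 1 :=
  finrank_symp (F := F) b ▸ HasDec.one _ _

theorem isSum_sp (b c : ℕ) {d : ℕ} (h : d = b + c) :
    IsSum (sympB b F) (fun _ => 0) (sympB c F) (fun _ => 0) (sympB d F) fun _ => 0 :=
  IsSS.isSum (isSS_sympB b) (isSS_sympB c) (isSS_sympB d) (by simp only [finrank_symp]; omega)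

theorem hasDec_sp_succ {b : ℕ} {g : End F (Fin (b * (t + 1)) ⊕ Fin (b * (t + 1)) → F)}
    (hg : Pres (sympB _ F) (fun _ => 0) g) {z : F} (hz : g * g = z • 1)
    (H : ∃ W, IsoS (sympB _ F) (fun _ => 0) (sympB b F) (fun _ => 0) W ∧ Inv g W)
    (ih : ∀ g, Pres (sympB (b * t) F) (fun _ => 0) g → g * g = z • 1 →
      HasDec (Ort (sympB (b * t) F)) g (2 * b) t) : HasDec (Ort (sympB _ F)) g (2 * b) (t + 1) := by
  obtain ⟨g₁, g₂, -, a2, a3⟩ := (exists_isoS_iff_isoSim fType_sp (isSS_sympB _) (isSS_sympB b)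
    (isSS_sympB (b * t)) (isSum_sp _ _ (by ring)) hg).1 H
  have := Sim.pow_eq_smul a3.symm.sim (r := 2) (by rwa [sq])
  exact ((hasDec_sp_one g₁).prod (ih g₂ a2 (LinearMap.ext fun x =>
    congrArg Prod.snd (LinearMap.congr_fun this (0, x))))).of_isoSim a3

section Fin

variable [Fintype F]

theorem hasDec_sp_of_sq (h2 : (2 : F) ≠ 0) (b : ℕ) {z : F} (hz : z = 1 ∨ z = -1) (t : ℕ) :
    ∀ g, Pres (sympB (b * t) F) (fun _ => 0) g → g * g = z • 1 →
      HasDec (Ort (sympB (b * t) F)) g (2 * b) t := by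
  induction t with
  | zero => exact fun g _ _ => hasDec_sp_zero b g
  | succ t ih =>
    exact fun g a1 a2 => hasDec_sp_succ a1 a2 (IsSS.exists_isoS_of_sq h2 (isSS_sympB _) (isSS_sympB b)
      (by simp only [finrank_symp]; nlinarith) a1 (hz.imp (by rintro rfl; simpa using a2)
        (by rintro rfl; rw [a2]; ext; simp))) ih

omit [Fintype F] in
theorem rk_jj [FiniteDimensional F V] (h2 : (2 : F) = 0) (h : IsSS B Q) :
    jj F V * jj F V = 1 ∧ rk (jj F V) = finrank F V ∧ Alt (prodB B B) (jj F V) := by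
  have h1 : jj F V * jj F V = 1 := by
    rw [jj_mul, neg_eq_iff_add_eq_zero, ← two_smul F, h2, zero_smul]
  have := Rz.two_mul_le h2 ((h.prod h).isFormed fType_sp) ⟨_, IsTF.pres_jj h, h1, rfl, Iff.rfl⟩
  rw [finrank_prod] at this
  refine ⟨h1, le_antisymm (by omega) ?_, fun u => ?_⟩
  · rw [← LinearMap.finrank_range_of_inj (f := (1 - jj F V) ∘ₗ LinearMap.inl F V V)
      fun x y e => by simpa [jj_apply] using congrArg Prod.fst e]
    exact Submodule.finrank_mono (LinearMap.range_comp_le_range _ _)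
  · have := h.symm u.1 u.2
    simp only [jj_apply, prodB_apply, map_sub, map_neg,
      h.isSympSpace.isAlt.self_eq_zero, RingHom.id_apply] at this ⊢
    linear_combination this - B u.2 u.1 * h2

theorem hasDec_sp_char (h2 : (2 : F) = 0) {b : ℕ} (hb : b ≠ 0) (t : ℕ) :
    ∀ g, Pres (sympB (b * t) F) (fun _ => 0) g → g * g = 1 →
      HasDec (Ort (sympB (b * t) F)) g (2 * b) t := by
  induction t using Nat.strong_induction_on with | _ t ih => ?_
  intro g a1 a2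
  obtain _ | t := t
  · exact hasDec_sp_zero b g
  have h := isSS_sympB (F := F) (b * (t + 1))
  have h₁ := isSS_sympB (F := F) b
  have a3 := Rz.two_mul_le h2 (h.isFormed fType_sp) ⟨g, a1, a2, rfl, Iff.rfl⟩
  rw [finrank_symp] at a3
  by_cases hA : Alt (sympB _ F) g ∧ 2 * b ≤ rk g
  · obtain _ | t := t
    · omega
    obtain ⟨c1, c2, c3⟩ := rk_jj h2 h₁
    have h₂ := isSS_sympB (F := F) (b * t)
    have a4 := Nat.even_iff.1 (Rz.even (h.isFormed fType_sp) ⟨g, a1, a2, rfl, iff_true_intro hA.1⟩)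
    obtain ⟨g₂, b1, b2, b3, b4⟩ := (IsSS.rz_true h2 h₂ (rk g - 2 * b)).2
      ⟨Nat.even_iff.2 (by omega), by rw [finrank_symp]; simp only [mul_add] at a3; omega⟩
    rw [finrank_symp] at c2
    refine ((finrank_symp (F := F) b ▸ hasDec_jj).prod (ih t (by omega) g₂ b1 b2)).of_isoSim
      (isoSim_of_invol h2 (h.isFormed fType_sp) (IsSS.isSum (h₁.prod h₁) h₂ h (by
        simp only [finrank_prod, finrank_symp]; ring)) ((IsTF.pres_jj h₁).prod b1) a1
        (LinearMap.ext fun x => Prod.ext (LinearMap.congr_fun c1 x.1) (LinearMap.congr_fun b2 x.2))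
        a2 (by rw [rk_prodMap]; omega) (by simp [alt_prodMap, c3, b4, hA.1]))
  have h₂ := isSS_sympB (F := F) (b * t)
  refine hasDec_sp_succ a1 (z := 1) (by simpa using a2) ?_ fun g c1 c2 => ih t (by omega) g c1
    (by simpa using c2)
  rw [exists_isoS_iff_invol fType_sp h2 h h₁ h₂ (isSum_sp _ _ (by ring)) a1 a2]
  replace a3 : rk g ≤ b * t + b := by have := mul_add_one b t; omega
  by_cases ha : Alt (sympB _ F) g
  · have a4 := Nat.even_iff.1 (Rz.even (h.isFormed fType_sp) ⟨g, a1, a2, rfl, iff_true_intro ha⟩)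
    have a5 : b * t = 0 ∨ b ≤ b * t := by
      rcases t with _ | t
      exacts [Or.inl rfl, Or.inr (by nlinarith)]
    exact ⟨min (rk g) (2 * (b / 2)), True, rk g - min (rk g) (2 * (b / 2)), True,
      (IsSS.rz_true h2 h₁ _).2 ⟨Nat.even_iff.2 (by omega), by rw [finrank_symp]; omega⟩,
      (IsSS.rz_true h2 h₂ _).2 ⟨Nat.even_iff.2 (by omega), by
        rw [finrank_symp]; simp only [ha, true_and] at hA; omega⟩, by omega, by simp [ha]⟩
  · have b2 : rk g ≠ 0 := fun e => ha (rk_eq_zero_iff.1 e ▸ alt_one)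
    by_cases b4 : rk g ≤ b
    · exact ⟨_, _, _, _, IsSS.rz_false h2 h₁ (rk g) (by omega) (by rw [finrank_symp]; omega), rz_zero, rfl,
        by simp [ha]⟩
    exact ⟨_, _, _, _, IsSS.rz_false h2 h₁ b (by omega) (by rw [finrank_symp]),
      IsSS.rz_false h2 h₂ (rk g - b) (by omega) (by rw [finrank_symp]; omega), by omega, by simp [ha]⟩

theorem exists_hasDec_sp (hr : OddP F r i) (b t : ℕ) : ∀ u : Multiset F[X], SD r u →
    Multiset.card u * i ≤ t * (2 * b / cc i) * cc i → ∃ g, Pres (sympB (b * t) F) (fun _ => 0) g ∧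
      elemDiv g = u + Multiset.replicate (2 * (b * t) - Multiset.card u * i) (X - C 1) ∧
      HasDec (Ort (sympB (b * t) F)) g (2 * b) t := by
  have hc := cc_pos hr.pos
  induction t with
  | zero =>
    intro u _ h
    obtain rfl : u = 0 := by simpa [hr.pos.ne'] using h
    exact ⟨1, Pres.one, by simp [elemDiv_one], hasDec_sp_zero b _⟩
  | succ t ih =>
    intro u a1 a2
    obtain ⟨A, d1, d2⟩ := hr.exists_split a1
    rw [d1, mul_le_mul_iff_left₀ hc, add_mul, one_mul] at a2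
    obtain ⟨u₁, u₂, rfl, b1, b2, b3, b4⟩ := d2 (min A (2 * b / cc i)) (A - min A (2 * b / cc i))
      (by omega)
    have b5 : Multiset.card u₁ * i ≤ finrank F (Fin b ⊕ Fin b → F) := by
      rw [b3, finrank_symp, mul_le_iff_le_div hc]; omega
    have b6 : Multiset.card u₂ * i ≤ t * (2 * b / cc i) * cc i := by
      rw [b4]; exact Nat.mul_le_mul_right _ (by omega)
    obtain ⟨g₁, c1, c2⟩ := ((IsSS.cap (isSS_sympB b) hr).iff u₁ b1 b5).2 b5
    obtain ⟨g₂, c3, c4, c5⟩ := ih u₂ b2 b6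
    obtain ⟨g, e1, e2⟩ := (isSum_sp (F := F) b (b * t) (d := b * (t + 1)) (by ring)).exists_isoSim
      (c1.prod c3)
    refine ⟨g, e1, ?_, ((hasDec_sp_one g₁).prod c5).of_isoSim e2⟩
    have b7 := Nat.mul_le_mul_left t (Nat.div_mul_le_self (2 * b) (cc i))
    rw [finrank_symp] at b5 c2
    rw [← e2.sim.elemDiv_eq, Wall.elemDiv_prodMap, c2, c4, add_add_add_comm, ← Multiset.replicate_add,
      Multiset.card_add, add_mul]
    congr 2
    rw [← mul_assoc, mul_comm t (2 * b), mul_assoc 2] at b7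
    rw [mul_add_one b]
    omega

theorem hasDec_sp_of_pow (hr : OddP F r i) {b t : ℕ} (h : 2 * (b * t) / cc i ≤ t * (2 * b / cc i))
    {g : End F _} (hg : Pres (sympB (b * t) F) (fun _ => 0) g) (h1 : g ^ r = 1) :
    HasDec (Ort (sympB (b * t) F)) g (2 * b) t := by
  have h₀ := isSS_sympB (F := F) (b * t)
  obtain ⟨u, b1, b2, b3⟩ := ((IsSS.cap h₀ hr).realIn_iff hr h₀.toNd fun b hb =>
    mem_elemDiv_of_pow_prime hr.prime hr.ne_zero h1 hb).1 ⟨g, hg, rfl⟩
  rw [finrank_symp] at b2 b3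
  obtain ⟨A, d1, -⟩ := hr.exists_split b1
  obtain ⟨g', c1, c2, c3⟩ := exists_hasDec_sp hr b t u b1 (by
    rw [d1, mul_le_iff_le_div (cc_pos hr.pos)] at b2
    rw [d1]; exact Nat.mul_le_mul_right _ (b2.trans h))
  exact c3.of_isoSim (simCl_of_pow (h₀.isFormed fType_sp) hg hr.odd hr.ne_zero h1 g' c1
    (b3.trans c2.symm)).symm

variable [FiniteDimensional F V]

theorem finrank_ker_of_elemDiv (hr : OddP F r i) {u : Multiset F[X]} (hu : SD r u) {k : ℕ}
    (h : elemDiv g = u + Multiset.replicate k (X - C 1)) : finrank F (LinearMap.ker (g - 1)) = k := by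
  rw [finrank_ker_sub_one, h, Multiset.map_add, Multiset.sum_add, Multiset.map_congr rfl
    fun b hb => gdeg_X_sub_one_of_mem_cycFac hr.prime hr.ne_zero (hu.mem b hb)]
  simp [-map_one, KSG.gdeg_of_dvd]

theorem IsSS.exists_fix (h : IsSS B Q) (hr : OddP F r i) {A : ℕ} (h0 : A ≠ 0)
    (hA : A * cc i ≤ finrank F V) : ∃ g, Pres B Q g ∧ g ^ r = 1 ∧ g ≠ 1 ∧
      finrank F (LinearMap.ker (g - 1)) = finrank F V - A * cc i := by
  obtain ⟨u, a1, a2⟩ := hr.exists_sd A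
  by_contra H
  refine (((IsSS.cap h hr).forall_iff hr h.toNd (Ψ := fun v => Multiset.card v * i ≠ A * cc i)
    (Φ := fun g => finrank F (LinearMap.ker (g - 1)) ≠ finrank F V - A * cc i)
    fun g v _ _ b1 b2 b3 => by rw [finrank_ker_of_elemDiv hr b1 b3]; omega).1
    (fun g b1 b2 b3 b4 => H ⟨g, b1, b2, b3, b4⟩) u a1 ?_ (a2 ▸ hA)) a2
  rintro rfl
  exact mul_ne_zero h0 (cc_pos hr.pos).ne' (by simpa using a2.symm)

theorem IsSS.mod_le_finrank_inf (h : IsSS B Q) (hr : OddP F r i) (hg : Pres B Q g) (h1 : g ^ r = 1)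
    {U : Submodule F V} (hU : U ⊓ perp B U = ⊥) (hi : Inv g U) :
    finrank F U % cc i ≤ finrank F (LinearMap.ker (g - 1) ⊓ U : Submodule F V) := by
  have h₀ := isTF_restrict fType_sp h hU
  obtain ⟨u, b1, b2, b3⟩ := ((IsSS.cap h₀ hr).realIn_iff hr h₀.toNd fun b hb =>
    mem_elemDiv_of_pow_prime hr.prime hr.ne_zero (restrict_pow_eq_one hi h1) hb).1
    ⟨_, hg.restrict hi, rfl⟩
  obtain ⟨A, d1, -⟩ := hr.exists_split b1
  rw [← finrank_ker_restrict hi, finrank_ker_of_elemDiv hr b1 b3, d1]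
  rw [d1, mul_le_iff_le_div (cc_pos hr.pos)] at b2
  have := Nat.mul_le_mul_right (cc i) b2
  have := Nat.mod_add_div' (finrank F U) (cc i)
  omega

theorem IsSS.cc_le (h : IsSS B Q) (hr : OddP F r i) (hd : r ∣ Nat.card (Isom B Q)) :
    cc i ≤ finrank F V := by
  obtain ⟨d, e⟩ := IsSS.even h
  have := hr.div_lt_of_dvd (D := d) (D' := 0) (a := 1) (IsSS.card_isom_ne_zero h) (by simp [qf2])
    (IsSS.factorization_card h hr (by omega)) (by simp) hd
  rw [mul_zero, Nat.zero_div, Nat.div_pos_iff] at this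
  omega

end Fin

section SDec

variable {ι : Type} [Fintype ι] [DecidableEq ι] {B : LinearMap.BilinForm F (ι → F)} {Q : (ι → F) → F}

/-- Orthogonal decompositions into non-degenerate subspaces. -/
def SDec (B : LinearMap.BilinForm F (ι → F)) (a : ℕ) (D : Fin t → Submodule F (ι → F)) : Prop :=
  Geo.IsMDecomposition a D ∧ (∀ j, ∀ u ∈ D j, u ≠ 0 → ∃ v ∈ D j, B u v ≠ 0) ∧
    ∀ j j', j ≠ j' → ∀ u ∈ D j, ∀ v ∈ D j', B u v = 0

omit [DecidableEq ι] in
theorem HasDec.sdec {g : End F (ι → F)} (h : IsSS B Q) (hg : Pres B Q g) (H : HasDec (Ort B) g a t)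
    (hn : Fintype.card ι = a * t) (ha : 0 < a) (ht : 2 ≤ t) :
    ∃ D : Fin t → Submodule F (ι → F), SDec B a D ∧ ∃ s : Equiv.Perm (Fin t), ∀ j,
      (D j).map g = D (s j) := by
  obtain ⟨D, a1, a2, a3⟩ := H.mdec ((End.isUnit_iff _).1 (hg.isUnit h.toNd)).1 hn ha ht
  refine ⟨D, ⟨a1, fun j u hu h0 => ?_, a2⟩, a3⟩
  by_contra! H
  exact h0 (eq_zero_of_dec h.toNd a1.iSup_eq_top a2 hu H)

theorem card_sdec_dvd (h : IsSS B Q) (hne : ∃ D : Fin t → Submodule F (ι → F), SDec B a D) :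
    Nat.card {D : Fin t → Submodule F (ι → F) // SDec B a D} ∣ Nat.card (Isom B Q) := by
  refine card_dvd_of_transitive (fun (g : Isom B Q) D i => (D i).map g.1.toLinearMap)
    (fun D => funext fun i => Submodule.map_id _)
    (fun g h D => funext fun i => Submodule.map_comp _ _ _) _ (fun g D hD => ⟨IsMDec.map hD.1 g.1, ?_, ?_⟩)
    (fun D D' a b => ?_) hne
  · rintro j _ ⟨u, hu, rfl⟩ h0
    obtain ⟨v, a1, a2⟩ := hD.2.1 j u hu (by rintro rfl; simp at h0)
    exact ⟨_, ⟨v, a1, rfl⟩, by rwa [← g.2.1] at a2⟩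
  · rintro j j' e _ ⟨u, hu, rfl⟩ _ ⟨v, hv, rfl⟩
    exact (g.2.1 u v).trans (hD.2.2 j j' e u hu v hv)
  · choose e e1 e2 using fun j => IsSS.isometric
      (isTF_restrict fType_sp h ((IsSS.inf_perp_iff h _).2 (a.2.1 j)))
      (isTF_restrict fType_sp h ((IsSS.inf_perp_iff h _).2 (b.2.1 j)))
      ((a.1.finrank_eq j).trans (b.1.finrank_eq j).symm)
    obtain ⟨g, hg⟩ := exists_equiv_of_dec a.1.indep a.1.iSup_eq_top b.1.indep b.1.iSup_eq_top e
    have := IsSS.pres h (g := g.toLinearMap) (pres_of_dec a.1.iSup_eq_top fun i j u hu v hv => by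
      rw [LinearEquiv.coe_coe, hg i ⟨u, hu⟩, hg j ⟨v, hv⟩]
      rcases eq_or_ne i j with rfl | hij
      · exact e1 i _ _
      · rw [a.2.2 i j hij u hu v hv, b.2.2 i j hij _ (Subtype.prop _) _ (Subtype.prop _)])
    refine ⟨⟨g, this.map_B, this.map_Q⟩, funext fun i => Submodule.eq_of_le_of_finrank_eq ?_ ?_⟩
    · rintro _ ⟨v, hv, rfl⟩
      exact (hg i ⟨v, hv⟩).symm ▸ Subtype.property _
    · rw [LinearEquiv.finrank_map_eq, a.1.finrank_eq, b.1.finrank_eq]

end SDec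

/-! ### Complementary Lagrangians -/

/-- Pairs of complementary totally isotropic subspaces. -/
def LagP (B : LinearMap.BilinForm F V) (P : Submodule F V × Submodule F V) : Prop :=
  IsCompl P.1 P.2 ∧ (∀ u ∈ P.1, ∀ v ∈ P.1, B u v = 0) ∧ ∀ u ∈ P.2, ∀ v ∈ P.2, B u v = 0

/-- `g` stabilises a pair of complementary totally isotropic subspaces. -/
def Lag (B : LinearMap.BilinForm F V) (g : End F V) : Prop :=
  ∃ P, LagP B P ∧ ((P.1.map g ≤ P.1 ∧ P.2.map g ≤ P.2) ∨ (P.1.map g ≤ P.2 ∧ P.2.map g ≤ P.1))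

theorem LagP.map {P : Submodule F V × Submodule F V} (h : LagP B P) (e : V ≃ₗ[F] V₁)
    (he : ∀ u v, B₁ (e u) (e v) = B u v) :
    LagP B₁ (P.1.map e.toLinearMap, P.2.map e.toLinearMap) := by
  refine ⟨(Submodule.orderIsoMapComap e).isCompl h.1, ?_, ?_⟩ <;>
    rintro _ ⟨u, hu, rfl⟩ _ ⟨v, hv, rfl⟩
  exacts [(he u v).trans (h.2.1 u hu v hv), (he u v).trans (h.2.2 u hu v hv)]

theorem Lag.of_isoSim {g₁ : End F V₁} (h : Lag B g) (e : IsoSim B Q g B₁ Q₁ g₁) : Lag B₁ g₁ := by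
  obtain ⟨P, h1, h2⟩ := h
  obtain ⟨e, e1, -, e3⟩ := e
  have : ∀ {A C : Submodule F V}, A.map g ≤ C → (A.map e.toLinearMap).map g₁ ≤ C.map e.toLinearMap := by
    rintro A C h _ ⟨_, ⟨v, hv, rfl⟩, rfl⟩
    exact ⟨_, h ⟨v, hv, rfl⟩, e3 v⟩
  exact ⟨_, h1.map e e1, h2.imp (And.imp this this) (And.imp this this)⟩

theorem lagP_hypB {ε : F} (h : Nd (RingHom.id F) B) : LagP (hypB ε h)
    (LinearMap.range (LinearMap.inl F V V), LinearMap.range (LinearMap.inr F V V)) :=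
  ⟨LinearMap.isCompl_range_inl_inr, by rintro _ ⟨u, rfl⟩ _ ⟨v, rfl⟩; simp [hypB_apply],
    by rintro _ ⟨u, rfl⟩ _ ⟨v, rfl⟩; simp [hypB_apply]⟩

theorem LagP.prod {P : Submodule F V₁ × Submodule F V₁} {P' : Submodule F V₂ × Submodule F V₂}
    (h : LagP B₁ P) (h' : LagP B₂ P') : LagP (prodB B₁ B₂) (P.1.prod P'.1, P.2.prod P'.2) :=
  ⟨⟨by rw [disjoint_iff, Submodule.prod_inf_prod, h.1.inf_eq_bot, h'.1.inf_eq_bot, Submodule.prod_bot],
    by rw [codisjoint_iff, Submodule.prod_sup_prod, h.1.sup_eq_top, h'.1.sup_eq_top,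
      Submodule.prod_top]⟩,
    fun u hu v hv => by simp [h.2.1 _ hu.1 _ hv.1, h'.2.1 _ hu.2 _ hv.2],
    fun u hu v hv => by simp [h.2.2 _ hu.1 _ hv.1, h'.2.2 _ hu.2 _ hv.2]⟩

variable [FiniteDimensional F V] [FiniteDimensional F V₁]

theorem LagP.finrank_eq {P : Submodule F V × Submodule F V} (hP : LagP B P) (h : IsSS B Q) :
    2 * finrank F P.1 = finrank F V ∧ 2 * finrank F P.2 = finrank F V := by
  have h1 := WallF.two_mul_finrank_le (h.isFormed fType_sp) hP.2.1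
  have h2 := WallF.two_mul_finrank_le (h.isFormed fType_sp) hP.2.2
  have h3 := Submodule.finrank_add_eq_of_isCompl hP.1
  omega

theorem IsSS.exists_lagP (h : IsSS B Q) : ∃ P, LagP B P := by
  obtain ⟨d, hd⟩ := IsSS.even h
  obtain ⟨B₀, h₀⟩ := exists_nd (σ := RingHom.id F) (fun _ => rfl) (Fin d → F)
  obtain ⟨e, e1, -⟩ := IsSS.isometric (fType_sp.isTF_hypB h₀) h (by simp [hd])
  exact ⟨_, (lagP_hypB h₀).map e e1⟩

theorem IsSS.lag_of_sq [Finite F] (h2 : (2 : F) ≠ 0) (h : IsSS B Q) (hg : Pres B Q g)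
    (e : g * g = 1 ∨ g * g = -1) : Lag B g := by
  have h' := h.isFormed fType_sp
  rcases e with e | e
  · obtain ⟨U, hU⟩ := exists_negOn h2 h' hg e
    obtain ⟨P, a⟩ := IsSS.exists_lagP (isTF_restrict fType_sp h hU.nd)
    obtain ⟨P', a'⟩ := IsSS.exists_lagP (isTF_restrict fType_sp h (h'.perp_inf_perp_perp hU.nd))
    have : ∀ (A : Submodule F U) (C : Submodule F (perp B U)), (A.prod C).map
        ((g.restrict (hU.inv_of_le le_rfl)).prodMap (g.restrict (hU.inv_of_le_perp le_rfl))) ≤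
        A.prod C := by
      rintro A C _ ⟨v, hv, rfl⟩
      have e1 : g.restrict (hU.inv_of_le le_rfl) v.1 = -v.1 := Subtype.ext (hU.neg _ v.1.2)
      have e2 : g.restrict (hU.inv_of_le_perp le_rfl) v.2 = v.2 := Subtype.ext (hU.fix _ v.2.2)
      rw [Submodule.mem_prod, LinearMap.prodMap_apply, e1, e2]
      exact ⟨A.neg_mem hv.1, hv.2⟩
    exact Lag.of_isoSim ⟨_, a.prod a', Or.inl ⟨this _ _, this _ _⟩⟩ (isoSim_prod_perp h' hU.nd _ _)
  · obtain ⟨d, hd⟩ := IsSS.even h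
    obtain ⟨B₀, Q₀, h₀⟩ := exists_isOS h2 d
    have h₁ := fType_sp.isTF_hypB h₀.toNd
    refine Lag.of_isoSim ⟨_, lagP_hypB h₀.toNd, Or.inr ⟨?_, ?_⟩⟩ (isoSim_of_mul_eq_neg h2
      (h₁.isFormed fType_sp) h' (IsSS.pres h₁ fun x y => by
        simp [hypB_apply, jj_apply, IsOS.symm' h₀ x.1, IsOS.symm' h₀ y.1, add_comm]) hg jj_mul e
      (by simp [hd]))
    · rintro _ ⟨_, ⟨v, rfl⟩, rfl⟩
      exact ⟨v, by simp [jj_apply]⟩
    · rintro _ ⟨_, ⟨v, rfl⟩, rfl⟩
      exact ⟨-v, by simp [jj_apply]⟩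

theorem Lag.final (H : Lag B g) (h : IsSS B Q) (hg : Pres B Q g) : ∃ U W : Submodule F V, IsCompl U W ∧
    (∀ u ∈ U, ∀ v ∈ U, B u v = 0) ∧ (∀ u ∈ W, ∀ v ∈ W, B u v = 0) ∧
    ((U.map g = U ∧ W.map g = W) ∨ (U.map g = W ∧ W.map g = U)) := by
  obtain ⟨P, a1, a2⟩ := H
  have a3 := a1.finrank_eq h
  have : ∀ {A C : Submodule F V}, finrank F A = finrank F C → A.map g ≤ C → A.map g = C :=
    fun e a => Submodule.eq_of_le_of_finrank_eq a ((Submodule.equivMapOfInjective _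
      ((End.isUnit_iff _).1 (hg.isUnit h.toNd)).1 _).finrank_eq.symm.trans e)
  exact ⟨_, _, a1.1, a1.2.1, a1.2.2, a2.imp (And.imp (this rfl) (this rfl))
    (And.imp (this (by omega)) (this (by omega)))⟩

theorem LagP.exists_equiv {P : Submodule F V × Submodule F V} (hP : LagP B P) (h : IsSS B Q)
    (h₁ : Nd (RingHom.id F) B₁) (hd : finrank F V = 2 * finrank F V₁) :
    ∃ e : (V₁ × V₁) ≃ₗ[F] V, (∀ x y, B (e x) (e y) = hypB (-1) h₁ x y) ∧
      (LinearMap.range (LinearMap.inl F V₁ V₁)).map e.toLinearMap = P.1 ∧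
      (LinearMap.range (LinearMap.inr F V₁ V₁)).map e.toLinearMap = P.2 := by
  have h3 := hP.finrank_eq h
  let ψ : V₁ ≃ₗ[F] P.2 := LinearEquiv.ofFinrankEq _ _ (by omega)
  let θ : P.1 →ₗ[F] Dual F V₁ := (B ∘ₗ P.1.subtype).compl₂ (P.2.subtype ∘ₗ ψ.toLinearMap)
  have hθ : Function.Injective θ := (injective_iff_map_eq_zero θ).2 fun u hu =>
    Subtype.ext (h.left _ fun y => by
      obtain ⟨a, ha, c, hc, rfl⟩ := Submodule.mem_sup.1 (hP.1.sup_eq_top.ge (Submodule.mem_top (x := y)))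
      obtain ⟨m, hm⟩ := ψ.surjective ⟨c, hc⟩
      obtain rfl : (ψ m : V) = c := congrArg Subtype.val hm
      rw [map_add, hP.2.1 _ u.2 a ha, zero_add]
      exact LinearMap.congr_fun hu m)
  let φ : V₁ ≃ₗ[F] P.1 := (LinearMap.linearEquivOfInjective (V₂ := Dual F V₁) B₁
    ((injective_iff_map_eq_zero B₁).2 fun x hx => h₁.left x fun y => by simp [hx])
    Subspace.dual_finrank_eq.symm).trans
    (LinearMap.linearEquivOfInjective θ hθ (by rw [Subspace.dual_finrank_eq]; omega)).symm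
  have hφ : ∀ x y, B (φ x) (ψ y) = B₁ x y := fun x y => LinearMap.congr_fun
    ((LinearMap.linearEquivOfInjective θ hθ (by rw [Subspace.dual_finrank_eq]; omega)).apply_symm_apply
      (B₁ x)) y
  refine ⟨(φ.prodCongr ψ).trans (P.1.prodEquivOfIsCompl P.2 hP.1), fun x y => ?_, ?_, ?_⟩
  · change B (φ x.1 + ψ x.2) (φ y.1 + ψ y.2) = _
    simp [hypB_apply, hP.2.1 _ (φ x.1).2 _ (φ y.1).2, hP.2.2 _ (ψ x.2).2 _ (ψ y.2).2, hφ,
      h.symm (φ y.1) (ψ x.2)]
  · refine Submodule.eq_of_le_of_finrank_eq ?_ ?_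
    · rintro _ ⟨_, ⟨v, rfl⟩, rfl⟩
      simp
    · rw [LinearEquiv.finrank_map_eq, LinearMap.finrank_range_of_inj LinearMap.inl_injective]; omega
  · refine Submodule.eq_of_le_of_finrank_eq ?_ ?_
    · rintro _ ⟨_, ⟨v, rfl⟩, rfl⟩
      simp
    · rw [LinearEquiv.finrank_map_eq, LinearMap.finrank_range_of_inj LinearMap.inr_injective]; omega

theorem card_mul_dvd_of_transitive {G H X : Type*} [Group G] [Group H] (act : G → X → X)
    (h1 : ∀ x, act 1 x = x) (h2 : ∀ g h x, act (g * h) x = act g (act h x)) (P : X → Prop)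
    (hP : ∀ g x, P x → P (act g x)) {x : X} (hx : P x) (ht : ∀ y, P y → ∃ g, act g x = y)
    (φ : H →* G) (hφ : Function.Injective φ) (hf : ∀ h, act (φ h) x = x) :
    Nat.card {x // P x} * Nat.card H ∣ Nat.card G := by
  let _ : MulAction G {x // P x} :=
    { smul := fun g x => ⟨act g x, hP _ _ x.2⟩
      one_smul := fun x => Subtype.ext (h1 x)
      mul_smul := fun g h x => Subtype.ext (h2 g h x) }
  have : MulAction.IsPretransitive G {x // P x} :=
    (MulAction.isPretransitive_iff_base ⟨x, hx⟩).2 fun y => (ht y y.2).imp fun _ => Subtype.ext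
  rw [← MulAction.index_stabilizer_of_transitive G (⟨x, hx⟩ : {x // P x}),
    ← (MulAction.stabilizer G (⟨x, hx⟩ : {x // P x})).index_mul_card]
  exact Nat.mul_dvd_mul_left _ (Subgroup.card_dvd_of_injective
    (φ.codRestrict _ fun h => Subtype.ext (hf h)) fun a b e => hφ (congrArg Subtype.val e))

theorem IsSS.card_lagP_mul_dvd (h : IsSS B Q) (hd : finrank F V = 2 * finrank F V₁) :
    Nat.card {P // LagP B P} * Nat.card (V₁ ≃ₗ[F] V₁) ∣ Nat.card (Isom B Q) := by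
  obtain ⟨B₀, h₀⟩ := exists_nd (σ := RingHom.id F) (fun _ => rfl) V₁
  have h₁ := fType_sp.isTF_hypB h₀
  obtain ⟨P, hP⟩ := IsSS.exists_lagP h
  obtain ⟨e, e1, e2, e3⟩ := hP.exists_equiv h h₀ hd
  have hk : ∀ f : V₁ ≃ₗ[F] V₁, f.toLinearMap * f.symm.toLinearMap = 1 := fun f => by ext; simp
  let φ : (V₁ ≃ₗ[F] V₁) →* Isom (hypB (-1) h₀) _ := MonoidHom.mk'
    (fun f => (pres_hypB (π := 0) h₀ (hk f)).toIsom h₁.toNd) fun f f' =>
      Subtype.ext (LinearEquiv.ext fun x => Prod.ext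
        (LinearMap.congr_fun (h₀.isAnti_adj.mul f'.symm.toLinearMap f.symm.toLinearMap) x.1) rfl)
  let ψ := Isom.congr (Q' := Q) (Q := fun x => (0 : F →+ F) (B₀ x.1 x.2)) e e1
    (by simp [IsSS.eq_zero h])
  have key : ∀ (f : V₁ ≃ₗ[F] V₁) (A : Submodule F (V₁ × V₁)), A.map (φ f).1.toLinearMap ≤ A →
      (A.map e.toLinearMap).map (ψ (φ f)).1.toLinearMap = A.map e.toLinearMap := fun f A hA => by
    refine Submodule.eq_of_le_of_finrank_eq ?_ (LinearEquiv.finrank_map_eq _ _)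
    rintro _ ⟨_, ⟨v, hv, rfl⟩, rfl⟩
    exact ⟨_, hA ⟨v, hv, rfl⟩, by simp [ψ, Isom.congr_apply]⟩
  refine card_mul_dvd_of_transitive
    (fun (g : Isom B Q) P => (P.1.map g.1.toLinearMap, P.2.map g.1.toLinearMap))
    (fun P => Prod.ext (Submodule.map_id _) (Submodule.map_id _))
    (fun g h P => Prod.ext (Submodule.map_comp _ _ _) (Submodule.map_comp _ _ _)) _
    (fun g P hP => hP.map g.1 g.2.1) hP (fun P' hP' => ?_) (ψ.toMonoidHom.comp φ)
    (ψ.injective.comp fun f f' hf => LinearEquiv.ext fun x =>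
      congrArg (fun k : Isom (hypB (-1) h₀) _ => (k.1 (0, x)).2) hf) fun f => Prod.ext ?_ ?_
  · obtain ⟨e', d1, d2, d3⟩ := hP'.exists_equiv h h₀ hd
    have := IsSS.pres h (g := (e.symm.trans e').toLinearMap) fun x y => by simp [d1, ← e1]
    refine ⟨⟨_, this.map_B, this.map_Q⟩, Prod.ext ?_ ?_⟩
    · rw [← e2, ← d2, ← Submodule.map_comp]; ext; simp
    · rw [← e3, ← d3, ← Submodule.map_comp]; ext; simp
  · rw [← e2]
    refine key f _ ?_
    rintro _ ⟨_, ⟨v, rfl⟩, rfl⟩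
    exact ⟨_, Prod.ext rfl (map_zero f).symm⟩
  · rw [← e3]
    refine key f _ ?_
    rintro _ ⟨_, ⟨v, rfl⟩, rfl⟩
    exact ⟨_, Prod.ext (map_zero (h₀.adj _)).symm rfl⟩

theorem dvd_of_dvd_card_div_two {α : Type*} (P : α × α → Prop) (h1 : ∀ x, P x → x.1 ≠ x.2)
    (h2 : ∀ x, P x → P x.swap) (h : r ∣ Nat.card {x // P x} / 2) : r ∣ Nat.card {x // P x} := by
  have := dvd_of_dvd_card_div_factorial (t := 2) (r := r) (fun D => P (D 0, D 1))
    (fun D hD => by simpa [Fin.forall_fin_two, Function.Injective, eq_comm] using h1 _ hD)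
    fun D σ hD => by
      revert hD
      fin_cases σ
      exacts [id, h2 _]
  rw [Nat.card_congr ((finTwoArrowEquiv α).subtypeEquiv (p := fun D => P (D 0, D 1)) (q := P)
    fun _ => Iff.rfl)] at this
  exact this h

theorem qf2_eq (q d : ℕ) : qf2 q d = qf q d * ∏ j ∈ Finset.range d, (q ^ (j + 1) + 1) := by
  rw [qf2, qf, ← Finset.prod_mul_distrib]
  exact Finset.prod_congr rfl fun j _ => by rw [pow_mul', mul_comm, ← Nat.sq_sub_sq, one_pow]

theorem IsSS.even_of_dvd_card_lagP [Fintype F] (h : IsSS B Q) (hr : OddP F r i)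
    (hN : r ∣ Nat.card {P // LagP B P}) : Even i ∧ i ≤ finrank F V := by
  obtain ⟨d, hd⟩ := IsSS.even h
  have h1 := IsSS.card_lagP_mul_dvd (V₁ := Fin d → F) h (by simp [hd, two_mul])
  rw [card_linearEquiv (finrank_fin_fun F), prod_pow_sub_pow _ le_rfl,
    IsSS.card_isom h (d := d) (by omega), qf2_eq] at h1
  simp only [Nat.sub_self, zero_add] at h1
  rw [← mul_assoc, ← qf, mul_comm (qf _ _), ← mul_assoc,
    Nat.mul_dvd_mul_iff_right (qf_pos Fintype.one_lt_card d)] at h1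
  obtain ⟨j, a1, a2⟩ := (hr.prime.prime.dvd_finsetProd_iff _).1 ((hr.prime.dvd_mul.1
    (hN.trans ((dvd_mul_right _ _).trans h1))).resolve_left
    fun e => hr.not_dvd_card (hr.prime.dvd_of_dvd_pow e))
  have a3 : i ∣ 2 * (j + 1) := (hr.dvd_iff _).1 (by
    rw [pow_mul', ← one_pow 2, Nat.sq_sub_sq]; exact a2.mul_right _)
  have a4 : ¬ i ∣ j + 1 := fun e => by
    have := Nat.dvd_sub a2 ((hr.dvd_iff _).2 e)
    have h0 := Nat.one_le_pow (j + 1) _ (Fintype.card_pos (α := F))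
    rw [show Fintype.card F ^ (j + 1) + 1 - (Fintype.card F ^ (j + 1) - 1) = 2 by omega] at this
    exact hr.ne_two ((Nat.prime_dvd_prime_iff_eq hr.prime Nat.prime_two).1 this)
  have := Finset.mem_range.1 a1
  exact ⟨i.even_or_odd.resolve_right fun e =>
    a4 ((Nat.coprime_two_right.2 e).dvd_of_dvd_mul_left a3), (Nat.le_of_dvd (by omega) a3).trans (by omega)⟩

end Cfsg.Agent.Class.Elus
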