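import Mathlib
import Cfsg.Agent.Class.Elus.Ext
import Cfsg.Agent.Class.Asch.Tensor2

/-!
Elements of prime order of `PSL_n(q)` and stabilisers of tensor decompositions.
-/

set_option autoImplicit false

namespace Cfsg.Agent.Class.Spec

open Polynomial Cfsg Cfsg.Agent.KSG Matrix Asch
open scoped Kronecker

theorem IsQ.const_of_small {M : Type*} [CommGroup M] {p n r : ℕ} {Q : ℤ} {m : Multiset M} {c : M}
    (hQ : IsQ M p Q) (hr : r.Prime) (h1 : Valid Q n (ss m)) (h2 : ∀ α ∈ m, α ^ r = c)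
    (h3 : ∀ k, 0 < k → k ≤ n → ¬ (r : ℤ) ∣ Q ^ k - 1) : ∃ a, ∀ α ∈ m, α = a := by
  have key : ∀ α ∈ m, α ^ Q = α ∧ ¬ (r : ℤ) ∣ Q - 1 := fun α hα => by
    obtain ⟨d, -, d0, d1, -, -, d2, -⟩ := hQ.exists_blk h1 (Multiset.mem_map_of_mem _ hα)
    have h4 := h2 _ ((valid_ss.1 h1).2 ▸ Multiset.mem_map_of_mem (· ^ Q) hα)
    refine ⟨zpow_eq_self_iff.2 (eq_one_of_prime hr (k := gs Q d) ?_ ?_ fun e =>
      h3 d d0 (by omega) (gs_mul Q d ▸ e.mul_right _)), by simpa using h3 1 one_pos (by omega)⟩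
    · rw [_root_.zpow_sub_one, mul_pow, h4, inv_pow, h2 α hα, mul_inv_cancel]
    · rw [← _root_.zpow_mul, mul_comm, gs_mul, ← zpow_eq_self_iff, d1]
  rcases m.empty_or_exists_mem with rfl | ⟨a, ha⟩
  · simp
  exact ⟨a, fun α hα => div_eq_one.1 (eq_one_of_prime hr (by rw [div_pow, h2 α hα, h2 a ha, div_self'])
    (zpow_eq_self_iff.1 (by rw [div_zpow, (key α hα).1, (key a ha).1])) (key a ha).2)⟩

variable {F K : Type*} [Field F] [Field K] [Algebra F K] {ι α β : Type} [Fintype ι] [DecidableEq ι]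
  [Fintype α] [DecidableEq α] [Fintype β] [DecidableEq β] {p r : ℕ}

theorem sim_tr (e : ι ≃ α) (P : GL ι F) (X : Matrix α α F) :
    Sim (toLin' X) (toLin' (tr e P X)) := ⟨trL e P, fun v => (tr_mulVec e P X v).symm⟩

theorem mdiv_tr (e : ι ≃ α) (P : GL ι F) (X : Matrix α α F) : mdiv (tr e P X) = mdiv X :=
  (sim_tr e P X).elemDiv_eq.symm

theorem rank_tr (e : ι ≃ α) (P : GL ι F) (A : Matrix α α F) : (tr e P A).rank = A.rank := by
  simpa using ((sim_tr e P A).rank_aeval X).symm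

theorem kron_pow (A : Matrix α α F) (B : Matrix β β F) (k : ℕ) :
    (A ⊗ₖ B) ^ k = (A ^ k) ⊗ₖ (B ^ k) := by
  induction k with
  | zero => simp
  | succ k ih => rw [pow_succ, ih, ← mul_kronecker_mul, ← pow_succ, ← pow_succ]

theorem charpoly_one_kron (B : Matrix β β F) :
    ((1 : Matrix α α F) ⊗ₖ B).charpoly = B.charpoly ^ Fintype.card α := by
  have : charmatrix ((1 : Matrix α α F) ⊗ₖ B) = (1 : Matrix α α F[X]) ⊗ₖ charmatrix B := by
    ext ⟨i, j⟩ ⟨k, l⟩ : 2
    by_cases h : i = k <;> simp [charmatrix_apply, diagonal_apply, h]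
  rw [Matrix.charpoly, this, det_kronecker, det_one, one_pow, one_mul, Matrix.charpoly]

theorem scalar_of_rank_kron [Nonempty α] {A : Matrix α α F} {B : Matrix β β F}
    (h : (A ⊗ₖ B - 1).rank < Fintype.card β) : ∃ c : F, A = c • 1 := by
  have key : ∀ w : α → F, ∃ c : F, A *ᵥ w = c • w := fun w => by
    let R : Matrix (α × β) β F := of fun y j => w y.1 * (1 : Matrix β β F) y.2 j
    have h1 := ((A ⊗ₖ B - 1) * R).mulVecLin.finrank_range_add_finrank_ker
    have h2 := rank_mul_le_left (A ⊗ₖ B - 1) R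
    obtain ⟨x, h3, h4⟩ := Submodule.exists_mem_ne_zero_of_ne_bot
      (p := LinearMap.ker ((A ⊗ₖ B - 1) * R).mulVecLin) fun e => by
        rw [e, finrank_bot, Module.finrank_fintype_fun_eq_card] at h1
        exact h.ne' (le_antisymm (h1.ge.trans h2) h.le)
    obtain ⟨j, hj⟩ := Function.ne_iff.1 h4
    have h5 : R *ᵥ x = fun y => w y.1 * x y.2 := by
      ext y; simp [R, mulVec, dotProduct, one_apply]
    have h6 : ∀ i, (A *ᵥ w) i * (B *ᵥ x) j = w i * x j := fun i => by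
      have := congrFun h3 (i, j)
      rw [mulVecLin_apply, ← mulVec_mulVec, h5, sub_mulVec, one_mulVec] at this
      simpa [mulVec, dotProduct, Fintype.sum_prod_type, Finset.sum_mul_sum, sub_eq_zero,
        mul_mul_mul_comm] using this
    by_cases h7 : (B *ᵥ x) j = 0
    · obtain rfl : w = 0 := funext fun i => by simpa [h7, show x j ≠ 0 from hj] using h6 i
      simp
    · exact ⟨x j / (B *ᵥ x) j, funext fun i => by
        rw [Pi.smul_apply, smul_eq_mul, div_mul_eq_mul_div, mul_comm, ← h6, mul_div_cancel_right₀ _ h7]⟩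
  have h1 : ∀ i j, i ≠ j → A i j = 0 := fun i j e => by
    obtain ⟨c, hc⟩ := key (Pi.single j 1)
    simpa [e] using congrFun hc i
  obtain ⟨c, hc⟩ := key 1
  refine ⟨c, ext fun i j => ?_⟩
  rcases eq_or_ne i j with rfl | e
  · simpa [mulVec, dotProduct, Finset.sum_eq_single i (fun j _ e => h1 i j e.symm)] using congrFun hc i
  · simp [e, h1 i j e]

theorem exists_dvd_of_dvd_card_GL [Fintype F] {M : Type*} [CommGroup M]
    (hQ : IsQ M p (Fintype.card F)) (hr : r.Prime) (hrp : r ≠ p) (hn : Fintype.card ι ≠ 0)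
    (h : r ∣ Nat.card (GL ι F)) :
    ∃ j, 0 < j ∧ j ≤ Fintype.card ι ∧ (r : ℤ) ∣ Fintype.card F ^ j - 1 := by
  have hr' := Nat.prime_iff_prime_int.1 hr
  rw [← Nat.card_congr (trGL (Fintype.equivFin ι) 1).toEquiv, ← Int.natCast_dvd_natCast,
    card_GL_eq F hn] at h
  rcases hr'.dvd_or_dvd h with h | h
  · obtain ⟨a, -, e⟩ := hQ.abs
    exact absurd ((Nat.prime_dvd_prime_iff_eq hr hQ.prime).1 (hr.dvd_of_dvd_pow
      (e ▸ Int.natCast_dvd.1 (hr'.dvd_of_dvd_pow h)))) hrp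
  · obtain ⟨i, hi, h⟩ := (hr'.dvd_finsetProd_iff _).1 h
    exact ⟨i + 1, by omega, by simp at hi; omega, h⟩

section Tens

variable {a b : ℕ} {e : ι ≃ Fin a × Fin b} {P g : GL ι F}

theorem exists_one_kron_of_rank (ha : a ≠ 0) (hg : g ∈ Geo.tensorProductSubgroup a b e P)
    (h : (g.1 - 1).rank < b) : ∃ D, g.1 = tr e P (1 ⊗ₖ D) := by
  have := NeZero.mk ha
  obtain ⟨A, B, rfl⟩ := mem_tensorProductSubgroup_iff.1 hg
  rw [coe_trGL, ← map_one (tr e P), ← map_sub, rank_tr] at h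
  obtain ⟨c, hc⟩ := scalar_of_rank_kron (A := A.1) (B := B.1) (by rwa [Fintype.card_fin])
  exact ⟨c • B.1, by rw [coe_trGL, coe_kronGL, hc, smul_kronecker, kronecker_smul]⟩

theorem eq_one_of_rank_kron (ha : 1 < a) (hb : 1 < b) :
    ∀ g ∈ Geo.tensorProductSubgroup a b e P, (g.1 - 1).rank ≤ 1 → g = 1 := fun g hg h => by
  have : NeZero b := ⟨by omega⟩
  obtain ⟨D, hD⟩ := exists_one_kron_of_rank (by omega) hg (h.trans_lt hb)
  rw [hD, ← tr_swap, ← map_one (tr (e.trans (.prodComm _ _)) P), ← map_sub, rank_tr] at h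
  obtain ⟨c, rfl⟩ := scalar_of_rank_kron (h.trans_lt (by simpa))
  rw [smul_kronecker, one_kronecker_one] at h
  rcases eq_or_ne c 1 with rfl | hc
  · exact Units.ext (by simp [hD])
  · rw [smul_one_eq_diagonal, ← diagonal_one, diagonal_sub, rank_of_isUnit _
      (isUnit_diagonal.2 (Pi.isUnit_iff.2 (by simp [sub_ne_zero.2 hc])))] at h
    simp at h
    nlinarith

theorem kronGL_mem (A : GL (Fin a) F) (B : GL (Fin b) F) :
    trGL e P (kronGL A B) ∈ Geo.tensorProductSubgroup a b e P :=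
  mem_tensorProductSubgroup_iff.2 ⟨A, B, rfl⟩

theorem scalars_le_tensor : Geo.scalars ι F ≤ Geo.tensorProductSubgroup a b e P := fun g hg => by
  obtain ⟨c, hc⟩ := (Geo.mem_scalars_iff g).1 hg
  exact mem_tensorProductSubgroup_iff.2 ⟨c • 1, 1, Units.ext (by
    simp [hc, coe_trGL, coe_kronGL, Units.smul_def, smul_kronecker])⟩

variable [IsAlgClosed K]

theorem dvd_count_of_kron [DecidableEq Kˣ] {D : Matrix (Fin b) (Fin b) F}
    (hD : g.1 = tr e P (1 ⊗ₖ D)) {m : Multiset Kˣ} (hm : jm K g.1 = ss m) (c : Kˣ) :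
    a ∣ m.count c := by
  classical
  have h1 := congrArg roots (map_prod_eq_jd (K := K)
    (fun b hb => (isPP_of_mem_mdiv hb).monic) (coeff_ne_of_mem_mdiv g.isUnit))
  rw [← jm, hm, hD, mdiv_tr, prod_mdiv, charpoly_one_kron, Polynomial.map_pow, roots_pow, ss,
    Multiset.map_map] at h1
  have h2 := roots_multiset_prod_X_sub_C (m.map Units.val)
  rw [Multiset.map_map] at h2
  rw [← Multiset.count_map_eq_count' _ _ Units.val_injective, ← h2]
  simp only [Function.comp_def, pow_one] at h1 ⊢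
  simp [← h1]

variable [Fintype F]

theorem exists_one_kron_of_pow (hp : p.Prime) [CharP F p] (hr : r.Prime) (hrp : r ≠ p) (ha : a ≠ 0)
    (hb : b ≠ 0) (hg : g ∈ Geo.tensorProductSubgroup a b e P) (h : g ^ r = 1)
    (h3 : ∀ k, 0 < k → k ≤ a → ¬ (r : ℤ) ∣ Fintype.card F ^ k - 1) :
    ∃ D, g.1 = tr e P (1 ⊗ₖ D) := by
  let K := AlgebraicClosure F
  have := charP_of_injective_algebraMap (algebraMap F K).injective p
  have := NeZero.mk ha
  obtain ⟨A, B, rfl⟩ := mem_tensorProductSubgroup_iff.1 hg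
  rw [← map_pow, MulEquiv.map_eq_one_iff, Units.ext_iff, Units.val_pow_eq_pow_val, coe_kronGL,
    kron_pow] at h
  obtain ⟨c, hc⟩ := (exists_smul_iff_PK (K := K) p hp A.isUnit r).1
    (scalar_of_rank_kron (B := B.1 ^ r) (by simpa [h] using Nat.pos_of_ne_zero hb))
  have h1 := valid_jm (K := K) A.isUnit
  obtain ⟨s, hs⟩ : ∃ s, jm K A.1 = ss s := ⟨_, PK.eq_ss ⟨c, hc⟩ hp.one_lt
    (fun e => hrp ((Nat.prime_dvd_prime_iff_eq hp hr).1 e).symm) h1.pos⟩
  rw [hs] at h1 hc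
  obtain ⟨x, hx⟩ := (isQ_card F K hp).const_of_small hr h1 (KB_ss.1 hc) (by simpa)
  obtain ⟨c, hc⟩ := (exists_smul_iff_PK (K := K) p hp A.isUnit 1).2 ⟨x, hs ▸ KB_ss.2 (by simpa)⟩
  exact ⟨c • B.1, by rw [coe_trGL, coe_kronGL, ← pow_one A.1, hc, smul_kronecker, kronecker_smul]⟩

theorem not_elu_tensor (hp : p.Prime) [CharP F p] (hr : r.Prime) (hr2 : r ≠ 2) (ha : 2 ≤ a)
    (hab : a < b) (hΩ : r ∣ (Geo.tensorProductSubgroup a b e P).relIndex (Geo.specialLinear ι F)) :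
    ¬ Elu r (Geo.tensorProductSubgroup a b e P) := fun h => by
  classical
  let K := AlgebraicClosure F
  have := charP_of_injective_algebraMap (algebraMap F K).injective p
  have hQ := isQ_card F K hp
  have hn : Fintype.card ι = a * b := by simpa using Fintype.card_congr e
  by_cases hrp : r = p
  · exact (hrp ▸ h).not_char hp (by nlinarith) (eq_one_of_rank_kron ha (by omega))
  obtain ⟨d, d1, d2⟩ : ∃ d, d ≤ a * b ∧ ((r : ℤ) ∣ Fintype.card F - 1 ∧ d = 2 ∨
      ¬ (r : ℤ) ∣ Fintype.card F - 1 ∧ 0 < d ∧ ∀ k, (r : ℤ) ∣ Fintype.card F ^ k - 1 ↔ d ∣ k) := by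
    by_cases h5 : (r : ℤ) ∣ Fintype.card F - 1
    · exact ⟨2, by nlinarith, .inl ⟨h5, rfl⟩⟩
    have h1 : ∀ k, (r : ℤ) ∣ Fintype.card F ^ k - 1 ↔ orderOf (Fintype.card F : ZMod r) ∣ k :=
      fun k => by
        rw [orderOf_dvd_iff_pow_eq_one, ← ZMod.intCast_zmod_eq_zero_iff_dvd]; simp [sub_eq_zero]
    obtain ⟨j, j1, j2, j3⟩ := exists_dvd_of_dvd_card_GL hQ hr hrp (by nlinarith)
      ((hΩ.trans (Subgroup.relIndex_dvd_card _ _)).trans (Subgroup.card_subgroup_dvd_card _))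
    exact ⟨_, (Nat.le_of_dvd j1 ((h1 j).1 j3)).trans (hn ▸ j2),
      .inr ⟨h5, Nat.pos_of_dvd_of_pos ((h1 j).1 j3) j1, h1⟩⟩
  obtain ⟨O, o1, o2, o3, o4, o5⟩ := hQ.exists_adm_nodup (n := Fintype.card ι) hr hr2 hrp d2 (by omega)
  obtain ⟨g, g1, g2⟩ := (elu_iff hp hr hrp).1 h _ o5
  obtain ⟨D, hD⟩ : ∃ D, g.1 = tr e P (1 ⊗ₖ D) := by
    by_cases h1 : d < b
    · have := rank_sub_one_add (K := K) g.isUnit
      simp [g2, ss] at this
      exact exists_one_kron_of_rank (by omega) g1 (by omega)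
    · refine exists_one_kron_of_pow hp hr hrp (by omega) (by omega) g1 (Units.ext
        ((pow_eq_one_iff_KB (K := K) p hp g.isUnit r).2 (g2 ▸ KB_ss.2 fun α hα => ?_))) fun k k1 k2 k3 => ?_
      · exact (Multiset.mem_add.1 hα).elim (o4 α) fun h => by simp [Multiset.eq_of_mem_replicate h]
      · rcases d2 with ⟨-, rfl⟩ | ⟨-, -, d2⟩
        · omega
        · have := Nat.le_of_dvd k1 ((d2 k).1 k3)
          omega
  obtain ⟨x, hx⟩ := Multiset.card_pos_iff_exists_mem.1 (show 0 < O.card by omega)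
  have := dvd_count_of_kron hD g2 x
  rw [Multiset.count_add, Multiset.count_eq_one_of_mem o2 hx, Multiset.count_replicate,
    if_neg (by rintro rfl; exact o3 hx), Nat.dvd_one] at this
  omega

theorem elu_two_tensor_iff (hp : p.Prime) [CharP F p] (ha : 2 ≤ a) (hab : a < b) :
    Elu 2 (Geo.tensorProductSubgroup a b e P) ↔ a = 2 ∧ Odd (Fintype.card F) ∧
      padicValNat 2 (Fintype.card F - 1) ≤ padicValNat 2 (Fintype.card ι) := by
  classical
  let K := AlgebraicClosure F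
  have := charP_of_injective_algebraMap (algebraMap F K).injective p
  have hQ := isQ_card F K hp
  have hn : Fintype.card ι = a * b := by simpa using Fintype.card_congr e
  have h0 : Odd (Fintype.card F) ↔ p ≠ 2 := ⟨fun h e => by
    subst e
    exact Int.not_even_iff_odd.2 (Int.odd_coe_nat _ |>.2 h) (even_iff_two_dvd.2 hQ.dvd),
    fun h => by simpa using hQ.odd h⟩
  have h1 := eq_one_of_rank_kron (e := e) (P := P) ha (by omega)
  rw [h0]
  refine ⟨fun h => ?_, ?_⟩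
  · have h2 : p ≠ 2 := by rintro rfl; exact h.not_char hp (by nlinarith) h1
    refine ⟨?_, h2, h.padic_le hp Nat.prime_two h2.symm (by nlinarith) scalars_le_tensor h1⟩
    have h3 : (-1 : Kˣ) ≠ 1 := fun e => h2 ((Nat.prime_dvd_prime_iff_eq hp Nat.prime_two).1
      ((CharP.cast_eq_zero_iff K p 2).1 (by
        have := congrArg Units.val e
        push_cast at this ⊢
        linear_combination -this)))
    obtain ⟨n, e1⟩ := Nat.exists_eq_add_of_le' (show 3 ≤ Fintype.card ι by nlinarith)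
    obtain ⟨g, g1, g2⟩ := (elu_iff hp Nat.prime_two h2.symm).1 h _ (e1 ▸ adm_two (M := Kˣ) (r := 2)
      n.succ_pos two_pos (c := 1) (ζ := -1) (by simp) (hQ.odd h2).neg_one_zpow (by simp) h3 (by simp))
    have := rank_sub_one_add (K := K) g.isUnit
    simp [g2, ss] at this
    obtain ⟨D, hD⟩ := exists_one_kron_of_rank (by omega) g1 (by omega)
    have := dvd_count_of_kron hD g2 (-1)
    rw [Multiset.count_add, Multiset.count_replicate, if_neg h3.symm, one_mul,
      Multiset.count_replicate_self] at this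
    exact le_antisymm (Nat.le_of_dvd two_pos this) ha
  · rintro ⟨rfl, h2, h3⟩
    refine elu_two_of_even hp h2 scalars_le_tensor hn (by omega) (hn ▸ h3) (fun δ => ?_) fun z hz => ?_
    · obtain ⟨g, hg⟩ : IsUnit (diagonal fun i => (δ i : F)) :=
        isUnit_diagonal.2 (Pi.isUnit_iff.2 (by simp))
      refine ⟨_, kronGL_mem 1 g, ?_⟩
      rw [coe_trGL, mdiv_tr, coe_kronGL, hg, Units.val_one, ← diagonal_one,
        diagonal_kronecker_diagonal]
      simp
    · have h4 : (!![0, z; 1, 0] : Matrix (Fin 2) (Fin 2) F) ^ 2 = z • 1 := by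
        simp [sq, one_fin_two]
      obtain ⟨g, hg⟩ : IsUnit (!![0, z; 1, 0] : Matrix (Fin 2) (Fin 2) F) :=
        (isUnit_iff_isUnit_det _).2 (by simpa using by rintro rfl; simp at hz)
      refine ⟨_, kronGL_mem g 1, ?_⟩
      rw [coe_trGL, ← map_pow, coe_kronGL, kron_pow, hg, h4]
      simp [smul_kronecker]

end Tens

end Cfsg.Agent.Class.Spec
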