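import Mathlib
import Cfsg.Agent.Class.Elus.Ext3
import Cfsg.Agent.Class.Max.C4Inst

/-!
Elements of prime order of symplectic groups and stabilisers of tensor decompositions.
-/

set_option autoImplicit false

namespace Cfsg.Agent.Class.Elus

open Polynomial Module Cfsg.Agent.Class.Wall Cfsg.Agent.Class.Max
open Cfsg.Agent.KSG (Sim IsPP elemDiv cycFac)

variable {F U W V : Type*} [Field F] [AddCommGroup U] [Module F U] [AddCommGroup W] [Module F W]
  [AddCommGroup V] [Module F V] (T : Tn F U W V) {a : End F U} {b : End F W} {r i : ℕ}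
  {B₁ : LinearMap.BilinForm F U} {B₂ : LinearMap.BilinForm F W} {B : LinearMap.BilinForm F V}
  {Q₁ : U → F} {Q₂ : W → F} {Q : V → F}

theorem krL_swap : T.swap.krL b a = T.krL a b :=
  LinearMap.ext (T.ext fun u w => by rw [← Tn.swap_tm, Tn.krL_tm, Tn.swap_tm, Tn.swap_tm, Tn.krL_tm])

theorem krL_mul (a a' : End F U) (b b' : End F W) :
    (T.krL a b * T.krL a' b' : End F V) = T.krL (a * a') (b * b') :=
  LinearMap.ext (T.ext fun u w => by simp)

theorem krL_pow (n : ℕ) : (T.krL a b ^ n : End F V) = T.krL (a ^ n) (b ^ n) := by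
  induction n with
  | zero => exact LinearMap.ext (T.ext fun u w => by simp)
  | succ n ih => rw [pow_succ, ih, krL_mul, ← pow_succ, ← pow_succ]

theorem map_B_krL (hB : ∀ u w u' w', B (T.tm u w) (T.tm u' w') = B₁ u u' * B₂ w w')
    (ha : Pres B₁ Q₁ a) (hb : Pres B₂ Q₂ b) (x y : V) : B (T.krL a b x) (T.krL a b y) = B x y :=
  LinearMap.congr_fun (T.ext (f := B.compl₁₂ (T.krL a b) (T.krL a b)) (g := B)
    (fun u w => LinearMap.ext (T.ext fun u' w' => by simp [hB, ha.map_B, hb.map_B])) x) y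

variable [FiniteDimensional F U] [FiniteDimensional F W] [FiniteDimensional F V]

omit [FiniteDimensional F V] in
theorem rk_krL_one : rk (T.krL 1 b) = finrank F U * rk b := by
  rw [rk, rk, ← T.finrank_ts, ← T.range_krL, show 1 - T.krL 1 b = T.krL LinearMap.id (1 - b) from
    LinearMap.ext (T.ext fun u w => by simp)]

theorem exists_inv_of_rk (hb : Function.Injective b) {X : Submodule F U}
    (h : rk (T.krL a b) < finrank F W * finrank F X) : ∃ Y ≤ X, Y ≠ ⊥ ∧ Inv a Y := by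
  have h1 := rk_add_finrank_ker (T.krL a b)
  have h2 := Submodule.finrank_sup_add_finrank_inf_eq (LinearMap.ker (T.krL a b - 1)) (T.swap.ts X)
  have h3 := (LinearMap.ker (T.krL a b - 1) ⊔ T.swap.ts X).finrank_le
  rw [Tn.finrank_ts] at h2
  obtain ⟨v, ⟨a1, a2⟩, a3⟩ := Submodule.exists_mem_ne_zero_of_ne_bot
    (p := LinearMap.ker (T.krL a b - 1) ⊓ T.swap.ts X) fun e => by rw [e, finrank_bot] at h2; omega
  refine ⟨LinearMap.range (T.cR.flip v), ?_, fun e => a3 (T.eq_zero_of_cR fun φ =>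
    (Submodule.eq_bot_iff _).1 e _ ⟨φ, rfl⟩), ?_⟩
  · rintro _ ⟨φ, rfl⟩
    exact T.swap.ts_le (X := X.comap (T.cR φ)) (fun w u hu => by simpa using X.smul_mem _ hu) a2
  · rintro _ ⟨φ, rfl⟩
    obtain ⟨ψ, rfl⟩ := LinearMap.dualMap_surjective_of_injective hb φ
    exact ⟨ψ, (congrArg (T.cR ψ) (sub_eq_zero.1 a1)).symm.trans (T.cR_krL ψ a b v)⟩

theorem exists_smul_of_rk (hb : Function.Injective b) (h : rk (T.krL a b) < finrank F W) :
    ∃ c : F, a = c • 1 := by
  refine (exists_smul_of_comm (A := a) fun u => ?_).imp fun c => LinearMap.ext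
  rcases eq_or_ne u 0 with rfl | hu
  · simp
  obtain ⟨Y, a1, a2, a3⟩ := exists_inv_of_rk T hb (a := a) (X := Submodule.span F {u})
    (by rwa [finrank_span_singleton hu, mul_one])
  obtain rfl := ((nonzero_span_atom u hu).le_iff.1 a1).resolve_left a2
  exact (Submodule.mem_span_singleton.1 (a3 u (Submodule.mem_span_singleton_self u))).imp
    fun _ => Eq.symm

theorem dvd_rk_of_lt (hb : Function.Injective b) (h : rk (T.krL a b) < finrank F W) :
    finrank F U ∣ rk (T.krL a b) := by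
  obtain ⟨c, rfl⟩ := exists_smul_of_rk T hb h
  exact ⟨_, by rw [← rk_krL_one T (b := c • b)]; congr 1; exact LinearMap.ext (T.ext (by simp))⟩

theorem exists_norm [Nontrivial U] [Nontrivial W] (h₁ : Nd (RingHom.id F) B₁) (h₂ : Nd (RingHom.id F) B₂)
    (hB : ∀ u w u' w', B (T.tm u w) (T.tm u' w') = B₁ u u' * B₂ w w') (hb : Function.Injective b)
    (hr : Odd r) (h1 : (T.krL a b ^ r : End F V) = 1)
    (h2 : ∀ x y, B (T.krL a b x) (T.krL a b y) = B x y) : ∃ (a' : End F U) (b' : End F W),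
      T.krL a b = T.krL a' b' ∧ a' ^ r = 1 ∧ b' ^ r = 1 ∧ (∀ x y, B₁ (a' x) (a' y) = B₁ x y) ∧
        ∀ x y, B₂ (b' x) (b' y) = B₂ x y := by
  rw [krL_pow] at h1
  obtain ⟨c, hc⟩ := exists_smul_of_rk T (a := a ^ r) (b := b ^ r) (by
    rw [End.coe_pow]; exact hb.iterate r) (by rw [h1, rk_one]; exact finrank_pos)
  obtain ⟨u, hu⟩ := exists_ne (0 : U)
  obtain ⟨w, hw⟩ := exists_ne (0 : W)
  obtain ⟨u', hu'⟩ := not_forall.1 (mt (h₁.left u) hu)
  obtain ⟨w', hw'⟩ := not_forall.1 (mt (h₂.left w) hw)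
  have h3 : ∀ u w u' w', B₁ (a u) (a u') * B₂ (b w) (b w') = B₁ u u' * B₂ w w' := fun u w u' w' => by
    simpa [hB] using h2 (T.tm u w) (T.tm u' w')
  set ν := B₂ (b w) (b w') / B₂ w w'
  have h4 : ∀ x y, ν * B₁ (a x) (a y) = B₁ x y := fun x y => by
    rw [div_mul_eq_mul_div, mul_comm, h3, mul_div_cancel_right₀ _ hw']
  have h5 : ∀ (n : ℕ) x y, ν ^ n * B₁ ((a ^ n) x) ((a ^ n) y) = B₁ x y := fun n => by
    induction n with
    | zero => simp
    | succ n ih => intro x y; rw [pow_succ, pow_succ', mul_assoc, End.mul_apply, End.mul_apply, h4, ih]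
  have h6 : ν ^ r * c ^ 2 = 1 := mul_right_cancel₀ hu' (by
    simpa [hc, sq, mul_assoc] using h5 r u u')
  obtain ⟨j, rfl⟩ := hr
  have h7 : (ν ^ (j + 1) * c) ^ (2 * j + 1) * c = 1 := by
    rw [← (congrArg (· ^ (j + 1)) h6).trans (one_pow _)]; ring
  have h8 : ν ^ (j + 1) * c * (ν ^ (j + 1) * c) = ν := by linear_combination ν * h6
  generalize ν ^ (j + 1) * c = s at h7 h8
  have h9 : s ≠ 0 := by rintro rfl; simp at h7
  refine ⟨s • a, s⁻¹ • b, LinearMap.ext (T.ext fun u w => by simp [smul_smul, h9]), by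
    rw [_root_.smul_pow, hc, smul_smul, h7, one_smul], LinearMap.ext fun x => T.right_inj hu ?_,
    fun x y => by simp [← mul_assoc, h8, h4], fun x y => mul_left_cancel₀ hu' ?_⟩
  · simpa [hc, _root_.smul_pow, eq_inv_of_mul_eq_one_right h7] using LinearMap.congr_fun h1 (T.tm u x)
  · rw [← h3 u x u' y, ← h4 u u', ← h8]
    simp only [LinearMap.smul_apply, map_smul, smul_eq_mul]
    field_simp

omit [FiniteDimensional F V] in
theorem eq_one_of_smul [Nontrivial V] (h : Nd (RingHom.id F) B) (hr : Odd r) {g : End F V}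
    (hg : Pres B Q g) (h1 : g ^ r = 1) {z : F} (e : g = z • 1) : g = 1 := by
  subst e
  rcases mul_self_eq_one_iff.1 (mul_self_eq_one_of_pres h hg) with rfl | rfl
  · simp
  · rwa [_root_.smul_pow, hr.neg_one_pow, one_pow] at h1

variable [Fintype F]

theorem IsSS.eluP_kr (h : IsSS B Q) (h₁ : IsSS B₁ Q₁) (h₂ : IsOS B₂ Q₂)
    (hB : ∀ u w u' w', B (T.tm u w) (T.tm u' w') = B₁ u u' * B₂ w w') (h2 : (2 : F) ≠ 0)
    (hU : 2 ≤ finrank F U) (hW : 3 ≤ finrank F W) {p : ℕ} [Fact p.Prime] [CharP F p] [hr : Fact r.Prime]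
    (hΩ : r ∣ Nat.card (Isom B Q)) :
    EluP B Q r (fun g => ∃ y, (∃ (a : U ≃ₗ[F] U) (b : W ≃ₗ[F] W), y = T.krL a b) ∧ IsoSim B Q y B Q g) ↔
      r = 2 ∧ finrank F U = 2 := by
  have hn : finrank F V = finrank F U * finrank F W := by rw [← T.e.finrank_eq, finrank_tensorProduct]
  have : Nontrivial U := nontrivial_of_finrank_pos (R := F) (by omega)
  have : Nontrivial W := nontrivial_of_finrank_pos (R := F) (by omega)
  have : Nontrivial V := nontrivial_of_finrank_pos (R := F) (by nlinarith)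
  constructor
  · intro H
    by_cases hp : r = p
    · obtain ⟨g, a1, a2, a3, a4⟩ := IsSS.exists_transv h (by nlinarith) p
      obtain ⟨_, ⟨a, b, rfl⟩, b2⟩ := H g a1 ⟨1, by simpa [hp] using a2⟩ a3
      have b3 := (IsoSim.rk_eq b2).trans a4
      have := dvd_rk_of_lt T (a := a) b.injective (by omega)
      rw [b3, Nat.dvd_one] at this
      omega
    by_cases r2 : r = 2
    · subst r2
      obtain ⟨g, a1, a2, a3, a4, a5⟩ := IsSS.exists_invol h2 h (by nlinarith)
      obtain ⟨_, ⟨a, b, rfl⟩, b2⟩ := ((eluP_two_iff h.toNd h2).1 H).1 g a1 a2 a3 a4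
      have b3 := (IsoSim.rk_eq b2).trans a5
      exact ⟨rfl, le_antisymm (Nat.le_of_dvd two_pos (b3 ▸ dvd_rk_of_lt T (a := a) b.injective
        (by omega))) hU⟩
    have r1 := oddP_of (F := F) p r2 hp rfl
    generalize orderOf (Fintype.card F : ZMod r) = i at r1
    have c0 := cc_pos r1.pos
    obtain ⟨g, a1, a2, a3, a4⟩ := (IsSS.cap h r1).exists_rk r1 h.toNd one_ne_zero
      (by simpa using IsSS.cc_le h r1 hΩ)
    obtain ⟨_, ⟨a, b, rfl⟩, b2⟩ := H g a1 ⟨1, by simpa using a2⟩ fun z e =>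
      a3 (eq_one_of_smul h.toNd r1.odd a1 a2 e)
    obtain ⟨a, b, e, b3, b4, b5, b6⟩ := exists_norm T h₁.toNd h₂.toNd hB b.injective r1.odd (by
      simpa using Sim.pow_eq_smul b2.symm.sim (r := r) (z := 1) (by simpa using a2))
      (IsoSim.pres b2.symm a1).map_B
    have b7 := (IsoSim.rk_eq b2).trans a4
    rw [e, one_mul] at b7
    have b8 := IsSS.pres h₁ b5
    have b9 := IsOS.pres_of_B h2 h₂ b6
    have i1 := ((End.isUnit_iff _).1 (b8.isUnit h₁.toNd)).1
    have i2 := ((End.isUnit_iff _).1 (b9.isUnit h₂.toNd)).1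
    obtain ⟨A, d1, d2⟩ := (IsSS.cap h₁ r1).rk_eq r1 h₁.toNd b8 b3
    obtain ⟨A', d3, d4⟩ := (IsOS.cap h₂ r1).rk_eq r1 h₂.toNd b9 b4
    have d5 := d4.trans (IsOS.cap h₂ r1).le
    have key : ∀ {m A : ℕ}, 2 ≤ m → m * (A * cc i) ≠ cc i := fun {m A} hm e => by
      rcases Nat.eq_zero_or_pos A with rfl | h
      · simp at e; omega
      · nlinarith [Nat.mul_le_mul_right (cc i) h]
    have n1 : a ≠ 1 := by rintro rfl; exact key hU (by rw [← d3, ← rk_krL_one T, b7])
    have n2 : b ≠ 1 := by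
      rintro rfl; exact key (m := finrank F W) (by omega) (by rw [← d1, ← rk_krL_one T.swap, krL_swap, b7])
    have n3 : finrank F W ≤ cc i := not_lt.1 fun l =>
      (exists_smul_of_rk T i2 (b7 ▸ l)).elim fun _ e => n1 (eq_one_of_smul h₁.toNd r1.odd b8 b3 e)
    have n4 : finrank F U ≤ cc i := not_lt.1 fun l => (exists_smul_of_rk T.swap i1
      (by rwa [krL_swap, b7])).elim fun _ e => n2 (eq_one_of_smul h₂.toNd r1.odd b9 b4 e)
    have n5 := Nat.mul_le_mul_right (cc i) (Nat.pos_of_ne_zero (show A ≠ 0 by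
      rintro rfl; exact n1 (rk_eq_zero_iff.1 (by simpa using d1))))
    have n6 := Nat.mul_le_mul_right (cc i) (Nat.pos_of_ne_zero (show A' ≠ 0 by
      rintro rfl; exact n2 (rk_eq_zero_iff.1 (by simpa using d3))))
    have n7 : ∀ v, v ≠ 0 → ∀ s : F, a v ≠ s • v := fun v hv s e => by
      have e1 : ∀ n : ℕ, (a ^ n) v = s ^ n • v := fun n => by
        induction n with
        | zero => simp
        | succ n ih => rw [pow_succ', End.mul_apply, ih, map_smul, e, smul_smul, pow_succ]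
      have e2 : s ^ r = 1 := smul_left_injective F hv (by simpa [b3] using (e1 r).symm)
      by_cases e3 : s = 1
      · have := rk_add_finrank_ker a
        exact hv ((Submodule.eq_bot_iff (LinearMap.ker (a - 1))).1 (Submodule.finrank_eq_zero.1 (by omega))
          v (by simp [e, e3]))
      · have := (r1.dvd_iff 1).1 (by
          rw [pow_one, ← orderOf_eq_prime e2 e3]
          exact orderOf_dvd_of_pow_eq_one (FiniteField.pow_card_sub_one_eq_one s (by
            rintro rfl; simp [hr.out.ne_zero] at e2)))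
        rw [Nat.dvd_one.1 this, cc_of_odd odd_one] at n3
        omega
    obtain ⟨v, hv⟩ := exists_ne (0 : U)
    have p1 : ∀ x y : U, finrank F (Submodule.span F {x, y}) ≤ 2 := fun x y => by
      classical exact (finrank_span_le_card _).trans (by simpa using Finset.card_le_two)
    obtain ⟨u, hu⟩ := (Submodule.span F {v, a v}).exists_of_finrank_lt ((p1 _ _).trans_lt (by omega))
    have p2 : 1 < finrank F (Submodule.span F {v, u}) := (finrank_span_singleton hv).symm.trans_lt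
      (Submodule.finrank_lt_finrank_of_lt (lt_of_le_of_ne (Submodule.span_mono (by simp)) fun e =>
        hu 1 one_ne_zero (by
          rw [one_smul]
          exact Submodule.span_mono (by simp) (e.ge (Submodule.subset_span (by simp))))))
    obtain ⟨Y, y1, y2, y3⟩ := exists_inv_of_rk T i2 (a := a) (X := Submodule.span F {v, u})
      (by rw [b7]; nlinarith)
    rcases y1.eq_or_lt with rfl | y4
    · obtain ⟨s, t, e⟩ := Submodule.mem_span_pair.1 (y3 v (Submodule.subset_span (by simp)))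
      exact (hu t (by rintro rfl; exact n7 v hv s (by simpa using e.symm))
        (Submodule.mem_span_pair.2 ⟨-s, 1, by rw [← e]; module⟩)).elim
    · obtain ⟨x, x1, x2⟩ := Submodule.exists_mem_ne_zero_of_ne_bot y2
      obtain ⟨s, hs⟩ := (finrank_eq_one_iff_of_nonzero' (⟨x, x1⟩ : Y) (by simpa using x2)).1
        (le_antisymm (by have := Submodule.finrank_lt_finrank_of_lt y4; have := p1 v u; omega)
          (Submodule.one_le_finrank_iff.2 y2)) ⟨_, y3 x x1⟩
      exact (n7 x x2 s (congrArg Subtype.val hs).symm).elim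
  · rintro ⟨rfl, e⟩
    refine (eluP_two_iff h.toNd h2).2 ⟨fun g a1 a2 _ a4 => ?_, fun g a1 a2 => ?_⟩
    · obtain ⟨⟨k, k1⟩, k2⟩ := IsSS.rk_invol h2 h a1 a2
      have h' := h₂.isFormed fType_orth
      obtain ⟨X, -, b1, b2⟩ := IsOS.exists_le_nondeg h2 h₂ (U := ⊤) (by rw [h'.perp_top, inf_bot_eq])
        (u := k) (by have := k2 a4; rw [finrank_top]; rw [e] at hn; omega)
      obtain ⟨y, c1, c2, c3⟩ := exists_negOn' h₂ fType_orth b1
      exact ⟨T.krL 1 y, ⟨1, (c1.toIsom h₂.toNd).1, rfl⟩, IsSS.isoSim_of_rk h2 h a1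
        (IsSS.pres h (map_B_krL T hB (Q₁ := Q₁) Pres.one c1)) a2
        (by rw [krL_mul, c2]; exact LinearMap.ext (T.ext (by simp)))
        (by rw [rk_krL_one, rk, c3.range_eq h2 h', e, b2, k1, two_mul])⟩
    · obtain ⟨y, c1, c2⟩ := IsSS.exists_mul_eq_neg h₁
      exact ⟨T.krL y 1, ⟨(c1.toIsom h₁.toNd).1, 1, rfl⟩, isoSim_of_mul_eq_neg h2 (h.isFormed fType_sp)
        (h.isFormed fType_sp) (IsSS.pres h (map_B_krL T hB (Q₂ := Q₂) c1 Pres.one)) a1
        (by rw [krL_mul, c2]; exact LinearMap.ext (T.ext (by simp))) a2 rfl⟩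

end Cfsg.Agent.Class.Elus
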