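import Cfsg.Agent.Class.Elus.Cap

/-!
# Combinatorics of self-dual multisets
-/

set_option autoImplicit false

namespace Cfsg.Agent.Class.Elus

variable {α : Type*} {T : Finset α} {δ : α → α} {e : α} {deg : α → ℕ} {b c n m k : ℕ}
  {u : Multiset α}

/-- There is a self-dual part of degree `m`. -/
def PN (δ : α → α) (deg : α → ℕ) (m : ℕ) (s : Multiset α) : Prop :=
  ∃ t ≤ s, t.map δ = t ∧ (t.map deg).sum = m

/-- There is a hyperbolic part of degree `2 m`. -/
def PT (δ : α → α) (deg : α → ℕ) (m : ℕ) (s : Multiset α) : Prop :=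
  ∃ ν, ν.map δ + ν ≤ s ∧ (ν.map deg).sum = m

theorem le_add_replicate {t : Multiset α} (he : e ∉ u) (h : t ≤ u + Multiset.replicate k e) :
    ∃ u₁ j, u₁ ≤ u ∧ j ≤ k ∧ t = u₁ + Multiset.replicate j e := by
  classical
  obtain ⟨u₁, j, h1, rfl⟩ := exists_eq_add_replicate (s := t) (a := e) (T := (· ≠ e)) fun b _ => em _
  refine ⟨u₁, j, Multiset.le_iff_count.2 fun a => ?_, ?_, rfl⟩
  · by_cases ha : a = e
    · rw [Multiset.count_eq_zero_of_notMem fun h => h1 a h ha]; exact Nat.zero_le _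
    · simpa [Multiset.count_replicate, Ne.symm ha] using Multiset.le_iff_count.1 h a
  · have := Multiset.le_iff_count.1 h e
    simp only [Multiset.count_add, Multiset.count_replicate_self,
      Multiset.count_eq_zero_of_notMem he] at this
    omega

/-- A set of blocks of degree `b` with a duality, and a self-dual point of degree one. -/
structure Blk (T : Finset α) (δ : α → α) (e : α) (deg : α → ℕ) (b : ℕ) : Prop where
  pos : 0 < b
  ne : T.Nonempty
  mem : ∀ t ∈ T, δ t ∈ T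
  inv : ∀ t ∈ T, δ (δ t) = t
  notMem : e ∉ T
  fix : δ e = e
  one : deg e = 1
  eq : ∀ t ∈ T, deg t = b

/-- All non-trivial self-dual multisets of degree `n` have the property `P`. -/
def AllB (T : Finset α) (δ : α → α) (e : α) (b n : ℕ) (P : Multiset α → Prop) : Prop :=
  ∀ u k, (∀ t ∈ u, t ∈ T) → u.map δ = u → u ≠ 0 → Multiset.card u * b + k = n →
    P (u + Multiset.replicate k e)

namespace Blk

theorem sum_deg (h : Blk T δ e deg b) (hu : ∀ t ∈ u, t ∈ T) (k : ℕ) :
    ((u + Multiset.replicate k e).map deg).sum = Multiset.card u * b + k := by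
  rw [Multiset.map_add, Multiset.sum_add, Multiset.map_congr rfl fun t ht => h.eq t (hu t ht)]
  simp [h.one]

theorem pn_iff (h : Blk T δ e deg b) (hu : ∀ t ∈ u, t ∈ T) :
    PN δ deg m (u + Multiset.replicate k e) ↔ ∃ u₁ ≤ u, u₁.map δ = u₁ ∧
      Multiset.card u₁ * b ≤ m ∧ m ≤ Multiset.card u₁ * b + k := by
  constructor
  · rintro ⟨t, h1, h2, h3⟩
    obtain ⟨u₁, j, a1, a2, rfl⟩ := le_add_replicate (fun a => h.notMem (hu e a)) h1
    rw [h.sum_deg fun t ht => hu t (Multiset.mem_of_le a1 ht)] at h3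
    rw [Multiset.map_add, Multiset.map_replicate, h.fix, add_left_inj] at h2
    exact ⟨u₁, a1, h2, by omega, by omega⟩
  · rintro ⟨u₁, a1, a2, a3, a4⟩
    refine ⟨u₁ + Multiset.replicate (m - Multiset.card u₁ * b) e,
      add_le_add a1 ((Multiset.replicate_le_replicate e).2 (by omega)),
      by rw [Multiset.map_add, Multiset.map_replicate, h.fix, a2], ?_⟩
    rw [h.sum_deg fun t ht => hu t (Multiset.mem_of_le a1 ht)]
    omega

theorem pt_iff (h : Blk T δ e deg b) (hu : ∀ t ∈ u, t ∈ T) :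
    PT δ deg m (u + Multiset.replicate k e) ↔ ∃ ν, ν.map δ + ν ≤ u ∧
      Multiset.card ν * b ≤ m ∧ 2 * m ≤ 2 * (Multiset.card ν * b) + k := by
  have key : ∀ (ν : Multiset α) j, (ν + Multiset.replicate j e).map δ + (ν + Multiset.replicate j e) =
      ν.map δ + ν + Multiset.replicate (j + j) e := fun ν j => by
    rw [Multiset.map_add, Multiset.map_replicate, h.fix, Multiset.replicate_add]; abel
  constructor
  · rintro ⟨t, h1, h3⟩
    obtain ⟨ν, j, a1, -, rfl⟩ := le_add_replicate (fun a => h.notMem (hu e a))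
      ((Multiset.le_add_left _ _).trans h1)
    have hν : ∀ t ∈ ν, t ∈ T := fun t ht => hu t (Multiset.mem_of_le a1 ht)
    rw [h.sum_deg hν] at h3
    rw [key] at h1
    obtain ⟨u₁, j', b1, b2, b3⟩ := le_add_replicate (fun a => h.notMem (hu e a)) h1
    obtain ⟨rfl, rfl⟩ := add_replicate_inj (fun a => h.notMem ((Multiset.mem_add.1 a).elim
      (fun a => by obtain ⟨t, ht, a⟩ := Multiset.mem_map.1 a; exact a ▸ h.mem t (hν t ht)) (hν e)))
      (fun a => h.notMem (hu e (Multiset.mem_of_le b1 a))) b3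
    exact ⟨ν, b1, by omega, by omega⟩
  · rintro ⟨ν, a1, a3, a4⟩
    refine ⟨ν + Multiset.replicate (m - Multiset.card ν * b) e, key _ _ ▸
      add_le_add a1 ((Multiset.replicate_le_replicate e).2 (by omega)), ?_⟩
    rw [h.sum_deg fun t ht => hu t (Multiset.mem_of_le a1 (by simp [ht]))]
    omega

theorem exists_half (h : Blk T δ e deg b) (hf : ∀ t ∈ T, δ t ≠ t) (hu : ∀ t ∈ u, t ∈ T)
    (hd : u.map δ = u) : ∃ v, v.map δ + v = u := by
  obtain ⟨T₀, -, -, h2, -⟩ := Wall.exists_half T δ h.mem h.inv hf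
  obtain ⟨v, -, a⟩ := h2 u hu hd
  exact ⟨v, a⟩

theorem map_add (h : Blk T δ e deg b) (hu : ∀ t ∈ u, t ∈ T) :
    (u.map δ + u).map δ = u.map δ + u := by
  rw [Multiset.map_add, Multiset.map_map, add_comm, Multiset.map_congr rfl (g := id)
    (f := δ ∘ δ) fun t ht => h.inv t (hu t ht), Multiset.map_id]

theorem mem_add (h : Blk T δ e deg b) (hu : ∀ t ∈ u, t ∈ T) : ∀ t ∈ u.map δ + u, t ∈ T :=
  fun t ht => (Multiset.mem_add.1 ht).elim
    (fun a => by obtain ⟨t', ht', rfl⟩ := Multiset.mem_map.1 a; exact h.mem t' (hu t' ht')) (hu t)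

theorem _root_.Cfsg.Agent.Class.Elus.map_eq_of_fix (hf : ∀ t ∈ T, δ t = t) (hu : ∀ t ∈ u, t ∈ T) :
    u.map δ = u := by
  rw [Multiset.map_congr rfl (g := id) fun t ht => hf t (hu t ht), Multiset.map_id]

theorem exists_sd (h : Blk T δ e deg b)
    (hc : (∀ t ∈ T, δ t = t) ∧ c = b ∨ (∀ t ∈ T, δ t ≠ t) ∧ c = 2 * b) (A : ℕ) :
    ∃ u : Multiset α, (∀ t ∈ u, t ∈ T) ∧ u.map δ = u ∧ Multiset.card u * b = A * c := by
  obtain ⟨f, hf⟩ := h.ne
  have h1 : ∀ t ∈ Multiset.replicate A f, t ∈ T := fun t ht => Multiset.eq_of_mem_replicate ht ▸ hf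
  rcases hc with ⟨a, rfl⟩ | ⟨-, rfl⟩
  · exact ⟨_, h1, map_eq_of_fix a h1, by simp⟩
  · exact ⟨_, h.mem_add h1, h.map_add h1, by simp; ring⟩

theorem exists_split (h : Blk T δ e deg b)
    (hc : (∀ t ∈ T, δ t = t) ∧ c = b ∨ (∀ t ∈ T, δ t ≠ t) ∧ c = 2 * b) (hu : ∀ t ∈ u, t ∈ T)
    (hd : u.map δ = u) : ∃ A, Multiset.card u * b = A * c ∧ ∀ A₁ ≤ A, ∃ u₁ ≤ u, u₁.map δ = u₁ ∧
      Multiset.card u₁ * b = A₁ * c := by
  rcases hc with ⟨a, rfl⟩ | ⟨a, rfl⟩
  · refine ⟨_, rfl, fun A₁ h1 => ?_⟩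
    obtain ⟨v, w, rfl, rfl⟩ := exists_add_of_le_card u h1
    exact ⟨v, Multiset.le_add_right _ _, map_eq_of_fix a fun t ht => hu t (by simp [ht]), rfl⟩
  · obtain ⟨v, rfl⟩ := h.exists_half a hu hd
    refine ⟨Multiset.card v, by simp; ring, fun A₁ h1 => ?_⟩
    obtain ⟨v, w, rfl, rfl⟩ := exists_add_of_le_card v h1
    exact ⟨v.map δ + v, add_le_add (Multiset.map_le_map (Multiset.le_add_right _ _))
      (Multiset.le_add_right _ _), h.map_add fun t ht => hu t (by simp [ht]), by simp; ring⟩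

theorem all_pn (h : Blk T δ e deg b)
    (hc : (∀ t ∈ T, δ t = t) ∧ c = b ∨ (∀ t ∈ T, δ t ≠ t) ∧ c = 2 * b) (hm : m ≤ n) :
    AllB T δ e b n (PN δ deg m) ↔ n / c ≤ m / c + (n - m) / c := by
  have h0 : 0 < c := by have := h.pos; omega
  constructor
  · intro H
    by_contra hlt
    obtain ⟨u, a1, a2, a3⟩ := h.exists_sd hc (n / c)
    have a4 := Nat.div_mul_le_self n c
    obtain ⟨u₁, b1, b2, b3, b4⟩ := (h.pn_iff a1).1 (H u (n - n / c * c) a1 a2 (by
      rintro rfl
      have := Nat.mul_pos (Nat.zero_lt_of_lt (not_le.1 hlt)) h0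
      rw [← a3] at this
      simp at this) (by omega))
    obtain ⟨A₁, d1, -⟩ := h.exists_split hc (fun t ht => a1 t (Multiset.mem_of_le b1 ht)) b2
    rw [d1] at b3 b4
    have := (mul_le_iff_le_div h0).1 (show (n / c - A₁) * c ≤ n - m by rw [Nat.sub_mul]; omega)
    rw [mul_le_iff_le_div h0] at b3
    omega
  · intro H u k a1 a2 _ a3
    obtain ⟨A, d1, d2⟩ := h.exists_split hc a1 a2
    obtain ⟨u₁, b1, b2, b3⟩ := d2 (min A (m / c)) (min_le_left _ _)
    have := (mul_le_iff_le_div h0).1 (show A * c ≤ n by omega)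
    have := Nat.zero_le ((n - m) / c)
    have := (mul_le_iff_le_div h0).2 (show A - min A (m / c) ≤ (n - m) / c by omega)
    rw [Nat.sub_mul] at this
    exact (h.pn_iff a1).2 ⟨u₁, b1, b2, b3 ▸ (mul_le_iff_le_div h0).2 (min_le_right _ _), by omega⟩

theorem all_pt_free (h : Blk T δ e deg b) (hf : ∀ t ∈ T, δ t ≠ t) (hm : 2 * m ≤ n) :
    AllB T δ e b n (PT δ deg m) ↔ n / (2 * b) ≤ m / b + (n - 2 * m) / (2 * b) := by
  have h0 : 0 < 2 * b := by have := h.pos; omega
  constructor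
  · intro H
    by_contra hlt
    obtain ⟨u, a1, a2, a3⟩ := h.exists_sd (Or.inr ⟨hf, rfl⟩) (n / (2 * b))
    have a4 := Nat.div_mul_le_self n (2 * b)
    obtain ⟨ν, b1, b3, b4⟩ := (h.pt_iff a1).1 (H u (n - n / (2 * b) * (2 * b)) a1 a2 (by
      rintro rfl
      have := Nat.mul_pos (Nat.zero_lt_of_lt (not_le.1 hlt)) h0
      rw [← a3] at this
      simp at this) (by omega))
    have := (mul_le_iff_le_div h0).1 (show (n / (2 * b) - Multiset.card ν) * (2 * b) ≤ n - 2 * m by
      rw [Nat.sub_mul, mul_left_comm (Multiset.card ν)]; omega)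
    rw [mul_le_iff_le_div h.pos] at b3
    omega
  · intro H u k a1 a2 _ a3
    obtain ⟨v, rfl⟩ := h.exists_half hf a1 a2
    obtain ⟨ν, w, rfl, a4⟩ := exists_add_of_le_card v (min_le_left _ (m / b))
    simp only [Multiset.card_add, Multiset.card_map, add_mul] at a3 a4
    have := (mul_le_iff_le_div h0).1 (show (Multiset.card ν + Multiset.card w) * (2 * b) ≤ n by
      rw [mul_left_comm, add_mul]; omega)
    have := Nat.zero_le ((n - 2 * m) / (2 * b))
    have := (mul_le_iff_le_div h0).2 (show Multiset.card w ≤ (n - 2 * m) / (2 * b) by omega)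
    rw [mul_left_comm] at this
    exact (h.pt_iff a1).2 ⟨ν, add_le_add (Multiset.map_le_map (Multiset.le_add_right _ _))
      (Multiset.le_add_right _ _), (mul_le_iff_le_div h.pos).2 (by omega), by omega⟩

theorem all_pt_fix (h : Blk T δ e deg b) (hf : ∀ t ∈ T, δ t = t) (hm : 2 * m ≤ n)
    (hlt : (n - 2 * m) / b < n / b) : AllB T δ e b n (PT δ deg m) ↔
      T.card ≤ (n - 2 * m) / b ∧ n / b ≤ (n - 2 * m) / b + 2 * (m / b) := by
  have h0 := h.pos
  constructor
  · intro H
    constructor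
    · by_contra hlt'
      obtain ⟨v, w, a1, a2⟩ := exists_add_of_le_card T.val (a := (n - 2 * m) / b + 1)
        (by rw [Finset.card_val]; omega)
      have a3 : ∀ t ∈ v, t ∈ T := fun t ht => show t ∈ T.val by simp [a1, ht]
      have a4 := (mul_le_iff_le_div h0).2 (show Multiset.card v ≤ n / b by omega)
      obtain ⟨ν, b1, -, b4⟩ := (h.pt_iff a3).1 (H v (n - Multiset.card v * b) a3 (map_eq_of_fix hf a3)
        (by rintro rfl; simp at a2) (by omega))
      rw [map_eq_of_fix hf fun t ht => a3 t (Multiset.mem_of_le b1 (by simp [ht]))] at b1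
      obtain rfl := eq_zero_of_add_add_nodup (o := 0) (by
        simpa using Multiset.nodup_of_le b1 (Multiset.nodup_add.1 (a1 ▸ T.nodup)).1)
      have := (mul_le_iff_le_div h0).1 (show Multiset.card v * b ≤ n - 2 * m by simp at b4; omega)
      omega
    · obtain ⟨u, a1, a2, a3⟩ := h.exists_sd (Or.inl ⟨hf, rfl⟩) (n / b)
      have a4 := Nat.div_mul_le_self n b
      obtain ⟨ν, b1, b3, b4⟩ := (h.pt_iff a1).1 (H u (n - n / b * b) a1 a2 (by
        rintro rfl
        have := Nat.mul_pos (Nat.zero_lt_of_lt hlt) h0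
        rw [← a3] at this
        simp at this) (by omega))
      have := (mul_le_iff_le_div h0).1 (show (n / b - 2 * Multiset.card ν) * b ≤ n - 2 * m by
        rw [Nat.sub_mul, mul_assoc]; omega)
      rw [mul_le_iff_le_div h0] at b3
      omega
  · rintro ⟨H1, H2⟩ u k a1 - - a3
    obtain ⟨v, o, rfl, h1⟩ := exists_eq_add_add_nodup u
    obtain ⟨ν, w, rfl, a4⟩ := exists_add_of_le_card v (min_le_left _ (m / b))
    have d2 : Multiset.card o ≤ T.card := Multiset.card_le_card
      ((Multiset.le_iff_subset h1).2 fun t ht => a1 t (by simp [ht]))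
    simp only [Multiset.card_add] at a3 a4
    have := (mul_le_iff_le_div h0).1 (Nat.le.intro a3)
    have := (mul_le_iff_le_div h0).2 (show Multiset.card w + Multiset.card w + Multiset.card o ≤
      (n - 2 * m) / b by omega)
    simp only [add_mul] at this a3
    refine (h.pt_iff a1).2 ⟨ν, ?_, (mul_le_iff_le_div h0).2 (by omega), by omega⟩
    rw [map_eq_of_fix hf fun t ht => a1 t (by simp [ht])]
    exact Multiset.le_iff_exists_add.2 ⟨w + w + o, by abel⟩

theorem pn_zero (h : Blk T δ e deg b)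
    (hc : (∀ t ∈ T, δ t = t) ∧ c = b ∨ (∀ t ∈ T, δ t ≠ t) ∧ c = 2 * b) (hu : ∀ t ∈ u, t ∈ T)
    (hd : u.map δ = u) (hm : m ≤ Multiset.card u * b) : PN δ deg m u ↔ c ∣ m := by
  have h0 : 0 < c := by have := h.pos; omega
  rw [← add_zero u, ← Multiset.replicate_zero e, h.pn_iff hu]
  constructor
  · rintro ⟨u₁, a1, a2, a3, a4⟩
    obtain ⟨A, d1, -⟩ := h.exists_split hc (fun t ht => hu t (Multiset.mem_of_le a1 ht)) a2
    exact Dvd.intro_left A (by omega)
  · rintro ⟨A₁, rfl⟩
    obtain ⟨A, d1, d2⟩ := h.exists_split hc hu hd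
    obtain ⟨u₁, b1, b2, b3⟩ := d2 A₁ (Nat.le_of_mul_le_mul_right (by rwa [← d1, mul_comm]) h0)
    exact ⟨u₁, b1, b2, by rw [b3, mul_comm], by rw [b3, mul_comm, add_zero]⟩

theorem pt_zero (h : Blk T δ e deg b) (hc : T.card = 1 ∨ ∀ t ∈ T, δ t ≠ t) (hu : ∀ t ∈ u, t ∈ T)
    (hd : u.map δ = u) (hm : 2 * m ≤ Multiset.card u * b) : PT δ deg m u ↔ b ∣ m := by
  rw [← add_zero u, ← Multiset.replicate_zero e, h.pt_iff hu]
  refine ⟨fun ⟨ν, _, a2, a3⟩ => Dvd.intro_left (Multiset.card ν) (by omega), ?_⟩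
  rintro ⟨A, rfl⟩
  have h1 : 2 * A ≤ Multiset.card u := Nat.le_of_mul_le_mul_right (by linarith) h.pos
  rcases hc with hc | hc
  · obtain ⟨t, rfl⟩ := Finset.card_eq_one.1 hc
    refine ⟨Multiset.replicate A t, ?_, by simp [mul_comm], by simp [mul_comm]⟩
    rw [Multiset.map_replicate, Finset.mem_singleton.1 (h.mem t (by simp)), ← Multiset.replicate_add,
      Multiset.eq_replicate_of_mem (s := u) (a := t) fun b hb => by simpa using hu b hb,
      Multiset.replicate_le_replicate]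
    omega
  · obtain ⟨v, rfl⟩ := h.exists_half hc hu hd
    obtain ⟨ν, w, rfl, rfl⟩ := exists_add_of_le_card v (a := A) (by simp at h1; omega)
    exact ⟨ν, add_le_add (Multiset.map_le_map (Multiset.le_add_right _ _))
      (Multiset.le_add_right _ _), by simp [mul_comm], by simp [mul_comm]⟩

end Blk

theorem pn_of_linear {s : Multiset α} (h : ∀ t ∈ s, δ t = t ∧ deg t = 1)
    (hm : m ≤ (s.map deg).sum) : PN δ deg m s := by
  have key : ∀ v ≤ s, (v.map deg).sum = Multiset.card v := fun v hv => by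
    rw [Multiset.map_congr rfl fun t ht => (h t (Multiset.mem_of_le hv ht)).2]; simp
  obtain ⟨v, w, rfl, rfl⟩ := exists_add_of_le_card s (key s le_rfl ▸ hm)
  exact ⟨v, Multiset.le_add_right _ _, by
    rw [Multiset.map_congr rfl (g := id) fun t ht => (h t (by simp [ht])).1, Multiset.map_id],
    key v (Multiset.le_add_right _ _)⟩

theorem not_pt_of_nodup (hu : u.Nodup) (he : e ∉ u)
    (h : ∀ t ∈ u + Multiset.replicate k e, δ t = t ∧ deg t = 1) (hk : k < 2 * m) :
    ¬ PT δ deg m (u + Multiset.replicate k e) := by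
  classical
  rintro ⟨ν, h1, h2⟩
  have h3 := fun t (ht : t ∈ ν) => h t (Multiset.mem_of_le h1 (by simp [ht]))
  rw [Multiset.map_congr rfl (g := id) fun t ht => (h3 t ht).1, Multiset.map_id,
    Multiset.le_iff_count] at h1
  rw [Multiset.map_congr rfl fun t ht => (h3 t ht).2] at h2
  have h4 := Multiset.eq_replicate_of_mem (s := ν) (a := e) fun t ht => by
    by_contra ne
    have := h1 t
    have := Multiset.nodup_iff_count_le_one.1 hu t
    have := Multiset.one_le_count_iff_mem.2 ht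
    simp only [Multiset.count_add, Multiset.count_replicate, if_neg (Ne.symm ne)] at *
    omega
  have := h1 e
  rw [h4] at this
  simp [Multiset.count_eq_zero_of_notMem he] at this h2
  omega

end Cfsg.Agent.Class.Elus
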