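import Cfsg.Agent.Class.Elus.Char2
import Cfsg.Agent.Class.Wall.OrthOdd

/-!
# Unipotent elements of prime order fixing non-degenerate subspaces
-/

set_option autoImplicit false

namespace Cfsg.Agent.Class.Elus

open Polynomial Module Wall
open Cfsg.Agent.KSG (Sim IsPP elemDiv cycFac)
open Cfsg.Agent.Class.Orth (SqClass sqClass)

variable {F V V₁ V₂ : Type*} [Field F] [AddCommGroup V] [Module F V] [AddCommGroup V₁]
  [Module F V₁] [AddCommGroup V₂] [Module F V₂] {ε : F} {π : F →+ F}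
  {B : LinearMap.BilinForm F V} {Q : V → F} {B₁ : LinearMap.BilinForm F V₁} {Q₁ : V₁ → F}
  {B₂ : LinearMap.BilinForm F V₂} {Q₂ : V₂ → F} {g : End F V} {p : ℕ} {μ ν : Multiset ℕ}

variable (F) in
/-- The elementary divisors of a unipotent map with Jordan type `μ`. -/
noncomputable def ub (μ : Multiset ℕ) : Multiset F[X] := μ.map fun e => (X - C 1) ^ e

theorem ub_add : ub F (μ + ν) = ub F μ + ub F ν := Multiset.map_add _ _ _

theorem map_natDegree_ub : (ub F μ).map natDegree = μ := map_natDegree_pow μ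

theorem mem_ub {c : F} {e : ℕ} (he : e ≠ 0) : (X - C c) ^ e ∈ ub F μ ↔ c = 1 ∧ e ∈ μ := by
  refine ⟨fun h => ?_, by rintro ⟨rfl, h⟩; exact Multiset.mem_map_of_mem _ h⟩
  obtain ⟨k, h1, h2⟩ := Multiset.mem_map.1 h
  obtain ⟨rfl, rfl⟩ := X_sub_C_pow_inj he h2.symm
  exact ⟨rfl, h1⟩

open Classical in
theorem count_ub (e : ℕ) : (ub F μ).count ((X - C 1) ^ e) = μ.count e :=
  Multiset.count_map_eq_count' _ _ X_sub_one_pow_injective e

open Classical in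
theorem even_count_ub {c : F} {e : ℕ} (h : Even (μ.count e)) (h0 : 0 ∉ μ) :
    Even ((ub F μ).count ((X - C c) ^ e)) := by
  by_cases hc : (X - C c) ^ e ∈ ub F μ
  · obtain ⟨k, h1, h2⟩ := Multiset.mem_map.1 hc
    obtain ⟨rfl, rfl⟩ := X_sub_C_pow_inj (fun e => h0 (e ▸ h1)) h2
    rwa [count_ub]
  · rw [Multiset.count_eq_zero_of_notMem hc]; exact Even.zero

theorem isPP_ub (h0 : 0 ∉ μ) : ∀ b ∈ ub F μ, IsPP b := fun b hb => by
  obtain ⟨k, h1, rfl⟩ := Multiset.mem_map.1 hb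
  exact isPP_X_sub_C_pow 1 fun e => h0 (e ▸ h1)

theorem not_X_dvd_ub : ∀ b ∈ ub F μ, ¬ X ∣ b := fun b hb => by
  obtain ⟨k, -, rfl⟩ := Multiset.mem_map.1 hb
  simp [X_dvd_iff, coeff_zero_eq_eval_zero]

theorem map_dual_ub : (ub F μ).map (dual (RingHom.id F)) = ub F μ := by
  rw [ub, Multiset.map_map]
  exact Multiset.map_congr rfl fun e _ => by
    rw [Function.comp, dual_pow, dual_X_sub_C_of_norm (by simp)]

theorem eq_ub_of_add {s t : Multiset F[X]} (h : s + t = ub F μ) :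
    ∃ ν₁ ν₂, μ = ν₁ + ν₂ ∧ s = ub F ν₁ ∧ t = ub F ν₂ := by
  have key : ∀ u : Multiset F[X], (∀ b ∈ u, b ∈ ub F μ) → u = ub F (u.map natDegree) := fun u hu => by
    rw [ub, Multiset.map_map]
    refine (Multiset.map_id u).symm.trans (Multiset.map_congr rfl fun b hb => ?_)
    obtain ⟨k, -, rfl⟩ := Multiset.mem_map.1 (hu b hb)
    simp only [id, Function.comp, natDegree_pow, natDegree_X_sub_C, mul_one]
  exact ⟨_, _, by rw [← Multiset.map_add, h, map_natDegree_ub], key s fun b hb => by simp [← h, hb],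
    key t fun b hb => by simp [← h, hb]⟩

theorem exists_eq_add_self {α : Type*} [DecidableEq α] {s : Multiset α} (h : ∀ a, Even (s.count a)) :
    ∃ t, s = t + t := by
  obtain ⟨v, o, rfl, h1⟩ := exists_eq_add_add_nodup s
  refine ⟨v, add_eq_left.2 (Multiset.eq_zero_of_forall_notMem fun a ha => ?_)⟩
  have := h a
  rw [Multiset.count_add, Multiset.count_add, Multiset.count_eq_one_of_mem h1 ha,
    Nat.even_iff] at this
  omega

theorem eq_of_mem123 (h : ∀ e ∈ ν, e = 1 ∨ e = 2 ∨ e = 3) : ν = Multiset.replicate (ν.count 1) 1 +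
    Multiset.replicate (ν.count 2) 2 + Multiset.replicate (ν.count 3) 3 := by
  ext e
  simp only [Multiset.count_add, Multiset.count_replicate]
  by_cases he : e ∈ ν
  · rcases h e he with rfl | rfl | rfl <;> simp
  · rw [Multiset.count_eq_zero_of_notMem he]
    split_ifs <;> subst_vars <;> simp_all

theorem even_sum_of_even (h : ∀ e ∈ ν, Even e) : Even ν.sum :=
  even_iff_two_dvd.2 (Multiset.dvd_sum fun e he => (h e he).two_dvd)

variable [FiniteDimensional F V] [FiniteDimensional F V₁] [FiniteDimensional F V₂]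

theorem sum_of_elemDiv_eq (h : elemDiv g = ub F μ) : μ.sum = finrank F V := by
  rw [KSG.finrank_eq_sum_elemDiv g, h, map_natDegree_ub]

theorem zero_notMem_of_elemDiv_eq (h : elemDiv g = ub F μ) : 0 ∉ μ := fun h0 =>
  one_notMem_elemDiv g 1 (h ▸ Multiset.mem_map_of_mem _ h0)

theorem pow_char_eq_one_iff [hp : Fact p.Prime] [CharP F p] :
    g ^ p = 1 ↔ ∃ μ, elemDiv g = ub F μ ∧ ∀ e ∈ μ, e ≤ p := by
  have h1 := pow_eq_smul_one_iff_elemDiv g p 1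
  rw [one_smul, show (X ^ p - C 1 : F[X]) = (X - C 1) ^ p by rw [sub_pow_char]; simp] at h1
  rw [h1]
  constructor
  · intro h
    choose! f h2 h3 h4 using fun b hb => (KSG.isPP_of_mem_elemDiv (f := g) hb).eq_pow_of_dvd_pow
      (irreducible_X_sub_C 1) (monic_X_sub_C 1) (h b hb)
    refine ⟨(elemDiv g).map f, ?_, fun e he => ?_⟩
    · rw [ub, Multiset.map_map]
      exact (Multiset.map_id _).symm.trans (Multiset.map_congr rfl h4)
    · obtain ⟨b, hb, rfl⟩ := Multiset.mem_map.1 he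
      exact h3 b hb
  · rintro ⟨μ, h2, h3⟩ b hb
    obtain ⟨k, hk, rfl⟩ := Multiset.mem_map.1 (h2 ▸ hb :)
    exact pow_dvd_pow _ (h3 k hk)

theorem ne_one_of_elemDiv_eq (h : elemDiv g = ub F μ) {e : ℕ} (he : e ∈ μ) (h1 : e ≠ 1) : g ≠ 1 := by
  rintro rfl
  have : (X - C 1 : F[X]) ^ e ∈ elemDiv (1 : End F V) := h ▸ Multiset.mem_map_of_mem _ he
  rw [elemDiv_one] at this
  exact h1 (X_sub_one_pow_injective ((Multiset.eq_of_mem_replicate this).trans (pow_one _).symm))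

theorem isNilpotent_of_elemDiv_eq (h : elemDiv g = ub F μ) : IsNilpotent ((1 : F) • g - 1) :=
  ⟨μ.sum, by
    have := (KSG.aeval_eq_zero_iff_elemDiv g ((X - C 1) ^ μ.sum)).2 fun b hb => by
      obtain ⟨k, hk, rfl⟩ := Multiset.mem_map.1 (h ▸ hb :)
      exact pow_dvd_pow _ (Multiset.single_le_sum (fun _ _ => Nat.zero_le _) k hk)
    rwa [map_pow, map_sub, aeval_X, aeval_C, map_one, ← one_smul F g] at this⟩

/-- An invariant subspace splits the Jordan type. -/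
theorem exists_split_of_isoS (T : FType (RingHom.id F) ε π) (h : IsTF (RingHom.id F) B Q ε π)
    (h₁ : IsTF (RingHom.id F) B₁ Q₁ ε π) (h₂ : IsTF (RingHom.id F) B₂ Q₂ ε π)
    (hV : IsSum B₁ Q₁ B₂ Q₂ B Q) (hg : Pres B Q g) (hμ : elemDiv g = ub F μ)
    (H : ∃ W, IsoS B Q B₁ Q₁ W ∧ Inv g W) : ∃ g₁ g₂ ν₁ ν₂, Pres B₁ Q₁ g₁ ∧ Pres B₂ Q₂ g₂ ∧
      IsoSim (prodB B₁ B₂) (fun x => Q₁ x.1 + Q₂ x.2) (g₁.prodMap g₂) B Q g ∧ μ = ν₁ + ν₂ ∧
      elemDiv g₁ = ub F ν₁ ∧ elemDiv g₂ = ub F ν₂ := by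
  obtain ⟨g₁, g₂, a1, a2, a3⟩ := (exists_isoS_iff_isoSim T h h₁ h₂ hV hg).1 H
  obtain ⟨ν₁, ν₂, b⟩ := eq_ub_of_add (by rw [← hμ, ← a3.sim.elemDiv_eq, Wall.elemDiv_prodMap])
  exact ⟨g₁, g₂, ν₁, ν₂, a1, a2, a3, b⟩

/-! ### Orthogonal spaces -/

theorem IsOS.even_count (h2 : (2 : F) ≠ 0) (h : IsOS B Q) (hg : Pres B Q g)
    (hμ : elemDiv g = ub F μ) (e : ℕ) (he : Even e) : Even (μ.count e) := by
  rw [← count_ub (F := F), ← hμ]
  exact h.toHerm.even_count_of_symm h2 hg.map_B (one_mul 1) he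

theorem exists_plus_ub (h0 : 0 ∉ ν) : ∃ (n : ℕ) (B : LinearMap.BilinForm F ((Fin n → F) × (Fin n → F)))
    (Q : _ → F) (g : End F _), IsOS B Q ∧ Plus F Q ∧ Pres B Q g ∧ elemDiv g = ub F (ν + ν) := by
  obtain ⟨g, hg⟩ := KSG.exists_elemDiv_eq (V := Fin ν.sum → F) (isPP_ub (F := F) h0)
    (by simp [map_natDegree_ub])
  obtain ⟨B, h⟩ := exists_nd (σ := RingHom.id F) (fun _ => rfl) (Fin ν.sum → F)
  obtain ⟨k, hk⟩ := ((KSG.isUnit_iff_elemDiv g).2 (hg ▸ not_X_dvd_ub)).exists_right_inv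
  exact ⟨_, _, _, _, fType_orth.isTF_hypB h, plus_hypB B, pres_hypB h hk, by
    rw [Wall.elemDiv_prodMap, h.elemDiv_adj hk, hg, map_dual_ub, ub_add]⟩

variable [Finite F]

theorem IsOS.odd_or_plus (h2 : (2 : F) ≠ 0) (h : IsOS B Q) (hg : Pres B Q g)
    (hμ : elemDiv g = ub F μ) : (∃ e ∈ μ, Odd e) ∨ Plus F Q := by
  refine or_iff_not_imp_left.2 fun ho => ?_
  obtain ⟨ν, rfl⟩ := exists_eq_add_self (s := μ) fun e => e.even_or_odd.elim
    (IsOS.even_count h2 h hg hμ e) fun he => by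
      rw [Multiset.count_eq_zero_of_notMem fun h => ho ⟨e, h, he⟩]; exact Even.zero
  obtain ⟨n, B₀, Q₀, g₀, a1, a2, a3, a4⟩ := exists_plus_ub (F := F) (ν := ν) fun h =>
    zero_notMem_of_elemDiv_eq hμ (by simp [h])
  refine (IsOS.isometric_of_B h2 a1 h (a1.toHerm.isoSim_of_sg h2 h.toHerm a3.map_B hg.map_B
    (KSG.sim_of_elemDiv_eq (a4.trans hμ.symm)) fun c i hc hi => ?_).isometric).plus a2
  have : (X - C c) ^ i ∉ ub F (ν + ν) := fun e => ho ⟨i, ((mem_ub hi.pos.ne').1 e).2, hi⟩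
  rw [sg_eq_one hc (a4 ▸ this), sg_eq_one hc (hμ ▸ this)]

theorem IsOS.realIn_ub (h2 : (2 : F) ≠ 0) (h : IsOS B Q) (h0 : 0 ∉ μ)
    (hv : ∀ e, Even e → Even (μ.count e)) (hs : μ.sum = finrank F V)
    (ho : (∃ e ∈ μ, Odd e) ∨ Plus F Q) : RealIn B Q (ub F μ) := by
  by_cases ho' : ∃ e ∈ μ, Odd e
  · obtain ⟨e, a1, a2⟩ := ho'
    obtain ⟨n, m, B₀, g, b1, b2, b3, b4⟩ := exists_dsc_eq h2 (isPP_ub h0) not_X_dvd_ub map_dual_ub
      (fun c e _ he => even_count_ub (hv e he) h0) (one_mul 1) a2 ((mem_ub a2.pos.ne').2 ⟨rfl, a1⟩)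
      (dsc B)
    have b5 := b1.isTF_of_two_ne h2
    exact RealIn.of_isometric ⟨g, IsOS.pres_of_B h2 b5 b2, b3⟩
      (IsOS.isometric_of_dsc h2 b5 h ((sum_of_elemDiv_eq b3).symm.trans hs) b4)
  obtain ⟨ν, rfl⟩ := exists_eq_add_self (s := μ) fun e => e.even_or_odd.elim (hv e) fun he => by
    rw [Multiset.count_eq_zero_of_notMem fun h => ho' ⟨e, h, he⟩]; exact Even.zero
  obtain ⟨n, B₀, Q₀, g₀, a1, a2, a3, a4⟩ := exists_plus_ub (F := F) (ν := ν) fun h => h0 (by simp [h])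
  exact RealIn.of_isometric ⟨g₀, a3, a4⟩ (IsOS.isometric_of_plus_iff a1 h
    ((sum_of_elemDiv_eq a4).symm.trans hs) (Plus.even a2) (iff_of_true a2 (ho.resolve_left ho')))

variable [hp : Fact p.Prime] [CharP F p]

theorem IsOS.split_unip (h2 : (2 : F) ≠ 0) (h : IsOS B Q) (h₁ : IsOS B₁ Q₁) (h₂ : IsOS B₂ Q₂)
    (hV : IsSum B₁ Q₁ B₂ Q₂ B Q)
    (H : ∀ g, Pres B Q g → g ^ p = 1 → g ≠ 1 → ∃ W, IsoS B Q B₁ Q₁ W ∧ Inv g W)
    (hμ : ∀ e ∈ μ, 0 < e ∧ e ≤ p) (hv : ∀ e, Even e → Even (μ.count e)) (hs : μ.sum = finrank F V)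
    (ho : (∃ e ∈ μ, Odd e) ∨ Plus F Q) {e : ℕ} (he : e ∈ μ) (h1 : e ≠ 1) :
    ∃ ν₁ ν₂, μ = ν₁ + ν₂ ∧ ν₁.sum = finrank F V₁ ∧ (∀ e, Even e → Even (ν₁.count e)) ∧
      ((∃ e ∈ ν₁, Odd e) ∨ Plus F Q₁) ∧ ((∃ e ∈ ν₂, Odd e) ∨ Plus F Q₂) := by
  obtain ⟨g, a1, a2⟩ := IsOS.realIn_ub h2 h (fun h => (hμ 0 h).1.ne rfl) hv hs ho
  obtain ⟨g₁, g₂, ν₁, ν₂, b1, b2, -, b4, b5, b6⟩ := exists_split_of_isoS fType_orth h h₁ h₂ hV a1 a2
    (H g a1 (pow_char_eq_one_iff.2 ⟨μ, a2, fun e he => (hμ e he).2⟩) (ne_one_of_elemDiv_eq a2 he h1))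
  exact ⟨ν₁, ν₂, b4, sum_of_elemDiv_eq b5, IsOS.even_count h2 h₁ b1 b5, IsOS.odd_or_plus h2 h₁ b1 b5,
    IsOS.odd_or_plus h2 h₂ b2 b6⟩

/-- The sub-partition condition. -/
theorem IsOS.exists_le_unip (h2 : (2 : F) ≠ 0) (h : IsOS B Q) (h₁ : IsOS B₁ Q₁)
    (hlt : finrank F V₁ < finrank F V)
    (H : ∀ g, Pres B Q g → g ^ p = 1 → g ≠ 1 → ∃ W, IsoS B Q B₁ Q₁ W ∧ Inv g W)
    (hμ : ∀ e ∈ μ, 0 < e ∧ e ≤ p) (hv : ∀ e, Even e → Even (μ.count e)) (hs : μ.sum = finrank F V)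
    (ho : (∃ e ∈ μ, Odd e) ∨ Plus F Q) :
    ∃ ν ≤ μ, ν.sum = finrank F V₁ ∧ ∀ e, Even e → Even (ν.count e) := by
  obtain ⟨n, B₂, Q₂, h₂, hV⟩ := IsOS.exists_isSum h₁ h hlt
  by_cases h1 : ∀ e ∈ μ, e = 1
  · obtain ⟨k, rfl⟩ : ∃ k, μ = Multiset.replicate k 1 := ⟨_, Multiset.eq_replicate_of_mem h1⟩
    refine ⟨Multiset.replicate (finrank F V₁) 1, (Multiset.replicate_le_replicate _).2 ?_, by simp,
      fun e he => ?_⟩
    · simp at hs; omega
    · rw [Multiset.count_replicate, if_neg (by rintro rfl; simp at he)]; exact Even.zero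
  push Not at h1
  obtain ⟨e, he, h1⟩ := h1
  obtain ⟨ν₁, ν₂, rfl, a1, a2, -⟩ := IsOS.split_unip h2 h h₁ h₂ hV H hμ hv hs ho he h1
  exact ⟨ν₁, Multiset.le_add_right _ _, a1, a2⟩

omit [Finite F] in
theorem three_le_char (h2 : (2 : F) ≠ 0) : 3 ≤ p :=
  hp.out.two_le.lt_of_ne' ((two_ne_zero_iff_char F p).1 h2)

theorem le_cons_cases {α : Type*} {s t : Multiset α} {a : α} (h : s ≤ a ::ₘ t) :
    s ≤ t ∨ ∃ s', s = a ::ₘ s' ∧ s' ≤ t := by
  by_cases ha : a ∈ s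
  · obtain ⟨s', rfl⟩ := Multiset.exists_cons_of_mem ha
    exact Or.inr ⟨s', rfl, (Multiset.cons_le_cons_iff a).1 h⟩
  · exact Or.inl ((Multiset.le_cons_of_notMem ha).1 h)

theorem IsOS.exists_le_unip_minus (h2 : (2 : F) ≠ 0) (h : IsOS B Q) (h₁ : IsOS B₁ Q₁)
    (hlt : finrank F V₁ < finrank F V) (he₁ : Even (finrank F V₁)) (hp₁ : ¬ Plus F Q₁)
    (H : ∀ g, Pres B Q g → g ^ p = 1 → g ≠ 1 → ∃ W, IsoS B Q B₁ Q₁ W ∧ Inv g W)
    (hμ : ∀ e ∈ μ, 0 < e ∧ e ≤ p) (hv : ∀ e, Even e → Even (μ.count e)) (hs : μ.sum = finrank F V) :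
    ∃ ν ≤ μ, ν.sum = finrank F V₁ ∧ ∀ e, Even e → Even (ν.count e) := by
  by_cases ho : ∃ e ∈ μ, Odd e
  · exact IsOS.exists_le_unip h2 h h₁ hlt H hμ hv hs (Or.inl ho)
  simp only [not_exists, not_and, Nat.not_odd_iff_even] at ho
  obtain ⟨e, a1⟩ := Multiset.exists_mem_of_ne_zero (s := μ) (by rintro rfl; simp at hs; omega)
  have a2 := ho e a1
  have a3 := hμ e a1
  obtain ⟨t, rfl⟩ : ∃ t, μ = e ::ₘ e ::ₘ t := by
    have := Multiset.count_pos.2 a1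
    obtain ⟨t, ht⟩ := Multiset.le_iff_exists_add.1 ((Multiset.le_count_iff_replicate_le (n := 2)).1
      (show 2 ≤ μ.count e by have := Nat.even_iff.1 (hv e a2); omega))
    exact ⟨t, by simp [ht]⟩
  have a4 := Nat.odd_iff.1 (hp.out.odd_of_ne_two ((two_ne_zero_iff_char F p).1 h2))
  have a5 : ∀ s ≤ t, ∀ f ∈ s, Even f := fun s hs f hf => ho f (by simp [Multiset.mem_of_le hs hf])
  have a6 : ∀ (s : Multiset ℕ) f, Even f → (Even (((e + 1) ::ₘ (e - 1) ::ₘ s).count f) ↔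
      Even ((e ::ₘ e ::ₘ s).count f)) := fun s f hf => by
    simp only [Multiset.count_cons, Nat.even_iff] at *
    split_ifs <;> omega
  obtain ⟨n, B₂, Q₂, h₂, hV⟩ := IsOS.exists_isSum h₁ h hlt
  rw [Nat.even_iff] at a2 he₁
  obtain ⟨ν₁, ν₂, b1, b2, b3, b4, -⟩ := IsOS.split_unip (μ := (e + 1) ::ₘ (e - 1) ::ₘ t) h2 h h₁ h₂
    hV H (fun f hf => by
      simp only [Multiset.mem_cons] at hf
      rcases hf with rfl | rfl | hf
      exacts [by omega, by omega, hμ f (by simp [hf])]) (fun f hf => (a6 t f hf).2 (hv f hf)) (by simp at hs ⊢; omega)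
    (Or.inl ⟨e + 1, by simp, Nat.odd_iff.2 (by omega)⟩) (e := e + 1) (by simp) (by omega)
  obtain ⟨f, c1, c2⟩ := b4.resolve_right hp₁
  rcases le_cons_cases (b1 ▸ Multiset.le_add_right ν₁ ν₂) with d' | ⟨s', rfl, d'⟩ <;>
    rcases le_cons_cases d' with d | ⟨s, rfl, d⟩
  · exact absurd (a5 _ d f c1) (Nat.not_even_iff_odd.2 c2)
  iterate 2
    have := Nat.even_iff.1 (even_sum_of_even (a5 _ d))
    simp at b2; omega
  exact ⟨e ::ₘ e ::ₘ s, by simpa using d, by simp at b2 ⊢; omega, fun f hf => (a6 s f hf).1 (b3 f hf)⟩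

/-- Test elements with blocks of size at most three. -/
theorem IsOS.test_unip (h2 : (2 : F) ≠ 0) (h : IsOS B Q) (h₁ : IsOS B₁ Q₁) (h₂ : IsOS B₂ Q₂)
    (hV : IsSum B₁ Q₁ B₂ Q₂ B Q)
    (H : ∀ g, Pres B Q g → g ^ p = 1 → g ≠ 1 → ∃ W, IsoS B Q B₁ Q₁ W ∧ Inv g W) (a j k : ℕ)
    (hs : j + 4 * (a + 1) + 3 * k = finrank F V) (ho : 0 < j + k ∨ Plus F Q) :
    ∃ j₁ ≤ j, ∃ k₁ ≤ k, finrank F V₁ % 4 = (j₁ + 3 * k₁) % 4 ∧ (0 < j₁ + k₁ ∨ Plus F Q₁) ∧
      (j₁ + k₁ < j + k ∨ Plus F Q₂) := by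
  have h3 := three_le_char (p := p) h2
  set μ := Multiset.replicate j 1 + Multiset.replicate (2 * (a + 1)) 2 + Multiset.replicate k 3 with hμ
  have h4 : ∀ e ∈ μ, e = 1 ∨ e = 2 ∨ e = 3 := fun e he => by
    simp only [hμ, Multiset.mem_add, Multiset.mem_replicate] at he; omega
  obtain ⟨ν₁, ν₂, a1, a2, a3, a4, a5⟩ := IsOS.split_unip (μ := μ) h2 h h₁ h₂ hV H
    (fun e he => by have := h4 e he; omega) (fun e he => by
      simp only [hμ, Multiset.count_add, Multiset.count_replicate, Nat.even_iff] at he ⊢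
      split_ifs <;> omega) (by simp [hμ]; omega) (ho.imp_left fun ho => by
      rcases Nat.eq_zero_or_pos j with rfl | hj
      · exact ⟨3, by simp [hμ, Multiset.mem_replicate]; omega, by decide⟩
      · exact ⟨1, by simp [hμ, Multiset.mem_replicate]; omega, odd_one⟩) (e := 2)
    (by simp [hμ, Multiset.mem_replicate]) (by simp)
  have c1 := congrArg (Multiset.count 1) a1
  have c3 := congrArg (Multiset.count 3) a1
  have key : ∀ ν : Multiset ℕ, ν ≤ μ → (∃ e ∈ ν, Odd e) → 0 < ν.count 1 + ν.count 3 := by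
    rintro ν hν ⟨e, b1, b2⟩
    have := Multiset.count_pos.2 b1
    rcases h4 e (Multiset.mem_of_le hν b1) with rfl | rfl | rfl
    exacts [by omega, absurd b2 (by decide), by omega]
  have d1 := a4.imp_left (key ν₁ (by simp [a1]))
  have d2 := a5.imp_left (key ν₂ (by simp [a1]))
  have d3 := congrArg Multiset.sum (eq_of_mem123 (ν := ν₁) fun e he => h4 e (by simp [a1, he]))
  have d4 := Nat.even_iff.1 (a3 2 even_two)
  simp [hμ, Multiset.count_replicate] at c1 c3 d3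
  exact ⟨ν₁.count 1, by omega, ν₁.count 3, by omega, by omega, d1, d2.imp_left (by omega)⟩

/-- Odd-dimensional subspaces of even-dimensional spaces. -/
theorem IsOS.not_forall_unip_odd (h : IsOS B Q) (h₁ : IsOS B₁ Q₁) (hn : Even (finrank F V))
    (h8 : 8 ≤ finrank F V) (hm : Odd (finrank F V₁)) (hlt : finrank F V₁ < finrank F V) :
    ¬ ∀ g, Pres B Q g → g ^ p = 1 → g ≠ 1 → ∃ W, IsoS B Q B₁ Q₁ W ∧ Inv g W := by
  classical
  intro H
  have h2 := IsOS.two_ne_of_odd h₁ hm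
  have h3 := three_le_char (p := p) h2
  obtain ⟨n, B₂, Q₂, h₂, hV⟩ := IsOS.exists_isSum h₁ h hlt
  have hd := hV.finrank_eq
  rw [Nat.even_iff] at hn
  have hm' := Nat.odd_iff.1 hm
  by_cases h4 : finrank F V % 4 = 2
  · obtain ⟨j, a1, k, a2, a3, -⟩ := IsOS.test_unip h2 h h₁ h₂ hV H (finrank F V / 4 - 1) 2 0
      (by omega) (by omega)
    obtain ⟨j', b1, k', b2, b3, -⟩ := IsOS.test_unip h2 h h₁ h₂ hV H (finrank F V / 4 - 2) 0 2
      (by omega) (by omega)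
    omega
  set μ := Multiset.replicate 1 1 + Multiset.replicate (finrank F V / 2 - 2) 2 +
    Multiset.replicate 1 3 with hμ
  have h5 : ∀ e ∈ μ, e = 1 ∨ e = 2 ∨ e = 3 := fun e he => by
    simp only [hμ, Multiset.mem_add, Multiset.mem_replicate] at he; omega
  set e := finrank F V₁ % 4 with he
  have ho : Odd e := by rw [Nat.odd_iff]; omega
  have key : ∀ g, Pres B Q g → elemDiv g = ub F μ → ∃ g₁ g₂ ν₂, Pres B₁ Q₁ g₁ ∧ Pres B₂ Q₂ g₂ ∧
      elemDiv g₁ = ub F (e ::ₘ Multiset.replicate (finrank F V₁ / 4 * 2) 2) ∧ elemDiv g₂ = ub F ν₂ ∧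
      μ = (e ::ₘ Multiset.replicate (finrank F V₁ / 4 * 2) 2) + ν₂ ∧ e ∉ ν₂ ∧
      sg B g 1 e = sg B₁ g₁ 1 e := by
    intro g a1 a2
    obtain ⟨g₁, g₂, ν₁, ν₂, b1, b2, b3, b4, b5, b6⟩ := exists_split_of_isoS fType_orth h h₁ h₂ hV a1
      a2 (H g a1 (pow_char_eq_one_iff.2 ⟨μ, a2, fun e he => by have := h5 e he; omega⟩)
        (ne_one_of_elemDiv_eq a2 (e := 3) (by simp [hμ]) (by simp)))
    have c1 := congrArg (Multiset.count 1) b4
    have c3 := congrArg (Multiset.count 3) b4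
    have d0 := eq_of_mem123 (ν := ν₁) fun e he => h5 e (by simp [b4, he])
    have d1 := congrArg Multiset.sum d0
    have d2 := Nat.even_iff.1 (IsOS.even_count h2 h₁ b1 b5 2 even_two)
    rw [sum_of_elemDiv_eq b5] at d1
    simp [hμ, Multiset.count_replicate] at c1 c3 d1
    have d3 : ν₁.count 2 = finrank F V₁ / 4 * 2 := by omega
    have d4 : ν₁ = e ::ₘ Multiset.replicate (finrank F V₁ / 4 * 2) 2 ∧ e ∉ ν₂ := by
      rw [← Multiset.count_eq_zero, d0, d3]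
      rcases (by omega : ν₁.count 1 = 1 ∧ ν₁.count 3 = 0 ∧ e = 1 ∨
        ν₁.count 1 = 0 ∧ ν₁.count 3 = 1 ∧ e = 3) with ⟨e1, e2, e3⟩ | ⟨e1, e2, e3⟩ <;>
        rw [e3] <;> refine ⟨?_, by omega⟩ <;> simp [e1, e2, add_comm, ← Multiset.singleton_add]
    refine ⟨g₁, g₂, ν₂, b1, b2, d4.1 ▸ b5, b6, d4.1 ▸ b4, d4.2, ?_⟩
    rw [← b3.sg_eq h.toHerm a1.map_B (one_mul 1), h₁.toHerm.sg_prod h₂.toHerm b1.map_B b2.map_B
      (one_mul 1), sg_eq_one (g := g₂) (one_mul 1) (by rw [b6, mem_ub ho.pos.ne']; tauto), mul_one]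
  obtain ⟨g, a1, a2⟩ := IsOS.realIn_ub (μ := μ) h2 h (fun h => by simpa using h5 0 h)
    (fun e he => by
      simp only [hμ, Multiset.count_add, Multiset.count_replicate, Nat.even_iff] at he ⊢
      split_ifs <;> omega) (by simp [hμ]; omega) (Or.inl ⟨1, by simp [hμ], odd_one⟩)
  obtain ⟨g₁, g₂, ν₂, b1, b2, b3, b4, b5, b6, -⟩ := key g a1 a2
  obtain ⟨s, hs⟩ := Orth.exists_sqClass_ne_one h2
  obtain ⟨c, hc, rfl⟩ := Orth.sqClass_surjective s
  have k1 := IsOS.smul h₁ hc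
  have k2 := IsOS.smul h₂ hc
  have k3 := IsOS.pres_of_Q k1 (g := g₁) fun x => by rw [b1.map_Q]
  have k4 := IsOS.pres_of_Q k2 (g := g₂) fun x => by rw [b2.map_Q]
  obtain ⟨g', c1, c2⟩ := (IsOS.isometric_of_dsc h2 (k1.prod k2) h (by rw [finrank_prod, hd]) (by
    rw [k1.toHerm.dsc_prodB k2.toHerm, h₁.toNd.dsc_smul hc, h₂.toNd.dsc_smul hc,
      sqClass_pow_odd _ hm, sqClass_pow_odd _ (Nat.odd_iff.2 (by omega)), mul_mul_mul_comm,
      Orth.sqClass_mul_self, one_mul, hV.dsc_eq h h₁ h₂])).exists_isoSim (k3.prod k4)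
  obtain ⟨g₁', g₂', ν₂', d1, -, d3, -, -, -, d7⟩ := key g' c1 (by
    rw [← c2.sim.elemDiv_eq, Wall.elemDiv_prodMap, b3, b4, ← ub_add, ← b5])
  have d8 := h₁.toHerm.sg_eq_of_others h2 h₁.toHerm d1.map_B b1.map_B
    (KSG.sim_of_elemDiv_eq (d3.trans b3.symm)) rfl (one_mul 1) ho fun d i hd hi hne => by
      have : (X - C d) ^ i ∉ ub F (e ::ₘ Multiset.replicate (finrank F V₁ / 4 * 2) 2) := fun h => by
        obtain ⟨rfl, hm⟩ := (mem_ub hi.pos.ne').1 h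
        rcases Multiset.mem_cons.1 hm with rfl | hm
        · exact hne ⟨rfl, rfl⟩
        · exact absurd (Multiset.eq_of_mem_replicate hm ▸ hi) (by decide)
      rw [sg_eq_one hd (d3 ▸ this), sg_eq_one hd (b3 ▸ this)]
  rw [← c2.sg_eq h.toHerm c1.map_B (one_mul 1), k1.toHerm.sg_prod k2.toHerm k3.map_B k4.map_B
    (one_mul 1), sg_eq_one (g := g₂) (one_mul 1) (by rw [b4, mem_ub ho.pos.ne']; tauto), mul_one,
    h₁.toHerm.sg_smul b1.map_B (one_mul 1) hc, d8, b3, count_ub, Multiset.count_cons_self,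
    Multiset.count_replicate, if_neg (by omega), zero_add, pow_one, mul_eq_right] at d7
  exact hs d7

end Cfsg.Agent.Class.Elus
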