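import Cfsg.Agent.Class.Elus.Symp2
import Cfsg.Agent.Class.Elus.UComb

/-!
# Elements of prime order modulo scalars in special unitary groups
-/

set_option autoImplicit false

namespace Cfsg.Agent.Class.Elus

open Polynomial Module Wall
open Cfsg.Agent.KSG (Sim IsPP elemDiv cycFac)

variable {F V V₁ V₂ : Type*} [Field F] [AddCommGroup V] [Module F V] [AddCommGroup V₁]
  [Module F V₁] [AddCommGroup V₂] [Module F V₂] {q : ℕ} [U.UF F q]
  {B : V →ₛₗ[U.conj F q] V →ₗ[F] F} {Q : V → F} {B₁ : V₁ →ₛₗ[U.conj F q] V₁ →ₗ[F] F} {Q₁ : V₁ → F}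
  {B₂ : V₂ →ₛₗ[U.conj F q] V₂ →ₗ[F] F} {Q₂ : V₂ → F} {g : End F V} {r m n : ℕ} {z : F}

theorem fType_u : FType (U.conj F q) 1 (trU F q) :=
  ⟨U.conj_conj, by simp, fun a => by simp [U.conj_conj, add_comm],
    fun a c => by simp [U.conj_conj]; ring, fun c h => by simpa using h⟩

/-- Unitary spaces. -/
abbrev IsUS (q : ℕ) [U.UF F q] (B : V →ₛₗ[U.conj F q] V →ₗ[F] F) (Q : V → F) : Prop :=
  IsTF (U.conj F q) B Q 1 (trU F q)

theorem isUS_hermB (n : ℕ) : IsUS q (hermB n F q) fun x => hermB n F q x x :=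
  have h := isHermSpace_hermB n F q
  ⟨h.herm, h.add, h.smul, fun x => (h.range x).imp fun c hc => ⟨hc.symm, by simpa using hc.symm⟩⟩

theorem IsUS.eq (h : IsUS q B Q) : Q = fun x => B x x := funext fun x => by
  obtain ⟨c, h1, h2⟩ := h.self x
  simp [h1, h2]

theorem IsUS.pres (h : IsUS q B Q) (hg : ∀ x y, B (g x) (g y) = B x y) : Pres B Q g :=
  ⟨hg, fun _ => by simp [IsUS.eq h, hg]⟩

theorem IsUS.pres_smul (h : IsUS q B Q) (hg : Pres B Q g) (hz : z ^ (q + 1) = 1) :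
    Pres B Q (z • g) := IsUS.pres h fun x y => by
  simp [hg.map_B, ← mul_assoc, U.mul_conj_eq_pow, hz]

theorem IsUS.norm_of_pres [Nontrivial V] (h : IsUS q B Q) (hz : Pres B Q (z • 1)) :
    z ^ (q + 1) = 1 := by
  obtain ⟨x, hx⟩ := exists_ne (0 : V)
  by_contra h1
  refine hx (h.left x fun y => ?_)
  have := hz.map_B x y
  simp only [LinearMap.smul_apply, End.one_apply, map_smulₛₗ, smul_eq_mul, RingHom.id_apply,
    ← mul_assoc, U.mul_conj_eq_pow] at this
  exact (mul_left_eq_self₀.1 this).resolve_left h1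

theorem IsUS.tss_iff (h : IsUS q B Q) {W : Submodule F V} :
    TSS B Q W ↔ ∀ x ∈ W, ∀ y ∈ W, B x y = 0 :=
  and_iff_left_of_imp fun H x hx => by simp [IsUS.eq h, H x hx x hx]

variable [FiniteDimensional F V] [FiniteDimensional F V₁] [FiniteDimensional F V₂]

theorem IsUS.isometric (h : IsUS q B Q) (h₁ : IsUS q B₁ Q₁) (hd : finrank F V = finrank F V₁) :
    Isometric B Q B₁ Q₁ := by
  obtain rfl := IsUS.eq h
  obtain rfl := IsUS.eq h₁
  exact h.toHerm.isHermSpace.isometric h₁.toHerm.isHermSpace hd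

theorem IsUS.simCl (h : IsUS q B Q) (hg : Pres B Q g) : SimCl B Q g := fun g' hg' e => by
  obtain rfl := IsUS.eq h
  exact h.toHerm.isHermSpace.isoSim h.toHerm.isHermSpace hg.map_B hg'.map_B (KSG.sim_of_elemDiv_eq e)

theorem IsUS.realIn (h : IsUS q B Q) {s : Multiset F[X]} (hs : ∀ b ∈ s, IsPP b)
    (hX : ∀ b ∈ s, ¬ X ∣ b) (hd : s.map (dual (U.conj F q)) = s)
    (hn : (s.map natDegree).sum = finrank F V) : RealIn B Q s := by
  obtain ⟨A, hA⟩ := exists_GU_mdiv_eq hs hX hn hd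
  exact RealIn.of_isometric ⟨_, IsUS.pres (isUS_hermB _) fun x y => A.2 y x, hA⟩
    (IsUS.isometric (isUS_hermB _) h (by simp))

theorem IsUS.realIn_of_le (h₁ : IsUS q B₁ Q₁) (h : IsUS q B Q) (hg : Pres B Q g)
    {s t : Multiset F[X]} (e : elemDiv g = s + t) (hd : s.map (dual (U.conj F q)) = s)
    (hn : (t.map natDegree).sum = finrank F V₁) : RealIn B₁ Q₁ t := by
  have h1 := h.toNd.map_dual_elemDiv hg.map_B
  rw [e, Multiset.map_add, hd, add_right_inj] at h1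
  exact IsUS.realIn h₁ (fun b hb => KSG.isPP_of_mem_elemDiv (f := g) (by simp [e, hb]))
    (fun b hb => (KSG.isUnit_iff_elemDiv g).1 (hg.isUnit h.toNd) b (by simp [e, hb])) h1 hn

theorem IsUS.isoS_iff (h : IsUS q B Q) (h₁ : IsUS q B₁ Q₁) (W : Submodule F V) :
    IsoS B Q B₁ Q₁ W ↔ finrank F W = finrank F V₁ ∧ ∀ u ∈ W, u ≠ 0 → ∃ v ∈ W, B v u ≠ 0 := by
  have : W ⊓ perp B W = ⊥ ↔ ∀ u ∈ W, u ≠ 0 → ∃ v ∈ W, B v u ≠ 0 := by
    rw [eq_bot_iff]
    refine ⟨fun H u h1 h2 => ?_, fun H u ⟨h1, h2⟩ => ?_⟩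
    · by_contra! h3
      exact h2 (H ⟨h1, h3⟩)
    · by_contra h3
      obtain ⟨v, a1, a2⟩ := H u h1 h3
      exact a2 (h2 v a1)
  rw [← this]
  exact ⟨fun e => ⟨e.finrank_eq, e.inf_perp h₁.toNd⟩,
    fun e => IsUS.isometric (isTF_restrict fType_u h e.2) h₁ e.1⟩

theorem IsUS.isSum (h₁ : IsUS q B₁ Q₁) (h₂ : IsUS q B₂ Q₂) (h : IsUS q B Q)
    (hd : finrank F V₁ + finrank F V₂ = finrank F V) : IsSum B₁ Q₁ B₂ Q₂ B Q :=
  IsUS.isometric (h₁.prod h₂) h (by rw [finrank_prod, hd])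

theorem IsUS.exists_isHSum (h : IsUS q B Q) (hm : 2 * m ≤ finrank F V) :
    ∃ (B₀ : (Fin m → F) →ₛₗ[U.conj F q] (Fin m → F) →ₗ[F] F) (h₀ : Nd (U.conj F q) B₀),
      IsHSum 1 (trU F q) h₀ (hermB (finrank F V - 2 * m) F q) (fun x => hermB _ F q x x) B Q := by
  obtain ⟨B₀, h₀⟩ := exists_nd (σ := U.conj F q) U.conj_conj (Fin m → F)
  exact ⟨B₀, h₀, IsUS.isSum (fType_u.isTF_hypB h₀) (isUS_hermB _) h (by simp; omega)⟩

theorem IsUS.exists_isoS_iff (h : IsUS q B Q) (h₁ : IsUS q B₁ Q₁) (hg : Pres B Q g) :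
    (∃ W, IsoS B Q B₁ Q₁ W ∧ Inv g W) ↔
      PN (dual (U.conj F q)) natDegree (finrank F V₁) (elemDiv g) := by
  have key : finrank F V₁ ≤ finrank F V → _ := fun hd => Elus.exists_isoS_iff fType_u h h₁
    (isUS_hermB (finrank F V - finrank F V₁)) (IsUS.isSum h₁ (isUS_hermB _) h (by simp; omega)) hg
    (IsUS.simCl h hg)
  constructor
  · intro H
    obtain ⟨s, t, a1, -, a3⟩ := (key (by
      obtain ⟨W, a, -⟩ := H
      exact a.finrank_eq ▸ W.finrank_le)).1 H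
    exact ⟨s, a3 ▸ Multiset.le_add_right _ _, a1.map_dual h₁.toNd, a1.sum_natDegree⟩
  · rintro ⟨s, a1, a2, a3⟩
    obtain ⟨t, e⟩ := Multiset.le_iff_exists_add.1 a1
    have a4 := KSG.finrank_eq_sum_elemDiv g
    rw [e, Multiset.map_add, Multiset.sum_add] at a4
    have b := IsUS.realIn_of_le (isUS_hermB (finrank F V - finrank F V₁)) h hg e a2 (by simp; omega)
    exact (key (by omega)).2 ⟨s, t, IsUS.realIn_of_le h₁ h hg (e.trans (add_comm _ _))
      (b.map_dual (isUS_hermB _).toNd) a3, b, e⟩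

theorem map_dual_add {σ : F →+* F} (hσ : ∀ a, σ (σ a) = a) {ν : Multiset F[X]} (hs : ∀ b ∈ ν, IsPP b)
    (hX : ∀ b ∈ ν, ¬ X ∣ b) : (ν.map (dual σ) + ν).map (dual σ) = ν.map (dual σ) + ν := by
  rw [Multiset.map_add, Multiset.map_map, add_comm, Multiset.map_congr rfl (g := id)
    (f := dual σ ∘ dual σ) fun b hb => dual_dual hσ (hs b hb).monic (mt X_dvd_iff.2 (hX b hb)),
    Multiset.map_id]

theorem IsUS.exists_tss_iff (h : IsUS q B Q) (hg : Pres B Q g) (hr : (r : F) ≠ 0) (hz : z ≠ 0)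
    (e : g ^ r = z • 1) : (∃ W : Submodule F V, (finrank F W = m ∧ TSS B Q W) ∧ Inv g W) ↔
      PT (dual (U.conj F q)) natDegree m (elemDiv g) := by
  have key : 2 * m ≤ finrank F V → ((∃ W : Submodule F V, (finrank F W = m ∧ TSS B Q W) ∧ Inv g W) ↔
      ∃ ν s₂, (ν.map natDegree).sum = m ∧ RealIn (hermB (finrank F V - 2 * m) F q)
        (fun x => hermB _ F q x x) s₂ ∧ elemDiv g = ν.map (dual (U.conj F q)) + ν + s₂) := fun hd => by
    obtain ⟨B₀, h₀, hV⟩ := IsUS.exists_isHSum h hd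
    simpa only [finrank_fin_fun] using Elus.exists_tss_iff fType_u hV h (isUS_hermB _) hg
      (IsUS.simCl h hg) (squarefree_X_pow_sub_C hr hz) ((aeval_X_pow_sub_C_eq_zero_iff _ _ _).2 e)
  constructor
  · intro H
    obtain ⟨ν, t, a1, -, a3⟩ := (key (by
      obtain ⟨W, ⟨rfl, a⟩, -⟩ := H
      exact WallF.two_mul_finrank_le (h.isFormed fType_u) a.1)).1 H
    exact ⟨ν, a3 ▸ Multiset.le_add_right _ _, a1⟩
  · rintro ⟨ν, a1, a3⟩
    obtain ⟨t, e⟩ := Multiset.le_iff_exists_add.1 a1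
    have hX : ∀ b ∈ ν, ¬ X ∣ b := fun b hb =>
      (KSG.isUnit_iff_elemDiv g).1 (hg.isUnit h.toNd) b (by simp [e, hb])
    have a4 := KSG.finrank_eq_sum_elemDiv g
    rw [e, Multiset.map_add, Multiset.sum_add, Multiset.map_add, Multiset.sum_add, Multiset.map_map,
      Multiset.map_congr rfl (f := natDegree ∘ dual _) (g := natDegree)
        fun b hb => natDegree_dual (mt X_dvd_iff.2 (hX b hb))] at a4
    exact (key (by omega)).2 ⟨ν, t, a3, IsUS.realIn_of_le (isUS_hermB _) h hg e (map_dual_add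
      U.conj_conj (fun b hb => KSG.isPP_of_mem_elemDiv (f := g) (by simp [e, hb])) hX)
      (by simp; omega), e⟩

/-! ### Determinants -/

omit [U.UF F q] in
theorem det_eq_of_elemDiv (g : End F V) :
    LinearMap.det g = (-1) ^ finrank F V * ((elemDiv g).map (coeff · 0)).prod := by
  rw [LinearMap.det_eq_sign_charpoly_coeff, KSG.charpoly_eq_prod_elemDiv, coeff_zero_multiset_prod]

theorem IsUS.norm_det (h : IsUS q B Q) (hg : Pres B Q g) : LinearMap.det g ^ (q + 1) = 1 := by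
  have h1 := congrArg (coeff · 0) (h.toNd.dual_charpoly hg.map_B)
  have h2 := (LinearMap.isUnit_iff_isUnit_det _).1 (hg.isUnit h.toNd)
  simp only [coeff_zero_dual, (LinearMap.charpoly_monic g).leadingCoeff, map_one, mul_one] at h1
  rw [LinearMap.det_eq_sign_charpoly_coeff] at h2 ⊢
  rw [← U.mul_conj_eq_pow, map_mul, map_pow, map_neg, map_one, mul_mul_mul_comm, ← mul_pow,
    inv_eq_iff_eq_inv.1 h1, mul_inv_cancel₀ (right_ne_zero_of_mul h2.ne_zero)]
  simp

/-! ### The norm one group -/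

section Norm

omit [FiniteDimensional F V] [FiniteDimensional F V₁] [FiniteDimensional F V₂]

theorem exists_orderOf_eq_succ : ∃ ω : F, IsPrimitiveRoot ω (q + 1) := by
  have := U.UF.finite (F := F) q
  have h2 := U.two_le_q F q
  obtain ⟨g, hg⟩ := IsCyclic.exists_ofOrder_eq_natCard (α := Fˣ)
  refine ⟨(g ^ (q - 1) : Fˣ), IsPrimitiveRoot.coe_units_iff.2 ?_⟩
  exact (hg ▸ IsPrimitiveRoot.orderOf g).pow (by rw [U.card_units F q]; exact Nat.mul_pos (by omega) (by omega))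
    (by rw [U.card_units F q, mul_comm])

theorem exists_pow_eq_of_coprime' (h : r.Coprime (q + 1)) (hz : z ^ (q + 1) = 1) :
    ∃ c : F, c ^ (q + 1) = 1 ∧ c ^ r = z := by
  obtain ⟨k, -, hk⟩ := Nat.exists_mul_mod_eq_one_of_coprime h (by have := U.two_le_q F q; omega)
  refine ⟨z ^ k, by rw [pow_right_comm, hz, one_pow], ?_⟩
  rw [← pow_mul, mul_comm, ← Nat.div_add_mod (r * k) (q + 1), pow_add, pow_mul, hz, hk]; simp

theorem exists_nonpow_norm_iff [hr : Fact r.Prime] (h : r ∣ q + 1) {k : ℕ} (hk : k ≠ 0) :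
    (∃ w : F, w ^ (q + 1) = 1 ∧ (∀ c, c ^ (q + 1) = 1 → c ^ r ≠ w) ∧ w ^ k = 1) ↔
      padicValNat r (q + 1) ≤ padicValNat r k := by
  obtain ⟨ω, hω⟩ := exists_orderOf_eq_succ (F := F) (q := q)
  rw [← padicValNat_dvd_iff_le hk]
  constructor
  · rintro ⟨w, h1, h2, h3⟩
    obtain ⟨j, -, rfl⟩ := hω.eq_pow_of_pow_eq_one h1
    rw [← pow_mul, hω.pow_eq_one_iff_dvd] at h3
    refine (Nat.Coprime.pow_left _ ((Nat.Prime.coprime_iff_not_dvd hr.out).2 ?_)).dvd_of_dvd_mul_left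
      (pow_padicValNat_dvd.trans h3)
    rintro ⟨l, rfl⟩
    exact h2 (ω ^ l) (by rw [pow_right_comm, hω.pow_eq_one, one_pow]) (by rw [pow_mul'])
  · rintro ⟨l, hl⟩
    obtain ⟨j, hj⟩ : r ^ padicValNat r (q + 1) ∣ q + 1 := pow_padicValNat_dvd
    refine ⟨ω ^ j, by rw [pow_right_comm, hω.pow_eq_one, one_pow], fun c h1 h2 => ?_, by
      rw [← pow_mul, hω.pow_eq_one_iff_dvd, hl, ← mul_assoc, mul_comm j, ← hj]; simp⟩
    obtain ⟨a, -, rfl⟩ := hω.eq_pow_of_pow_eq_one h1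
    rw [← pow_mul, (hω.isOfFinOrder (by simp)).pow_eq_pow_iff_modEq, ← hω.eq_orderOf] at h2
    have h3 : r ∣ j := ((h2.of_dvd h).dvd_iff dvd_rfl).1 (by simp)
    refine pow_succ_padicValNat_not_dvd (p := r) (n := q + 1) (by simp) ?_
    conv_rhs => rw [hj]
    exact pow_succ r _ ▸ Nat.mul_dvd_mul_left _ h3

theorem two_ne_zero_of_odd (hq : Odd q) : (2 : F) ≠ 0 := fun h => by
  have := U.UF.finite (F := F) q
  have := Fintype.ofFinite F
  have h1 := FiniteField.cast_card_eq_zero F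
  obtain ⟨k, hk⟩ := hq.pow (n := 2)
  rw [← Nat.card_eq_fintype_card, U.UF.card_eq (q := q), hk] at h1
  simp [h] at h1

theorem exists_pow_eq_neg_one_iff (hq : Odd q) (hn : n ≠ 0) :
    (∃ c : F, c ^ (q + 1) = 1 ∧ c ^ n = -1) ↔ padicValNat 2 n < padicValNat 2 (q + 1) := by
  obtain ⟨ω, hω⟩ := exists_orderOf_eq_succ (F := F) (q := q)
  have h2 : (1 : F) ≠ -1 := fun e => two_ne_zero_of_odd (F := F) hq (by linear_combination e)
  obtain ⟨j, hj⟩ : 2 ^ padicValNat 2 (q + 1) ∣ q + 1 := pow_padicValNat_dvd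
  obtain ⟨l, hl⟩ : 2 ^ padicValNat 2 n ∣ n := pow_padicValNat_dvd
  have odd : ∀ {n l : ℕ}, n ≠ 0 → n = 2 ^ padicValNat 2 n * l → Odd l := fun {n l} hn hl =>
    Nat.not_even_iff_odd.1 fun e => pow_succ_padicValNat_not_dvd (p := 2) hn (by
      conv_rhs => rw [hl]
      exact pow_succ 2 _ ▸ Nat.mul_dvd_mul_left _ e.two_dvd)
  constructor
  · rintro ⟨c, h1, h3⟩
    by_contra! H
    obtain ⟨k, hk⟩ := (padicValNat_dvd_iff_le hn).2 H
    apply h2
    rw [← (odd (by simp) hj).neg_one_pow, ← h3, ← pow_mul, hk, mul_right_comm, ← hj, pow_mul, h1,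
      one_pow]
  · intro H
    obtain ⟨k, hk⟩ := Nat.exists_eq_add_of_lt H
    refine ⟨ω ^ (2 ^ k * j), by rw [pow_right_comm, hω.pow_eq_one, one_pow], ?_⟩
    have h3 := hω.pow (n := q + 1) (a := 2 ^ padicValNat 2 n * 2 ^ k * j) (b := 2) (by simp) (by
      conv_lhs => rw [hj, hk]
      ring)
    rw [← (odd hn hl).neg_one_pow, ← h3.eq_neg_one_of_two_right, ← pow_mul, ← pow_mul]
    congr 1
    conv_lhs => rw [hl]
    ring

variable (F q) in
/-- There is an element of `SU_n(q)` whose `r`-th power is a scalar which is not an `r`-th power. -/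
def NB (r n : ℕ) : Prop := ∃ z : F, z ^ (q + 1) = 1 ∧ (∀ c, c ^ (q + 1) = 1 → c ^ r ≠ z) ∧ r ∣ n ∧
  (-1) ^ n * (-z) ^ (n / r) = 1

omit [U.UF F q] in
theorem padicValNat_div [hr : Fact r.Prime] (hn : n ≠ 0) (h : r ∣ n) :
    n / r ≠ 0 ∧ padicValNat r n = padicValNat r (n / r) + 1 := by
  obtain ⟨k, rfl⟩ := h
  rw [Nat.mul_div_cancel_left _ hr.out.pos, padicValNat.mul hr.out.ne_zero (right_ne_zero_of_mul hn),
    padicValNat_self, add_comm]
  exact ⟨right_ne_zero_of_mul hn, rfl⟩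

theorem nb_iff_odd [hr : Fact r.Prime] (h2 : r ≠ 2) (h : r ∣ q + 1) (hn : n ≠ 0) :
    NB F q r n ↔ padicValNat r (q + 1) < padicValNat r n := by
  by_cases hrn : r ∣ n
  swap
  · simp [NB, hrn, padicValNat.eq_zero_of_not_dvd hrn]
  obtain ⟨a1, a2⟩ := padicValNat_div hn hrn
  have h3 : ∀ z : F, (-1) ^ n * (-z) ^ (n / r) = z ^ (n / r) := fun z => by
    obtain ⟨k, rfl⟩ := hrn
    rw [Nat.mul_div_cancel_left _ hr.out.pos, pow_mul, (hr.out.odd_of_ne_two h2).neg_one_pow,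
      ← mul_pow]
    simp
  rw [a2, Nat.lt_succ_iff, ← exists_nonpow_norm_iff (F := F) h a1]
  simp [NB, hrn, h3]

theorem nb_iff_two (hq : Odd q) (hn : n ≠ 0) : NB F q 2 n ↔
    Even n ∧ (padicValNat 2 (q + 1) < padicValNat 2 n ∨ q % 4 ≠ 3) := by
  by_cases he : Even n
  swap
  · simp [NB, he, ← even_iff_two_dvd]
  obtain ⟨a1, a2⟩ := padicValNat_div hn he.two_dvd
  have h1 := exists_pow_eq_neg_one_iff (F := F) hq two_ne_zero
  rw [padicValNat_self, ← Nat.succ_le_iff, ← padicValNat_dvd_iff_le (by simp),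
    show 2 ^ Nat.succ 1 = 4 from rfl] at h1
  rw [Nat.odd_iff] at hq
  simp only [NB, he, he.two_dvd, he.neg_one_pow, true_and, one_mul]
  by_cases h4 : q % 4 = 3
  · obtain ⟨j, j1, j2⟩ := h1.2 (by omega)
    have h5 : Even (q + 1) := Nat.even_iff.2 (by omega)
    rw [or_iff_left (not_not.2 h4), a2, Nat.lt_succ_iff,
      ← exists_nonpow_norm_iff (F := F) h5.two_dvd a1]
    have key : ∀ z : F, (∀ c, c ^ (q + 1) = 1 → c ^ 2 ≠ z) → ∀ c, c ^ (q + 1) = 1 → c ^ 2 ≠ -z :=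
      fun z h c h1 h2 => h (j * c) (by rw [mul_pow, j1, h1, one_mul]) (by rw [mul_pow, j2, h2]; simp)
    exact ⟨fun ⟨z, b1, b2, b3⟩ => ⟨-z, by rwa [h5.neg_pow], key z b2, b3⟩,
      fun ⟨z, b1, b2, b3⟩ => ⟨-z, by rwa [h5.neg_pow], key z b2, by rwa [neg_neg]⟩⟩
  · exact iff_of_true ⟨-1, (Nat.even_iff.2 (by omega)).neg_one_pow,
      fun c b1 b2 => absurd (h1.1 ⟨c, b1, b2⟩) (by omega), by simp⟩ (Or.inr h4)

end Norm

/-! ### Reduction to two types of elements -/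

/-- Every element of the special unitary group of order `r` modulo scalars has the property `Φ`. -/
def EluU (B : V →ₛₗ[U.conj F q] V →ₗ[F] F) (Q : V → F) (r : ℕ) (Φ : End F V → Prop) : Prop :=
  ∀ g, Pres B Q g → LinearMap.det g = 1 → (∃ z : F, g ^ r = z • 1) → (∀ z : F, g ≠ z • 1) → Φ g

/-- Elements of order `r` with a scalar multiple in the special unitary group. -/
structure TyA (B : V →ₛₗ[U.conj F q] V →ₗ[F] F) (Q : V → F) (r : ℕ) (g : End F V) : Prop where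
  pres : Pres B Q g
  pow : g ^ r = 1
  ne : ∀ z : F, g ≠ z • 1
  det : ∃ c : F, c ^ (q + 1) = 1 ∧ c ^ finrank F V * LinearMap.det g = 1

/-- Elements without scalar multiples of order `r`. -/
structure TyB (B : V →ₛₗ[U.conj F q] V →ₗ[F] F) (Q : V → F) (r : ℕ) (g : End F V) : Prop where
  pres : Pres B Q g
  det : LinearMap.det g = 1
  pow : ∃ z : F, g ^ r = z • 1 ∧ ∀ c, c ^ (q + 1) = 1 → c ^ r ≠ z

omit [FiniteDimensional F V] in
theorem eluU_su_iff (Φ : End F (Fin n → F) → Prop) :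
    (∀ x : Matrix.SpecialLinearGroup (Fin n) F, x ∈ SU n F q → (∃ z : F, (x ^ r).1 = z • 1) →
      (∀ z : F, x.1 ≠ z • 1) → Φ (Matrix.toLin' x.1)) ↔
      EluU (hermB n F q) (fun x => hermB n F q x x) r Φ := by
  constructor
  · intro H g h1 h2 h3 h4
    obtain ⟨A, rfl⟩ := Matrix.toLin'.surjective g
    exact H ⟨A, by simpa using h2⟩ (fun x y => h1.map_B y x)
      (h3.imp fun z => (toLin'_pow_eq_smul_one_iff _ _ _).1)
      fun z => mt (toLin'_eq_smul_one_iff _ _).2 (h4 z)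
  · exact fun H x h1 h3 h4 => H _ (IsUS.pres (isUS_hermB n) fun a b => h1 b a) (by simp)
      (h3.imp fun z => (toLin'_pow_eq_smul_one_iff _ _ _).2)
      fun z => mt (toLin'_eq_smul_one_iff _ _).1 (h4 z)

section Red

variable [Nontrivial V] {Φ : End F V → Prop}

theorem eluU_iff (h : IsUS q B Q) (hΦ : ∀ g (z : F), Φ g → Φ (z • g)) :
    EluU B Q r Φ ↔ (∀ g, TyA B Q r g → Φ g) ∧ ∀ g, TyB B Q r g → Φ g := by
  have h0 : ∀ {c : F}, c ^ (q + 1) = 1 → c ≠ 0 := by rintro _ h rfl; simp at h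
  constructor
  · refine fun H => ⟨fun g ⟨a1, a2, a3, c, a4, a5⟩ => ?_, fun g ⟨a1, a2, z, a3, a4⟩ =>
      H g a1 a2 ⟨z, a3⟩ ?_⟩
    · simpa [smul_smul, h0 a4] using hΦ _ c⁻¹ (H (c • g) (IsUS.pres_smul h a1 a4)
        (by rw [LinearMap.det_smul, a5]) ⟨c ^ r, by rw [_root_.smul_pow, a2]⟩
        fun z e => a3 (c⁻¹ * z) (by rw [mul_smul, ← e, inv_smul_smul₀ (h0 a4)]))
    · rintro c rfl
      rw [_root_.smul_pow, one_pow] at a3
      exact a4 c (IsUS.norm_of_pres h a1) (smul_left_injective F one_ne_zero a3)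
  · rintro ⟨H1, H2⟩ g a1 a2 ⟨z, a3⟩ a4
    by_cases hz : ∃ c : F, c ^ (q + 1) = 1 ∧ c ^ r = z
    · obtain ⟨c, b1, rfl⟩ := hz
      simpa [smul_smul, h0 b1] using hΦ _ c (H1 (c⁻¹ • g) ⟨IsUS.pres_smul h a1 (by simp [b1]),
        by simp [_root_.smul_pow, a3, smul_smul, h0 b1],
        fun z e => a4 (c * z) (by rw [mul_smul, ← e, smul_inv_smul₀ (h0 b1)]),
        c, b1, by simp [a2, h0 b1]⟩)
    · exact H2 g ⟨a1, a2, z, a3, by simpa using hz⟩

theorem eluU_iff_coprime (h : IsUS q B Q) (hΦ : ∀ g (z : F), Φ g → Φ (z • g))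
    (hr : r.Coprime (q + 1)) : EluU B Q r Φ ↔ ∀ g, Pres B Q g → g ^ r = 1 → g ≠ 1 → Φ g := by
  have h1 : ∀ {c : F}, c ^ r = 1 → c ^ (q + 1) = 1 → c = 1 := fun a b => by
    simpa [hr.gcd_eq_one] using pow_gcd_eq_one.2 ⟨a, b⟩
  rw [eluU_iff h hΦ, and_iff_left fun g ⟨a1, _, z, a3, a4⟩ => by
    obtain ⟨c, b1, b2⟩ := exists_pow_eq_of_coprime' hr (IsUS.norm_of_pres h (a3 ▸ a1.pow r))
    exact absurd b2 (a4 c b1)]
  refine ⟨fun H g a1 a2 a3 => H g ⟨a1, a2, ?_, 1, by simp, by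
    rw [h1 (by rw [← map_pow, a2, map_one]) (IsUS.norm_det h a1)]; simp⟩,
    fun H g a => H g a.pres a.pow (by simpa using a.ne 1)⟩
  rintro c rfl
  rw [_root_.smul_pow, one_pow] at a2
  exact a3 (by rw [h1 (smul_left_injective F one_ne_zero (a2.trans (one_smul F _).symm))
    (IsUS.norm_of_pres h a1), one_smul])

end Red

/-! ### Elements of the second type -/

omit [FiniteDimensional F V] in
theorem natCast_ne_zero_of_dvd (hr : r ∣ q + 1) : (r : F) ≠ 0 := fun h => by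
  have := U.UF.finite (F := F) q
  have := Fintype.ofFinite F
  have h1 := FiniteField.cast_card_eq_zero F
  obtain ⟨k, hk⟩ := hr
  have h2 := congrArg (Nat.cast : ℕ → F) hk
  rw [← Nat.card_eq_fintype_card, U.UF.card_eq (q := q), Nat.cast_pow] at h1
  simp [h, pow_eq_zero_iff two_ne_zero |>.1 h1] at h2

omit [FiniteDimensional F V] in
/-- The factorisation of `X ^ r - z`. -/
theorem exists_blk [hr : Fact r.Prime] (hz : z ^ (q + 1) = 1)
    (h : ∀ c, c ^ (q + 1) = 1 → c ^ r ≠ z) : r ∣ q + 1 ∧ ∃ (T : Finset F[X]) (b : ℕ),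
      Blk T (dual (U.conj F q)) (X - C 1) natDegree b ∧ T.val.prod = X ^ r - C z ∧
      (∀ t ∈ T, Irreducible t ∧ t.Monic) ∧
      ((∀ t ∈ T, dual (U.conj F q) t = t) ∧ r = b ∧ T.card = 1 ∧ r ≠ 2 ∨
        (∀ t ∈ T, dual (U.conj F q) t ≠ t) ∧ r = 2 ∧ b = 1 ∧
          ∀ t ∈ T, dual (U.conj F q) t * t = X ^ r - C z) := by
  classical
  have := U.UF.finite (F := F) q
  have := Fintype.ofFinite F
  have hq := U.two_le_q F q
  have h0 : z ≠ 0 := by rintro rfl; simp at hz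
  have h1 : r ∣ q + 1 := by
    by_contra h1
    obtain ⟨c, b1, b2⟩ := exists_pow_eq_of_coprime' ((Nat.Prime.coprime_iff_not_dvd hr.out).2 h1) hz
    exact h c b1 b2
  have hc : ∀ c : F, c ≠ 0 → (c ^ (q + 1)) ^ (q - 1) = 1 := fun c hc => by
    rw [← pow_mul, ← U.card_units F q]
    exact congrArg Units.val (pow_card_eq_one' (x := Units.mk0 c hc))
  have he : dual (U.conj F q) (X - C 1) = X - C 1 := dual_X_sub_C_of_norm (by simp)
  refine ⟨h1, ?_⟩
  by_cases h2 : r = 2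
  · subst h2
    have h3 := natCast_ne_zero_of_dvd (F := F) h1
    obtain ⟨w, rfl⟩ : IsSquare z := by
      refine (FiniteField.isSquare_iff (fun e => h3 (e ▸ ringChar.Nat.cast_ringChar)) h0).2 ?_
      obtain ⟨k, hk⟩ : ∃ k, q = 2 * k + 1 := ⟨q / 2, by omega⟩
      rw [← Nat.card_eq_fintype_card, U.UF.card_eq (q := q), show q ^ 2 / 2 = (q + 1) * k by
        rw [hk, show (2 * k + 1) ^ 2 = 1 + 2 * ((2 * k + 1 + 1) * k) by ring]; omega, pow_mul, hz,
        one_pow]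
    have w0 := left_ne_zero_of_mul h0
    have h4 : w ^ (q + 1) ≠ 1 := fun e => h w e (sq w)
    have h5 : w ^ (q + 1) = -1 := (mul_self_eq_one_iff.1 (by rwa [← mul_pow])).resolve_left h4
    have h6 : (U.conj F q w)⁻¹ = -w := inv_eq_of_mul_eq_one_left (by
      rw [neg_mul, U.mul_conj_eq_pow, h5, neg_neg])
    have d1 : dual (U.conj F q) (X - C w) = X - C (-w) := by rw [dual_X_sub_C w0, h6]
    have d2 : dual (U.conj F q) (X - C (-w)) = X - C w := by
      rw [dual_X_sub_C (neg_ne_zero.2 w0), map_neg, inv_neg, h6, neg_neg]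
    have h7 : (X - C w : F[X]) ≠ X - C (-w) := fun e => mul_ne_zero h3 w0 (by
      have := C_injective (sub_right_injective e)
      push_cast
      linear_combination this)
    have h8 : Even (q + 1) := even_iff_two_dvd.2 h1
    refine ⟨{X - C w, X - C (-w)}, 1, ⟨one_pos, by simp, by simp [d1, d2, -map_neg],
      by simp [d1, d2, -map_neg], ?_, he, natDegree_X_sub_C 1, by simp [-map_neg]⟩, ?_, ?_,
      Or.inr ⟨by simp [d1, d2, h7, h7.symm, -map_neg], rfl, rfl, ?_⟩⟩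
    · simp only [Finset.mem_insert, Finset.mem_singleton, sub_right_inj, C_inj, not_or]
      exact ⟨fun e => h4 (by simp [← e]), fun e => h4 (by rw [← h8.neg_pow, ← e, one_pow])⟩
    · rw [Finset.insert_val_of_notMem (by simpa using h7)]
      simp
      ring
    · simp only [Finset.mem_insert, Finset.mem_singleton, forall_eq_or_imp, forall_eq]
      exact ⟨⟨irreducible_X_sub_C _, monic_X_sub_C _⟩, irreducible_X_sub_C _, monic_X_sub_C _⟩
    · simp only [Finset.mem_insert, Finset.mem_singleton, forall_eq_or_imp, forall_eq, d1, d2]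
      constructor <;> simp <;> ring
  · have h3 : ∀ c : F, c ^ r ≠ z := fun c e => h c (by
      have c0 : c ≠ 0 := by rintro rfl; exact h0 (by rw [← e, zero_pow hr.out.ne_zero])
      have h4 : r.Coprime (q - 1) := (Nat.Prime.coprime_iff_not_dvd hr.out).2 fun e => h2
        ((Nat.prime_dvd_prime_iff_eq hr.out Nat.prime_two).1
          (by simpa [show q + 1 - (q - 1) = 2 by omega] using Nat.dvd_sub h1 e))
      simpa [h4.gcd_eq_one] using pow_gcd_eq_one.2
        ⟨show (c ^ (q + 1)) ^ r = 1 by rw [pow_right_comm, e, hz], hc c c0⟩) e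
    have d1 : dual (U.conj F q) (X ^ r - C z) = X ^ r - C z := by
      rw [dual_X_pow_sub_C h0 hr.out.ne_zero, inv_eq_of_mul_eq_one_left
        ((U.mul_conj_eq_pow z).trans hz)]
    refine ⟨{X ^ r - C z}, r, ⟨hr.out.pos, by simp, by simp [d1], by simp [d1], fun e => ?_, he,
      natDegree_X_sub_C 1, by simp⟩, by simp, by
        simp [X_pow_sub_C_irreducible_of_prime hr.out h3, monic_X_pow_sub_C z hr.out.ne_zero],
      Or.inl ⟨by simp [d1], rfl, by simp, h2⟩⟩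
    have := congrArg natDegree (Finset.mem_singleton.1 e)
    rw [natDegree_X_sub_C, natDegree_X_pow_sub_C] at this
    exact hr.out.ne_one this.symm

omit [FiniteDimensional F V] in
theorem exists_blk' [hr : Fact r.Prime] (hz : z ^ (q + 1) = 1)
    (h : ∀ c, c ^ (q + 1) = 1 → c ^ r ≠ z) : r ∣ q + 1 ∧ ∃ (T : Finset F[X]) (b : ℕ),
      Blk T (dual (U.conj F q)) (X - C 1) natDegree b ∧ (∀ t, t ∈ T ↔ IsPP t ∧ t ∣ X ^ r - C z) ∧
      (∀ u : Multiset F[X], (∀ t ∈ u, t ∈ T) → u.map (dual (U.conj F q)) = u →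
        ∃ k, u.prod = (X ^ r - C z) ^ k) ∧
      ((∀ t ∈ T, dual (U.conj F q) t = t) ∧ r = b ∧ T.card = 1 ∧ r ≠ 2 ∨
        (∀ t ∈ T, dual (U.conj F q) t ≠ t) ∧ r = 2 ∧ b = 1) := by
  obtain ⟨h1, T, b, a1, a2, a3, a4⟩ := exists_blk hz h
  refine ⟨h1, T, b, a1, fun t => ⟨fun ht => ⟨IsPP.of_irreducible (a3 t ht).1 (a3 t ht).2,
    a2 ▸ Multiset.dvd_prod ht⟩, fun ⟨b1, b2⟩ => ?_⟩, fun u b1 b2 => ?_,
    a4.imp id fun a => ⟨a.1, a.2.1, a.2.2.1⟩⟩
  · have b3 := b1.irreducible_of_dvd_squarefree (squarefree_X_pow_sub_C (natCast_ne_zero_of_dvd h1)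
      (by rintro rfl; simp at hz)) b2
    obtain ⟨s, c1, c2⟩ := b3.prime.exists_mem_multiset_dvd (a2 ▸ b2)
    exact eq_of_monic_of_associated b1.monic (a3 s c1).2 (b3.associated_of_dvd (a3 s c1).1 c2) ▸ c1
  · rcases a4 with ⟨-, -, c, -⟩ | ⟨c1, -, -, c2⟩
    · obtain ⟨t, rfl⟩ := Finset.card_eq_one.1 c
      rw [Multiset.eq_replicate_of_mem (s := u) (a := t) fun b hb => by simpa using b1 b hb]
      exact ⟨Multiset.card u, by rw [Multiset.prod_replicate, ← a2]; simp⟩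
    · obtain ⟨v, rfl⟩ := a1.exists_half c1 b1 b2
      refine ⟨Multiset.card v, ?_⟩
      rw [Multiset.prod_add, ← Multiset.prod_replicate, ← Multiset.map_const',
        ← Multiset.map_congr rfl fun t ht => c2 t (b1 t (by simp [ht])), Multiset.prod_map_mul,
        Multiset.map_id']

omit [U.UF F q] in
theorem det_eq_of_prod (hr : r ≠ 0) {k : ℕ} (h : (elemDiv g).prod = (X ^ r - C z) ^ k) :
    r ∣ finrank F V ∧ LinearMap.det g = (-1) ^ finrank F V * (-z) ^ (finrank F V / r) := by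
  rw [← KSG.charpoly_eq_prod_elemDiv] at h
  have h1 := g.charpoly_natDegree
  rw [h, natDegree_pow, natDegree_X_pow_sub_C] at h1
  rw [LinearMap.det_eq_sign_charpoly_coeff, h, ← h1, Nat.mul_div_cancel _ (Nat.pos_of_ne_zero hr)]
  simp [coeff_zero_eq_eval_zero, hr]

theorem TyB.shape [Nontrivial V] [hr : Fact r.Prime] (h : IsUS q B Q) (hg : TyB B Q r g) :
    r ∣ q + 1 ∧ NB F q r (finrank F V) ∧
      (∀ m ≤ finrank F V, PN (dual (U.conj F q)) natDegree m (elemDiv g) ↔ r ∣ m) ∧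
      ∀ m, 2 * m ≤ finrank F V → (PT (dual (U.conj F q)) natDegree m (elemDiv g) ↔ r = 2 ∨ r ∣ m) := by
  obtain ⟨a1, a2, z, a3, a4⟩ := hg
  have hz := IsUS.norm_of_pres h (a3 ▸ a1.pow r)
  obtain ⟨h1, T, b, b1, b2, b3, b4⟩ := exists_blk' hz a4
  have hu : ∀ t ∈ elemDiv g, t ∈ T := fun t ht => (b2 t).2 ⟨KSG.isPP_of_mem_elemDiv ht,
    (pow_eq_smul_one_iff_elemDiv g r z).1 a3 t ht⟩
  have hd := h.toNd.map_dual_elemDiv a1.map_B
  obtain ⟨k, hk⟩ := b3 _ hu hd
  have hn := b1.sum_deg hu 0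
  rw [Multiset.replicate_zero, add_zero, ← KSG.finrank_eq_sum_elemDiv, add_zero] at hn
  refine ⟨h1, ⟨z, hz, a4, (det_eq_of_prod hr.out.ne_zero hk).imp id fun e => e.symm.trans a2⟩,
    fun m hm => b1.pn_zero (b4.imp (fun a => ⟨a.1, a.2.1⟩) fun a => ⟨a.1, by omega⟩) hu hd (hn ▸ hm),
    fun m hm => (b1.pt_zero (b4.imp (·.2.2.1) (·.1)) hu hd (hn ▸ hm)).trans ?_⟩
  rcases b4 with ⟨-, rfl, -, c⟩ | ⟨-, rfl, rfl⟩ <;> simp [*]

theorem NB.exists_tyB [hr : Fact r.Prime] (h : IsUS q B Q) (H : NB F q r (finrank F V)) :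
    ∃ g, TyB B Q r g := by
  obtain ⟨z, hz, a4, ⟨A, hA⟩, a5⟩ := H
  obtain ⟨-, T, b, b1, b2, b3, b4⟩ := exists_blk' hz a4
  obtain ⟨u, c1, c2, c3⟩ := b1.exists_sd (c := r)
    (b4.imp (fun a => ⟨a.1, a.2.1⟩) fun a => ⟨a.1, by omega⟩) A
  obtain ⟨g, d1, rfl⟩ := IsUS.realIn h (fun t ht => ((b2 t).1 (c1 t ht)).1) (fun t ht e => by
    have := X_dvd_iff.1 (e.trans ((b2 t).1 (c1 t ht)).2)
    simp [coeff_zero_eq_eval_zero, hr.out.ne_zero] at this
    simp [this] at hz) c2 (by simpa [c3, hA, mul_comm] using b1.sum_deg c1 0)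
  obtain ⟨k, hk⟩ := b3 _ c1 c2
  exact ⟨g, d1, (det_eq_of_prod hr.out.ne_zero hk).2.trans a5, z,
    (pow_eq_smul_one_iff_elemDiv g r z).2 fun t ht => ((b2 t).1 (c1 t ht)).2, a4⟩

theorem forall_tyB_iff [Nontrivial V] [Fact r.Prime] (h : IsUS q B Q) {Φ : End F V → Prop} {D : Prop}
    (H : ∀ g, TyB B Q r g → (Φ g ↔ D)) :
    (∀ g, TyB B Q r g → Φ g) ↔ ¬ NB F q r (finrank F V) ∨ D := by
  rw [← imp_iff_not_or]
  exact ⟨fun a b => (b.exists_tyB h).elim fun g hg => (H g hg).1 (a g hg),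
    fun a g hg => (H g hg).2 (a (hg.shape h).2.1)⟩

/-! ### Elements of prime order -/

section Prime

variable [Fintype F] {i b c : ℕ}

omit [FiniteDimensional F V] in
theorem blk_cycFac [hr : Fact r.Prime] (h0 : (r : F) ≠ 0) (hi : i = orderOf (q : ZMod r))
    (hb : b = if Even i then i / 2 else i) :
    Blk (cycFac r F) (dual (U.conj F q)) (X - C 1) natDegree b := by
  have h1 : b = orderOf (Fintype.card F : ZMod r) := by
    rw [← Nat.card_eq_fintype_card, U.UF.card_eq (q := q), Nat.cast_pow, orderOf_pow' _ two_ne_zero,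
      ← hi, hb]
    split_ifs with he
    · rw [Nat.gcd_eq_right he.two_dvd]
    · rw [Nat.coprime_two_right.2 (Nat.not_even_iff_odd.1 he), Nat.div_one]
  exact ⟨h1 ▸ KSG.orderOf_card_pos hr.out h0, exists_mem_cycFac hr.out h0,
    fun t => dual_mem_cycFac U.conj_conj hr.out h0,
    fun t => dual_dual_of_mem_cycFac U.conj_conj hr.out.ne_zero, KSG.X_sub_one_notMem_cycFac hr.out h0,
    dual_X_sub_C_of_norm (by simp), natDegree_X_sub_C 1,
    fun t ht => h1 ▸ KSG.natDegree_of_mem_cycFac hr.out h0 ht⟩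

omit [FiniteDimensional F V] in
theorem dual_eq_self_iff_u [hr : Fact r.Prime] (h2 : r ≠ 2) (h0 : (r : F) ≠ 0)
    (hi : i = orderOf (q : ZMod r)) {t : F[X]} (ht : t ∈ cycFac r F) :
    dual (U.conj F q) t = t ↔ i % 4 = 2 := by
  have h1 := (blk_cycFac h0 hi rfl).pos
  obtain ⟨p, a, hp, _, h3, -⟩ := U.exists_prime_pow F q
  have := Fact.mk hp
  have h4 : (q : ZMod r) ≠ 0 := fun e => by simp [hi, e] at h1
  rw [dual_eq_self_iff p (a := a) (fun x => by rw [← h3, U.conj_apply]) U.conj_conj hr.out h0 ht, ← h3,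
    ← Nat.card_eq_fintype_card, U.UF.card_eq (q := q)]
  simp only [← ZMod.natCast_eq_zero_iff _ r, Nat.cast_add, Nat.cast_pow, ← pow_mul]
  have key : ∀ j, Odd j → (q : ZMod r) ^ j = -1 → i % 4 = 2 := fun j a1 a2 => by
    rw [pow_eq_neg_one_iff h2, ← hi] at a2
    obtain ⟨k, hk⟩ := (i.even_or_odd.resolve_right fun e =>
      a2.1 ((Nat.coprime_two_right.2 e).dvd_of_dvd_mul_left a2.2)).two_dvd
    have := Nat.odd_iff.1 (a1.of_dvd_nat (Nat.dvd_of_mul_dvd_mul_left two_pos (hk ▸ a2.2)))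
    omega
  constructor
  · rintro ⟨_ | k, hk⟩
    · exact key 1 odd_one (by linear_combination hk)
    · exact key (2 * k + 1) (odd_two_mul_add_one k) (mul_right_cancel₀ h4 (by linear_combination hk))
  · intro h
    have := (pow_eq_neg_one_iff h2 (x := (q : ZMod r)) (j := i / 2)).2
      ⟨fun e => by have := Nat.le_of_dvd (by omega) (hi ▸ e); omega, hi ▸ Dvd.intro 1 (by omega)⟩
    exact ⟨i / 4 + 1, by rw [show 2 * (i / 4 + 1) = i / 2 + 1 by omega, pow_succ, this]; simp⟩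

omit [FiniteDimensional F V] in
theorem blk_cases [Fact r.Prime] (h2 : r ≠ 2) (h0 : (r : F) ≠ 0) (hi : i = orderOf (q : ZMod r))
    (hb : b = if Even i then i / 2 else i)
    (hc : c = if i % 4 = 0 then i else if i % 4 = 2 then i / 2 else 2 * i) :
    i % 4 = 2 ∧ (∀ t ∈ cycFac r F, dual (U.conj F q) t = t) ∧ c = b ∨
      i % 4 ≠ 2 ∧ (∀ t ∈ cycFac r F, dual (U.conj F q) t ≠ t) ∧ c = 2 * b := by
  simp only [Nat.even_iff] at hb
  by_cases h : i % 4 = 2
  · exact Or.inl ⟨h, fun t ht => (dual_eq_self_iff_u h2 h0 hi ht).2 h, by split_ifs at hb hc <;> omega⟩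
  · exact Or.inr ⟨h, fun t ht => mt (dual_eq_self_iff_u h2 h0 hi ht).1 h,
      by split_ifs at hb hc <;> omega⟩

omit [Fintype F] in
theorem IsUS.forall_pow_iff [hr : Fact r.Prime] (h : IsUS q B Q) (h0 : (r : F) ≠ 0)
    (hb : Blk (cycFac r F) (dual (U.conj F q)) (X - C 1) natDegree b) {P : Multiset F[X] → Prop} :
    (∀ g, Pres B Q g → g ^ r = 1 → g ≠ 1 → P (elemDiv g)) ↔
      AllB (cycFac r F) (dual (U.conj F q)) (X - C 1) b (finrank F V) P := by
  constructor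
  · intro H u k a1 a2 a3 a4
    have a5 : ∀ t ∈ u + Multiset.replicate k (X - C 1), IsPP t ∧ t ∣ X ^ r - 1 := fun t ht => by
      have := (Multiset.mem_add.1 ht).symm.imp Multiset.eq_of_mem_replicate (a1 t)
      have h1 : IsPP t := this.elim (· ▸ KSG.isPP_X_sub_C 1) KSG.isPP_of_mem_cycFac
      exact ⟨h1, (KSG.dvd_X_pow_sub_one_iff hr.out h0 h1).2 this⟩
    obtain ⟨g, b1, b2⟩ := IsUS.realIn h (fun t ht => (a5 t ht).1)
      (fun t ht => KSG.not_X_dvd_of_dvd_X_pow_sub_one hr.out.ne_zero (a5 t ht).2)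
      (map_dual_add_replicate_iff.2 a2) ((hb.sum_deg a1 k).trans a4)
    refine b2 ▸ H g b1 (by
      simpa using (pow_eq_smul_one_iff_elemDiv g r 1).2 fun t ht => (a5 t (b2 ▸ ht)).2) ?_
    rintro rfl
    rw [elemDiv_one, ← zero_add (Multiset.replicate _ _)] at b2
    exact a3 (add_replicate_inj (by simp) (fun e => hb.notMem (a1 _ e)) b2).1.symm
  · intro H g a1 a2 a3
    obtain ⟨u, k, b1, b2⟩ := exists_eq_add_replicate fun t ht =>
      mem_elemDiv_of_pow_prime hr.out h0 a2 (b := t) ht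
    have b3 := h.toNd.map_dual_elemDiv a1.map_B
    rw [b2] at b3 ⊢
    refine H u k b1 (map_dual_add_replicate_iff.1 b3) ?_
      (by rw [← hb.sum_deg b1, ← b2, KSG.finrank_eq_sum_elemDiv g])
    rintro rfl
    exact a3 ((eq_smul_one_of_elemDiv (c := 1) fun t ht =>
      Multiset.eq_of_mem_replicate (by simpa [b2] using ht)).trans (one_smul _ _))

end Prime

/-! ### Counting -/

/-- The `p'`-part of the order of `GU_n(q)`. -/
def uf (q n : ℕ) : ℕ := ∏ j ∈ Finset.range n, if Even j then q ^ (j + 1) + 1 else q ^ (j + 1) - 1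

omit [U.UF F q] in
theorem uf_pos (hq : 2 ≤ q) (n : ℕ) : 0 < uf q n := Finset.prod_pos fun j _ => by
  have : 1 < q ^ (j + 1) := Nat.one_lt_pow j.succ_ne_zero hq
  split_ifs <;> omega

omit [U.UF F q] in
theorem uf_coprime (hq : 0 < q) (n : ℕ) : (uf q n).Coprime q := Nat.Coprime.prod_left fun j _ => by
  split_ifs
  · simp [pow_succ]
  · exact coprime_pow_sub_one hq j.succ_ne_zero

omit [U.UF F q] in
theorem div_lt_of_dvd_uf [hr : Fact r.Prime] (hq : 2 ≤ q) (h2 : r ≠ 2) (h0 : ¬ r ∣ q) {i c a e N : ℕ}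
    (hi : i = orderOf (q : ZMod r))
    (hc : c = if i % 4 = 0 then i else if i % 4 = 2 then i / 2 else 2 * i) (ha : a ≤ n)
    (h : N * uf q a ∣ q ^ e * uf q n) (hN : r ∣ N) : a / c < n / c := by
  rw [uf, uf, ← Finset.prod_range_mul_prod_Ico _ ha, mul_left_comm, mul_comm N, ← uf,
    Nat.mul_dvd_mul_iff_left (uf_pos hq a)] at h
  obtain ⟨j, a1, a2⟩ := (hr.out.prime.dvd_finsetProd_iff _).1 ((hr.out.dvd_mul.1
    (hN.trans h)).resolve_left fun e => h0 (hr.out.dvd_of_dvd_pow e))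
  have a3 : c ∣ j + 1 := by
    split_ifs at a2 with he
    · rw [← ZMod.natCast_eq_zero_iff, Nat.cast_add, Nat.cast_pow, Nat.cast_one, add_eq_zero_iff_eq_neg,
        pow_eq_neg_one_iff h2, ← hi] at a2
      obtain ⟨k, rfl⟩ := (i.even_or_odd.resolve_right fun e =>
        a2.1 ((Nat.coprime_two_right.2 e).dvd_of_dvd_mul_left a2.2)).two_dvd
      have a3 := Nat.dvd_of_mul_dvd_mul_left two_pos a2.2
      have := Nat.odd_iff.1 (he.add_one.of_dvd_nat a3)
      rwa [hc, if_neg (by omega), if_pos (by omega), Nat.mul_div_cancel_left _ two_pos]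
    · rw [dvd_pow_sub_one_iff (by omega), ← hi] at a2
      rw [hc]
      split_ifs with b1 b2
      · exact a2
      · exact (Nat.div_dvd_of_dvd (by omega)).trans a2
      · exact (Nat.coprime_two_left.2 (Nat.odd_iff.2 (by omega))).mul_dvd_of_dvd_of_dvd
          (Nat.not_even_iff_odd.1 he).add_one.two_dvd a2
  obtain ⟨k, hk⟩ := a3
  have a4 := Finset.mem_Ico.1 a1
  have hc0 : 0 < c := Nat.pos_of_ne_zero (by rintro rfl; omega)
  exact ((Nat.div_lt_iff_lt_mul hc0).2 (by rw [mul_comm]; omega)).trans_le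
    ((Nat.le_div_iff_mul_le hc0).2 (by rw [mul_comm]; omega) : k ≤ _)

theorem IsUS.card_isom (h : IsUS q B Q) :
    Nat.card (Isom B Q) = q ^ (finrank F V * (finrank F V - 1) / 2) * uf q (finrank F V) := by
  obtain rfl := IsUS.eq h
  exact h.toHerm.isHermSpace.card_isom rfl

theorem IsUS.card_isoS_mul_dvd (h : IsUS q B Q) (h₁ : IsUS q B₁ Q₁) (hd : finrank F V₁ ≤ finrank F V) :
    Nat.card {X // IsoS B Q B₁ Q₁ X} * (uf q (finrank F V₁) * uf q (finrank F V - finrank F V₁)) ∣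
      q ^ (finrank F V * (finrank F V - 1) / 2) * uf q (finrank F V) := by
  have h₂ := isUS_hermB (F := F) (q := q) (finrank F V - finrank F V₁)
  rw [← IsUS.card_isom h, ← card_isoS_mul fType_u h h₁ h₂ (IsUS.isSum h₁ h₂ h (by simp; omega)),
    IsUS.card_isom h₁, IsUS.card_isom h₂, finrank_fin_fun]
  exact Nat.mul_dvd_mul_left _ (Nat.mul_dvd_mul (dvd_mul_left _ _) (dvd_mul_left _ _))

theorem IsUS.card_tss_mul_dvd (h : IsUS q B Q) (hm : 2 * m ≤ finrank F V) :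
    Nat.card {X : Submodule F V // finrank F X = m ∧ TSS B Q X} * uf q (finrank F V - 2 * m) ∣
      uf q (finrank F V) := by
  have := U.UF.finite (F := F) q
  have := Fintype.ofFinite F
  have hq := U.two_le_q F q
  obtain ⟨B₀, h₀, hV⟩ := IsUS.exists_isHSum h hm
  have e := hV.card_tss_mul fType_u h (isUS_hermB _) (m := m) (by simp)
  rw [IsUS.card_isom h, IsUS.card_isom (isUS_hermB _), card_range_trU, finrank_fin_fun,
    ← Nat.card_eq_fintype_card, U.UF.card_eq (F := F) (q := q)] at e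
  obtain ⟨l, hl⟩ := Nat.exists_eq_add_of_le hm
  rw [hl, Nat.add_sub_cancel_left] at e ⊢
  have e2 : (2 * m + l) * (2 * m + l - 1) / 2 + m = l * (l - 1) / 2 + 2 * (m * (l + m)) := by
    have : (2 * m + l) * (2 * m + l - 1) + 2 * m = l * (l - 1) + 4 * (m * (l + m)) := by
      rcases l with _ | l
      · rcases m with _ | m
        · rfl
        · rw [show 2 * (m + 1) + 0 - 1 = 2 * m + 1 by omega]; ring
      · rw [show 2 * m + (l + 1) - 1 = 2 * m + l by omega, Nat.add_sub_cancel]; ring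
    omega
  refine ⟨qf (q ^ 2) m, mul_left_cancel₀ (a := q ^ (l * (l - 1) / 2 + 2 * (m * (l + m))))
    (by positivity) ?_⟩
  conv_lhs => rw [← e2]
  rw [pow_add, pow_add, pow_mul]
  linarith

/-! ### Elements of the first type for `r ∣ q + 1` -/

theorem linear_of_pow [hr : Fact r.Prime] (h1 : r ∣ q + 1) (hg : g ^ r = 1) :
    ∀ t ∈ elemDiv g, ∃ a : F, a ^ r = 1 ∧ t = X - C a := fun t ht => by
  obtain ⟨ω, hω⟩ := exists_orderOf_eq_succ (F := F) (q := q)
  obtain ⟨k, hk⟩ := h1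
  have h2 := (pow_eq_smul_one_iff_elemDiv g r 1).1 (by simpa using hg) t ht
  have h3 := (KSG.isPP_of_mem_elemDiv ht).irreducible_of_dvd_squarefree
    (squarefree_X_pow_sub_C (natCast_ne_zero_of_dvd ⟨k, hk⟩) one_ne_zero) h2
  rw [C_1, X_pow_sub_one_eq_prod hr.out.pos (hω.pow (by simp) (hk.trans (mul_comm _ _))),
    h3.prime.dvd_finsetProd_iff] at h2
  obtain ⟨a, a1, a2⟩ := h2
  exact ⟨a, (mem_nthRootsFinset hr.out.pos 1).1 a1, eq_of_monic_of_associated
    (KSG.isPP_of_mem_elemDiv ht).monic (monic_X_sub_C a) (h3.associated_of_dvd (irreducible_X_sub_C a) a2)⟩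

theorem pn_of_pow [Fact r.Prime] (h1 : r ∣ q + 1) (hg : g ^ r = 1) (hm : m ≤ finrank F V) :
    PN (dual (U.conj F q)) natDegree m (elemDiv g) :=
  pn_of_linear (fun t ht => by
    obtain ⟨a, a1, rfl⟩ := linear_of_pow h1 hg t ht
    obtain ⟨k, hk⟩ := h1
    exact ⟨dual_X_sub_C_of_norm (by rw [U.mul_conj_eq_pow, hk, pow_mul, a1, one_pow]),
      natDegree_X_sub_C a⟩) (KSG.finrank_eq_sum_elemDiv g ▸ hm)

/-- Diagonal elements. -/
theorem IsUS.exists_diag (h : IsUS q B Q) (h1 : r ∣ q + 1) {s : Multiset F}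
    (hs : ∀ a ∈ s, a ^ r = 1) (hn : Multiset.card s = finrank F V) : ∃ g, Pres B Q g ∧ g ^ r = 1 ∧
      elemDiv g = s.map (X - C ·) ∧ LinearMap.det g = s.prod := by
  have h0 : r ≠ 0 := by rintro rfl; simp at h1
  obtain ⟨k, hk⟩ := h1
  obtain ⟨g, a1, a2⟩ := IsUS.realIn h (s := s.map (X - C ·))
    (by simp only [Multiset.forall_mem_map_iff]; exact fun a _ => KSG.isPP_X_sub_C a)
    (by simp only [Multiset.forall_mem_map_iff, X_dvd_iff]
        intro a ha e
        simpa [show a = 0 by simpa using e, h0] using hs a ha)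
    (by rw [Multiset.map_map]
        exact Multiset.map_congr rfl fun a ha => dual_X_sub_C_of_norm
          (by rw [U.mul_conj_eq_pow, hk, pow_mul, hs a ha, one_pow])) (by simp [hn])
  refine ⟨g, a1, ((pow_eq_smul_one_iff_elemDiv g r 1).2 fun t ht => ?_).trans (one_smul _ _), a2, ?_⟩
  · obtain ⟨a, ha, rfl⟩ := Multiset.mem_map.1 (a2 ▸ ht :)
    simp [dvd_iff_isRoot, hs a ha]
  · rw [det_eq_of_elemDiv, a2, ← hn, Multiset.map_map,
      Multiset.map_congr rfl (g := fun a => -1 * a) fun a _ => by simp, Multiset.prod_map_mul]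
    simp [← mul_assoc, ← mul_pow]

theorem IsUS.not_forall_tyA (h : IsUS q B Q) (h1 : r ∣ q + 1) {v : Multiset F} {k : ℕ}
    (hv : v.Nodup) (h2 : 1 ∉ v) (hs : ∀ a ∈ v, a ^ r = 1) (hn : Multiset.card v + k = finrank F V)
    (h3 : ∃ a ∈ v + Multiset.replicate k 1, ∃ b ∈ v + Multiset.replicate k 1, a ≠ b)
    (h4 : ∃ c : F, c ^ (q + 1) = 1 ∧ c ^ finrank F V * v.prod = 1) (hk : k < 2 * m) :
    ¬ ∀ g, TyA B Q r g → PT (dual (U.conj F q)) natDegree m (elemDiv g) := fun H => by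
  have h5 : ∀ a ∈ v + Multiset.replicate k 1, a ^ r = 1 := fun a ha => (Multiset.mem_add.1 ha).elim
    (hs a) fun e => by rw [Multiset.eq_of_mem_replicate e, one_pow]
  obtain ⟨g, a1, a2, a3, a4⟩ := IsUS.exists_diag h h1 h5 (by simpa using hn)
  have := H g ⟨a1, a2, by
    rintro z rfl
    obtain ⟨a, b1, b, b2, b3⟩ := h3
    exact b3 (C_injective (sub_right_injective
      ((elemDiv_smul_one (a3 ▸ Multiset.mem_map_of_mem _ b1)).trans
      (elemDiv_smul_one (a3 ▸ Multiset.mem_map_of_mem _ b2)).symm))), by simpa [a4] using h4⟩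
  rw [a3, Multiset.map_add, Multiset.map_replicate] at this
  refine not_pt_of_nodup (hv.map fun _ _ e => C_injective (sub_right_injective e))
    (mt (Multiset.mem_map_of_injective fun _ _ e => C_injective (sub_right_injective e)).1 h2)
    (fun t ht => ?_) hk this
  rw [← Multiset.map_replicate (fun a : F => X - C a), ← Multiset.map_add] at ht
  obtain ⟨a, ha, rfl⟩ := Multiset.mem_map.1 ht
  obtain ⟨j, hj⟩ := h1
  exact ⟨dual_X_sub_C_of_norm (by rw [U.mul_conj_eq_pow, hj, pow_mul, h5 a ha, one_pow]),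
    natDegree_X_sub_C a⟩

omit [U.UF F q] in
theorem orderOf_eq_two_iff [hr : Fact r.Prime] (h2 : r ≠ 2) :
    orderOf (q : ZMod r) = 2 ↔ r ∣ q + 1 := by
  have : Fact (2 < r) := ⟨lt_of_le_of_ne hr.out.two_le h2.symm⟩
  rw [orderOf_eq_prime_iff, sq_eq_one_iff, ← ZMod.natCast_eq_zero_iff, Nat.cast_succ,
    add_eq_zero_iff_eq_neg]
  exact ⟨fun h => h.1.resolve_left h.2, fun h => ⟨Or.inr h, h ▸ ZMod.neg_one_ne_one⟩⟩

omit [U.UF F q] in
theorem Blk.card_cycFac [Fintype F] [hr : Fact r.Prime] {δ : F[X] → F[X]} {b : ℕ} (h0 : (r : F) ≠ 0)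
    (h : Blk (cycFac r F) δ (X - C 1) natDegree b) : (cycFac r F).card * b = r - 1 := by
  obtain ⟨t, ht⟩ := h.ne
  rw [← h.eq t ht, KSG.natDegree_of_mem_cycFac hr.out h0 ht, KSG.card_cycFac_mul hr.out h0]

theorem IsUS.forall_tyA_pt [hr : Fact r.Prime] (h : IsUS q B Q) (h1 : r ∣ q + 1) (h2 : r ≠ 2)
    (h3 : 1 ≤ m) (hm : 2 * m ≤ finrank F V) :
    (∀ g, TyA B Q r g → PT (dual (U.conj F q)) natDegree m (elemDiv g)) ↔
      r - 1 + 2 * m ≤ finrank F V := by
  have := U.UF.finite (F := F) q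
  have := Fintype.ofFinite F
  have h0 := natCast_ne_zero_of_dvd (F := F) h1
  have hi := ((orderOf_eq_two_iff h2).2 h1).symm
  have hb := blk_cycFac h0 hi (b := 1) rfl
  have hc := hb.card_cycFac h0
  refine ⟨fun H => by_contra fun hlt => ?_, fun H g a => (IsUS.forall_pow_iff h h0 hb).2
    ((hb.all_pt_fix (fun t ht => (dual_eq_self_iff_u h2 h0 hi ht).2 rfl) hm (by omega)).2 (by omega)) g
    a.pres a.pow (by simpa using a.ne 1)⟩
  obtain ⟨ω, hω⟩ := exists_orderOf_eq_succ (F := F) (q := q)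
  obtain ⟨j, hj⟩ := id h1
  have hζ := hω.pow (by simp) (hj.trans (mul_comm _ _))
  have ho := Nat.odd_iff.1 (hr.out.odd_of_ne_two h2)
  obtain ⟨k, hk⟩ : ∃ k, k = (finrank F V - 2 * m + 2) / 2 := ⟨_, rfl⟩
  have z0 := hζ.ne_zero hr.out.ne_zero
  have inj : ∀ a ∈ Finset.Icc (-k : ℤ) k, ∀ b ∈ Finset.Icc (-k : ℤ) k, (ω ^ j) ^ a = (ω ^ j) ^ b →
      a = b := fun a ha b hb e => by
    rw [← div_eq_one_iff_eq (zpow_ne_zero _ z0), ← zpow_sub₀ z0, hζ.zpow_eq_one_iff_dvd] at e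
    rw [Finset.mem_Icc] at ha hb
    exact sub_eq_zero.1 (Int.eq_zero_of_abs_lt_dvd e (abs_lt.2 (by omega)))
  refine IsUS.not_forall_tyA h h1 (v := ((Finset.Icc (-k : ℤ) k).erase 0).val.map ((ω ^ j) ^ ·))
    (k := finrank F V - 2 * k) (Multiset.Nodup.map_on (fun a ha b hb =>
      inj a (Finset.mem_of_mem_erase ha) b (Finset.mem_of_mem_erase hb)) (Finset.nodup _)) ?_ ?_ ?_
    ⟨(ω ^ j) ^ (1 : ℤ), ?_, (ω ^ j) ^ (-1 : ℤ), ?_, fun e => ?_⟩ ⟨1, by simp, ?_⟩ (by omega) H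
  · rw [Multiset.mem_map]
    rintro ⟨a, ha, e⟩
    rw [Finset.mem_val] at ha
    exact Finset.ne_of_mem_erase ha (inj a (Finset.mem_of_mem_erase ha) 0 (by simp) (by simpa using e))
  · simp only [Multiset.forall_mem_map_iff]
    exact fun a _ => by rw [← zpow_natCast, ← zpow_mul, mul_comm, zpow_mul, zpow_natCast,
      hζ.pow_eq_one, one_zpow]
  · rw [Multiset.card_map, Finset.card_val, Finset.card_erase_of_mem (by simp), Int.card_Icc]
    omega
  · exact Multiset.mem_add.2 (Or.inl (Multiset.mem_map_of_mem _ (Finset.mem_val.mpr (by simp; omega))))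
  · exact Multiset.mem_add.2 (Or.inl (Multiset.mem_map_of_mem _ (Finset.mem_val.mpr (by simp; omega))))
  · simpa using inj 1 (by simp; omega) (-1) (by simp; omega) e
  · rw [one_pow, one_mul, Finset.prod_map_val]
    exact Finset.prod_involution (fun a _ => -a) (fun a _ => by rw [← zpow_add₀ z0]; simp)
      (fun a ha _ e => Finset.ne_of_mem_erase ha (by omega)) (fun a ha => by simp at ha ⊢; omega)
      fun a _ => neg_neg a

theorem IsUS.shape_two (h1 : Odd q) (a : TyA B Q 2 g) : ∃ j k, j + k = finrank F V ∧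
    elemDiv g = Multiset.replicate j (X - C (-1)) + Multiset.replicate k (X - C 1) ∧
    (Even j ∨ padicValNat 2 (finrank F V) < padicValNat 2 (q + 1)) := by
  obtain ⟨j, k, e⟩ := eq_replicate_add_of_mem (ν := elemDiv g) (a := X - C (-1)) (b := X - C 1)
    fun t ht => by
      obtain ⟨c, b1, rfl⟩ := linear_of_pow h1.add_one.two_dvd a.pow t ht
      rcases sq_eq_one_iff.1 b1 with rfl | rfl <;> simp
  have h2 := KSG.finrank_eq_sum_elemDiv g
  simp only [e, Multiset.map_add, Multiset.map_replicate, natDegree_X_sub_C, Multiset.sum_add,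
    Multiset.sum_replicate, smul_eq_mul, mul_one] at h2
  refine ⟨j, k, h2.symm, e, j.even_or_odd.imp id fun ho => ?_⟩
  obtain ⟨c, b1, b2⟩ := a.det
  refine (exists_pow_eq_neg_one_iff h1 (by have := ho.pos; omega)).1 ⟨c, b1, ?_⟩
  rw [det_eq_of_elemDiv, e, h2, pow_add (-1 : F), ho.neg_one_pow] at b2
  rw [h2]
  simpa [← mul_pow, neg_eq_iff_eq_neg] using b2

theorem IsUS.forall_tyA_pt_two (h : IsUS q B Q) (h1 : Odd q) (h3 : 1 ≤ m) (hm : 2 * m ≤ finrank F V) :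
    (∀ g, TyA B Q 2 g → PT (dual (U.conj F q)) natDegree m (elemDiv g)) ↔
      2 * m < finrank F V ∨ padicValNat 2 (q + 1) ≤ padicValNat 2 (finrank F V) := by
  have h2 : (1 : F) ≠ -1 := fun e => two_ne_zero_of_odd (F := F) h1 (by linear_combination e)
  refine ⟨fun H => by_contra fun hlt => ?_, fun H g a => ?_⟩
  · obtain ⟨c, b1, b2⟩ := (exists_pow_eq_neg_one_iff (F := F) h1 (n := finrank F V) (by omega)).2
      (by omega)
    exact IsUS.not_forall_tyA h h1.add_one.two_dvd (v := {-1}) (k := finrank F V - 1) (by simp)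
      (by simpa using h2) (by simp) (by simp; omega) ⟨1, by simp [Multiset.mem_replicate]; omega, -1,
        by simp, h2⟩ ⟨c, b1, by simp [b2]⟩ (by omega) H
  · obtain ⟨j, k, b1, b2, b3⟩ := IsUS.shape_two h1 a
    have d : ∀ c : F, c * c = 1 → dual (U.conj F q) (X - C c) = X - C c := fun c hc =>
      dual_X_sub_C_of_norm (by rcases mul_self_eq_one_iff.1 hc with rfl | rfl <;> simp)
    refine ⟨Multiset.replicate (min (j / 2) m) (X - C (-1)) +
      Multiset.replicate (m - min (j / 2) m) (X - C 1), ?_, by simp [-map_neg, -map_one]⟩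
    rw [Multiset.map_add, Multiset.map_replicate, Multiset.map_replicate, d _ (by simp), d _ (by simp),
      add_add_add_comm, ← Multiset.replicate_add, ← Multiset.replicate_add, b2]
    rw [Nat.even_iff] at b3
    exact add_le_add ((Multiset.replicate_le_replicate _).2 (by omega))
      ((Multiset.replicate_le_replicate _).2 (by omega))

theorem IsUS.forall_unip (h : IsUS q B Q) {p : ℕ} [hp : Fact p.Prime] [CharP F p]
    (hm : m ≤ finrank F V) :
    (∀ g, Pres B Q g → g ^ p = 1 → g ≠ 1 → PN (dual (U.conj F q)) natDegree m (elemDiv g)) ↔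
      ∀ μ : Multiset ℕ, (∀ a ∈ μ, 0 < a ∧ a ≤ p) → μ.sum = finrank F V → ∃ ν ≤ μ, ν.sum = m := by
  have hd : ∀ μ, (ub F μ).map (dual (U.conj F q)) = ub F μ := fun μ => by
    rw [ub, Multiset.map_map]
    exact Multiset.map_congr rfl fun e _ => by
      rw [Function.comp, dual_pow, dual_X_sub_C_of_norm (by simp)]
  constructor
  · intro H μ a1 a2
    obtain ⟨g, b1, b2⟩ := IsUS.realIn h (isPP_ub fun e => (a1 0 e).1.false) not_X_dvd_ub (hd μ)
      (by rw [map_natDegree_ub, a2])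
    obtain ⟨t, c1, -, c3⟩ : PN (dual (U.conj F q)) natDegree m (elemDiv g) := by
      by_cases e : g = 1
      · subst e
        exact pn_of_linear (fun t ht => by
          rw [elemDiv_one] at ht
          rw [Multiset.eq_of_mem_replicate ht]
          exact ⟨dual_X_sub_C_of_norm (by simp), natDegree_X_sub_C 1⟩)
          (KSG.finrank_eq_sum_elemDiv (1 : End F V) ▸ hm)
      · exact H g b1 (pow_char_eq_one_iff.2 ⟨μ, b2, fun e he => (a1 e he).2⟩) e
    exact ⟨t.map natDegree, map_natDegree_ub (F := F) (μ := μ) ▸ Multiset.map_le_map (b2 ▸ c1), c3⟩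
  · intro H g _ a2 _
    obtain ⟨μ, b1, b2⟩ := pow_char_eq_one_iff.1 a2
    obtain ⟨ν, c1, c2⟩ := H μ (fun a ha => ⟨Nat.pos_of_ne_zero fun e =>
      zero_notMem_of_elemDiv_eq b1 (e ▸ ha), b2 a ha⟩) (sum_of_elemDiv_eq b1)
    exact ⟨ub F ν, b1 ▸ Multiset.map_le_map c1, hd ν, by rw [map_natDegree_ub, c2]⟩

end Cfsg.Agent.Class.Elus
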